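import Cfsg.Agent.Lib.Helper25.NonVanish
import Cfsg.Agent.S0169

set_option autoImplicit false

namespace Cfsg.Agent.Lib.Helper25
namespace NonVanish

open Cfsg Cfsg.Agent.Lib.Helper2 Cfsg.Agent.Lib.Helper6 Cfsg.Agent.Lib.Helper24
open scoped ComplexConjugate

attribute [local instance] irrFintype

/-- `V` an abelian normal Sylow `p`-subgroup of `X`, `v ∈ V`:
`k(X) + |X/V| ≤ |C_X(v)| + k(X/V)`. -/
theorem class_bound {X : Type*} [Group X] [Finite X] (p : ℕ) [Fact p.Prime] (V : Subgroup X)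
    [V.Normal] (hVp : IsPGroup p V) (hidx : ¬ p ∣ V.index) (hab : ∀ a ∈ V, ∀ b ∈ V, a * b = b * a)
    (v : X) (hv : v ∈ V) :
    Nat.card (ConjClasses X) + Nat.card (X ⧸ V)
      ≤ Nat.card (Subgroup.centralizer ({v} : Set X)) + Nat.card (ConjClasses (X ⧸ V)) := by
  classical
  haveI := Fintype.ofFinite X
  have hp : p.Prime := Fact.out
  set n := Nat.card X with hn
  haveI : NeZero n := ⟨Nat.card_pos.ne'⟩
  have hvn : v ^ n = 1 := pow_card_eq_one'
  obtain ⟨k, hk⟩ := hVp ⟨v, hv⟩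
  have hvk : v ^ (p ^ k) = 1 := by simpa using congrArg Subtype.val hk
  have hdeg : ∀ χ : IrrCharacter X, ¬ p ∣ charDegree (χ : X → ℂ) := by
    intro χ hd
    obtain ⟨d, ρ, hρ, hχ⟩ := χ.2
    haveI := hρ
    have h1 := Cfsg.Agent.S0169.result ρ V hab
    have h2 : charDegree (χ : X → ℂ) = Module.finrank ℂ (Fin d → ℂ) := by
      have h3 := charDegree_cast (IsIrrCharacter.isCharacter χ.2)
      rw [← hχ, Representation.char_one] at h3
      rw [← hχ]
      exact_mod_cast h3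
    rw [h2] at hd
    exact hidx (hd.trans h1)
  have hne : ∀ χ : IrrCharacter X, (χ : X → ℂ) v ≠ 0 := fun χ =>
    NonVanish.ne_zero_of_pElement hp (IsIrrCharacter.isCharacter χ.2) (hdeg χ) hvk
  set T' := (Finset.univ : Finset (IrrCharacter X)).filter
    (fun χ : IrrCharacter X => ∀ u ∈ V, (χ : X → ℂ) u = (χ : X → ℂ) 1) with hT'
  set T := (Finset.univ : Finset (IrrCharacter X)).filter
    (fun χ : IrrCharacter X => ¬ ∀ u ∈ V, (χ : X → ℂ) u = (χ : X → ℂ) 1) with hT
  have hcardT : T'.card + T.card = Nat.card (ConjClasses X) := by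
    rw [hT', hT, Finset.card_filter_add_card_filter_not, Finset.card_univ,
      ← Nat.card_eq_fintype_card, card_irr_eq_card_conjClasses]
  have hcardT' : T'.card = Nat.card (ConjClasses (X ⧸ V)) := by
    rw [← NonVanish.card_irr_ker V, Nat.card_eq_fintype_card, Fintype.card_subtype]
  -- sum over T'
  have hsumT' : ∀ y ∈ V, ∑ χ ∈ T', ‖(χ : X → ℂ) y‖ ^ 2 = (Nat.card (X ⧸ V) : ℝ) := by
    intro y hy
    have h1 : ∑ χ ∈ T', ‖(χ : X → ℂ) y‖ ^ 2 = ∑ χ ∈ T', ‖(χ : X → ℂ) 1‖ ^ 2 := by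
      apply Finset.sum_congr rfl
      intro χ hχ
      rw [(Finset.mem_filter.1 hχ).2 y hy]
    rw [h1, Finset.sum_subtype T' (p := fun χ : IrrCharacter X =>
      ∀ u ∈ V, (χ : X → ℂ) u = (χ : X → ℂ) 1) (by intro χ; simp [hT']),
      ← Equiv.sum_comp (NonVanish.inflEquiv V)]
    have h2 := NonVanish.sum_norm_sq (1 : X ⧸ V)
    have h3 : Subgroup.centralizer ({(1 : X ⧸ V)} : Set (X ⧸ V)) = ⊤ := by
      ext z; simp [Subgroup.mem_centralizer_singleton_iff]
    rw [h3, Subgroup.card_top] at h2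
    rw [← h2]
    apply Finset.sum_congr rfl
    intro ψ _
    rw [NonVanish.inflEquiv_apply]
    rfl
  have hcen : ∀ j : (ZMod n)ˣ, Subgroup.centralizer ({v ^ (j : ZMod n).val} : Set X)
      = Subgroup.centralizer ({v} : Set X) := by
    intro j
    have hcop : ((j : ZMod n).val).Coprime (orderOf v) :=
      (ZMod.val_coe_unit_coprime j).coprime_dvd_right (orderOf_dvd_natCard v)
    obtain ⟨m, hm⟩ := exists_pow_eq_self_of_coprime hcop
    ext z
    rw [Subgroup.mem_centralizer_singleton_iff, Subgroup.mem_centralizer_singleton_iff]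
    constructor
    · intro h
      have : Commute z (v ^ (j : ZMod n).val) := h
      have h2 := this.pow_right m
      rw [hm] at h2
      exact h2
    · intro h
      have : Commute z v := h
      exact this.pow_right _
  have hsumT : ∀ j : (ZMod n)ˣ, ∑ χ ∈ T, ‖(χ : X → ℂ) (v ^ (j : ZMod n).val)‖ ^ 2
      = (Nat.card (Subgroup.centralizer ({v} : Set X)) : ℝ) - (Nat.card (X ⧸ V) : ℝ) := by
    intro j
    have h1 := NonVanish.sum_norm_sq (v ^ (j : ZMod n).val)
    rw [hcen j, ← Finset.sum_filter_add_sum_filter_not Finset.univ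
      (fun χ : IrrCharacter X => ∀ u ∈ V, (χ : X → ℂ) u = (χ : X → ℂ) 1),
      hsumT' _ (V.pow_mem hv _)] at h1
    linarith
  have hamgm : (Fintype.card (ZMod n)ˣ : ℝ) * T.card
      ≤ ∑ χ ∈ T, ∑ j : (ZMod n)ˣ, ‖(χ : X → ℂ) (v ^ (j : ZMod n).val)‖ ^ 2 := by
    have : ∑ χ ∈ T, (Fintype.card (ZMod n)ˣ : ℝ)
        ≤ ∑ χ ∈ T, ∑ j : (ZMod n)ˣ, ‖(χ : X → ℂ) (v ^ (j : ZMod n).val)‖ ^ 2 :=
      Finset.sum_le_sum (fun χ _ =>
        card_units_le_sum_norm_sq (IsIrrCharacter.isCharacter χ.2) v n hvn (hne χ))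
    rw [Finset.sum_const, nsmul_eq_mul, mul_comm] at this
    exact this
  rw [Finset.sum_comm, Finset.sum_congr rfl (fun j _ => hsumT j), Finset.sum_const,
    Finset.card_univ, nsmul_eq_mul] at hamgm
  have hφ : (0 : ℝ) < (Fintype.card (ZMod n)ˣ : ℝ) := by
    exact_mod_cast Fintype.card_pos
  have h5 : (T.card : ℝ)
      ≤ (Nat.card (Subgroup.centralizer ({v} : Set X)) : ℝ) - (Nat.card (X ⧸ V) : ℝ) :=
    le_of_mul_le_mul_left hamgm hφ
  have h6 : T.card + Nat.card (X ⧸ V) ≤ Nat.card (Subgroup.centralizer ({v} : Set X)) := by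
    have : ((T.card + Nat.card (X ⧸ V) : ℕ) : ℝ)
        ≤ (Nat.card (Subgroup.centralizer ({v} : Set X)) : ℝ) := by
      push_cast; linarith
    exact_mod_cast this
  omega

end NonVanish
end Cfsg.Agent.Lib.Helper25
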