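import Mathlib
import Cfsg.Agent.Lib.Helper1.Hall

/-!
# Coprime layers: the group theory of the central case
-/

set_option autoImplicit false

namespace Cfsg.Agent.Lib.Helper25.CopLayers

theorem exists_pi_decomp (m : ℕ) : ∀ n : ℕ, 0 < n → ∃ a b : ℕ, n = a * b ∧ b.Coprime m ∧
    ∀ k : ℕ, k.Coprime m → k.Coprime a := by
  intro n
  induction n using Nat.strong_induction_on with
  | _ n ih =>
    intro hn
    by_cases h : n.Coprime m
    · exact ⟨1, n, (one_mul n).symm, h, fun k _ => Nat.coprime_one_right k⟩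
    · obtain ⟨n', hn'⟩ := Nat.gcd_dvd_left n m
      have hd0 : 0 < n.gcd m := Nat.gcd_pos_of_pos_left m hn
      have hd1 : 1 < n.gcd m := by
        have : n.gcd m ≠ 1 := h
        omega
      have hn'0 : 0 < n' := by
        rcases Nat.eq_zero_or_pos n' with h0 | h0
        · rw [h0, mul_zero] at hn'
          omega
        · exact h0
      have hlt : n' < n := by
        calc n' = 1 * n' := (one_mul n').symm
          _ < n.gcd m * n' := Nat.mul_lt_mul_of_pos_right hd1 hn'0
          _ = n := hn'.symm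
      obtain ⟨a, b, hab, hb, ha⟩ := ih n' hlt hn'0
      refine ⟨n.gcd m * a, b, ?_, hb, fun k hk => ?_⟩
      · rw [mul_assoc, ← hab]
        exact hn'
      · exact Nat.Coprime.mul_right (Nat.Coprime.coprime_dvd_right (Nat.gcd_dvd_right n m) hk)
          (ha k hk)

theorem exists_hall_structure {Q : Type*} [Group Q] [Finite Q] (G Z : Subgroup Q) [hG : G.Normal]
    (hZG : Z ≤ G) (hZc : ∀ z ∈ Z, ∀ x : Q, z * x = x * z)
    (hcop : G.index.Coprime (Z.relIndex G)) :
    ∃ H S : Subgroup Q, H.Normal ∧ H ≤ G ∧ (∀ g ∈ G, ∃ h ∈ H, ∃ z ∈ Z, g = h * z) ∧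
      (∀ x : Q, ∃ h ∈ H, ∃ s ∈ S, x = h * s) ∧ (Nat.card H).Coprime (Nat.card S) ∧
      (Z.relIndex G).Coprime (Nat.card S) := by
  classical
  set m := Z.relIndex G with hm
  obtain ⟨a, b, hab, hbm, ha⟩ := exists_pi_decomp m (Nat.card Z) Nat.card_pos
  have hba : b.Coprime a := ha b hbm
  haveI : Group.IsSolvable Z := isSolvable_of_comm (fun x y => Subtype.ext (hZc x x.2 y))
  obtain ⟨Z₀, hZ₀⟩ := Cfsg.Agent.Lib.Helper1.hall_exists (G := Z) b a (by rw [hab, mul_comm]) hba
  set Z₁ : Subgroup G := Z₀.map (Subgroup.inclusion hZG) with hZ₁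
  have hZ₁card : Nat.card Z₁ = b := by
    rw [hZ₁, Subgroup.card_map_of_injective (Subgroup.inclusion_injective hZG), hZ₀]
  have hZ₁Z : ∀ z ∈ Z₁, (z : Q) ∈ Z := by
    rintro _ ⟨z, -, rfl⟩
    exact z.2
  have hZ₁c : ∀ z ∈ Z₁, ∀ x : G, z * x = x * z := by
    intro z hz x
    exact Subtype.ext (hZc z (hZ₁Z z hz) x)
  haveI : Z₁.Normal := by
    constructor
    intro z hz x
    rw [← hZ₁c z hz x, mul_inv_cancel_right]
    exact hz
  have hGcard : Nat.card G = m * (a * b) := by
    rw [← hab, hm]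
    have h1 := Subgroup.relIndex_mul_relIndex ⊥ Z G bot_le hZG
    rw [Subgroup.relIndex_bot_left, Subgroup.relIndex_bot_left] at h1
    rw [← h1, mul_comm]
  have hb0 : 0 < b := by
    rw [← hZ₁card]
    exact Nat.card_pos
  have hidx : Z₁.index = m * a := by
    have h1 := Z₁.card_mul_index
    rw [hZ₁card, hGcard] at h1
    have h2 : b * Z₁.index = b * (m * a) := by rw [h1]; ring
    exact Nat.eq_of_mul_eq_mul_left hb0 h2
  have hbma : b.Coprime (m * a) := Nat.Coprime.mul_right hbm hba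
  obtain ⟨H', hH'⟩ := Subgroup.exists_right_complement'_of_coprime (N := Z₁) (by
    rw [hZ₁card, hidx]
    exact hbma)
  have hH'card : Nat.card H' = m * a := by
    have h1 := hH'.card_mul
    rw [hZ₁card, hGcard] at h1
    have h2 : b * Nat.card H' = b * (m * a) := by rw [h1]; ring
    exact Nat.eq_of_mul_eq_mul_left hb0 h2
  have hdec : ∀ g : G, ∃ z ∈ Z₁, ∃ h ∈ H', g = z * h := by
    intro g
    obtain ⟨⟨z, h⟩, hzh⟩ := hH'.2 g
    exact ⟨z, z.2, h, h.2, hzh.symm⟩
  have hchar : ∀ g : G, g ∈ H' ↔ g ^ (m * a) = 1 := by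
    intro g
    constructor
    · intro hg
      have h1 : (⟨g, hg⟩ : H') ^ Nat.card H' = 1 := pow_card_eq_one'
      rw [hH'card] at h1
      exact congrArg Subtype.val h1
    · intro hg
      obtain ⟨z, hz, h, hh, rfl⟩ := hdec g
      have h1 : (⟨h, hh⟩ : H') ^ Nat.card H' = 1 := pow_card_eq_one'
      rw [hH'card] at h1
      have h2 : h ^ (m * a) = 1 := congrArg Subtype.val h1
      have h3 : (⟨z, hz⟩ : Z₁) ^ Nat.card Z₁ = 1 := pow_card_eq_one'
      rw [hZ₁card] at h3
      have h4 : z ^ b = 1 := congrArg Subtype.val h3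
      rw [(show Commute z h from hZ₁c z hz h).mul_pow, h2, mul_one] at hg
      have h5 := pow_gcd_eq_one.mpr ⟨h4, hg⟩
      rw [hbma, pow_one] at h5
      rw [h5, one_mul]
      exact hh
  set H : Subgroup Q := H'.map G.subtype with hH
  have hHcard : Nat.card H = m * a := by
    rw [hH, Subgroup.card_map_of_injective G.subtype_injective, hH'card]
  have hHG : H ≤ G := by
    rintro _ ⟨h, -, rfl⟩
    exact h.2
  haveI hHn : H.Normal := by
    constructor
    rintro _ ⟨h, hh, rfl⟩ x
    refine ⟨⟨x * h * x⁻¹, hG.conj_mem h h.2 x⟩, ?_, rfl⟩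
    rw [SetLike.mem_coe, hchar]
    apply Subtype.ext
    have h1 : (h : Q) ^ (m * a) = 1 := by
      have := (hchar h).mp hh
      exact_mod_cast congrArg Subtype.val this
    show (x * (h : Q) * x⁻¹) ^ (m * a) = 1
    rw [conj_pow, h1, mul_one, mul_inv_cancel]
  have hHidx : H.index = G.index * b := by
    have h1 := H.card_mul_index
    have h2 := G.card_mul_index
    rw [hHcard] at h1
    rw [hGcard] at h2
    have hma0 : 0 < m * a := by
      rw [← hHcard]
      exact Nat.card_pos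
    have h3 : m * a * H.index = m * a * (G.index * b) := by rw [h1, ← h2]; ring
    exact Nat.eq_of_mul_eq_mul_left hma0 h3
  have hcopH : (m * a).Coprime (G.index * b) := by
    apply Nat.Coprime.mul_left
    · exact Nat.Coprime.mul_right hcop.symm hbm.symm
    · exact Nat.Coprime.mul_right (ha _ hcop).symm hba.symm
  obtain ⟨S, hS⟩ := Subgroup.exists_right_complement'_of_coprime (N := H) (by
    rw [hHcard, hHidx]
    exact hcopH)
  have hScard : Nat.card S = G.index * b := by
    have h1 := hS.card_mul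
    have h2 := H.card_mul_index
    rw [← h2, hHidx] at h1
    exact Nat.eq_of_mul_eq_mul_left Nat.card_pos h1
  refine ⟨H, S, hHn, hHG, ?_, ?_, ?_, ?_⟩
  · intro g hg
    obtain ⟨z, hz, h, hh, hzh⟩ := hdec ⟨g, hg⟩
    refine ⟨h, ⟨h, hh, rfl⟩, z, hZ₁Z z hz, ?_⟩
    have h1 : g = (z : Q) * h := congrArg Subtype.val hzh
    rw [h1]
    exact hZc z (hZ₁Z z hz) h
  · intro x
    obtain ⟨⟨h, s⟩, hhs⟩ := hS.2 x
    exact ⟨h, h.2, s, s.2, hhs.symm⟩
  · rw [hHcard, hScard]
    exact hcopH
  · rw [hScard]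
    exact Nat.Coprime.mul_right hcop.symm hbm.symm

end Cfsg.Agent.Lib.Helper25.CopLayers
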