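import Mathlib
import Cfsg.Agent.Lib.Helper25.CopLayers1
import Cfsg.Agent.Lib.Helper24.Central
import Cfsg.Agent.Lib.Helper13.CentralExt3
import Cfsg.Agent.S4448
import Cfsg.Agent.S4449

/-!
# Coprime layers: the central case
-/

set_option autoImplicit false

namespace Cfsg.Agent.Lib.Helper25.CopLayers

open Cfsg Cfsg.Agent.Lib.Helper2 Cfsg.Agent.Lib.Helper6 Cfsg.Agent.Lib.Helper24
open Cfsg.Agent.Lib.Helper13
open scoped ComplexConjugate Classical

theorem over_central {G Z : Type*} [Group G] [Finite G] [Group Z] [Fintype Z] (i : Z →* G)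
    (hi : ∀ z x, i z * x = x * i z) {χ : G → ℂ} (hχ : IsIrrCharacter G χ) (μ : Z →* ℂˣ)
    (hov : classInner (fun z : Z => χ (i z)) (fun z => (μ z : ℂ)) ≠ 0) (z : Z) (y : G) :
    χ (i z * y) = μ z * χ y := by
  have h0 := irr_one_ne_zero hχ
  have hc : ∀ z, i z ∈ Subgroup.center G := fun z =>
    Subgroup.mem_center_iff.mpr (fun x => (hi z x).symm)
  let ω₀ : Z →* ℂ :=
    { toFun := fun z => χ (i z) / χ 1
      map_one' := by rw [map_one]; exact div_self h0
      map_mul' := fun a b => by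
        rw [map_mul, central_mul hχ (hc a)]
        field_simp }
  let ω : Z →* ℂˣ := ω₀.toHomUnits
  have hω : ∀ z, (ω z : ℂ) = χ (i z) / χ 1 := fun z => rfl
  have h1 : (fun z : Z => χ (i z)) = χ 1 • (fun z => (ω z : ℂ)) := by
    funext z
    rw [Pi.smul_apply, smul_eq_mul, hω]
    field_simp
  rw [h1, classInner_smul_left, classInner_irr (isIrrCharacter_of_hom ω)
    (isIrrCharacter_of_hom μ)] at hov
  have h2 : (fun z => (ω z : ℂ)) = fun z => (μ z : ℂ) := by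
    by_contra hne
    rw [if_neg hne, mul_zero] at hov
    exact hov rfl
  have h3 := congrFun h2 z
  simp only [hω] at h3
  rw [central_mul hχ (hc z), ← h3]
  field_simp

theorem central_product {G H Z : Type*} [Group G] [Finite G] [Group H] [Finite H] [Group Z]
    [Finite Z] (iH : H →* G) (iZ : Z →* G) (hi : ∀ z x, iZ z * x = x * iZ z)
    (hsurj : ∀ g, ∃ h z, g = iH h * iZ z) {β₂ : H → ℂ} (hβ₂ : IsIrrCharacter H β₂) (μ : Z →* ℂˣ)
    (hcompat : ∀ h z, iH h = iZ z → β₂ h = μ z * β₂ 1) :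
    ∃ β : G → ℂ, IsIrrCharacter G β ∧ ∀ h z, β (iH h * iZ z) = β₂ h * μ z := by
  cases nonempty_fintype H
  cases nonempty_fintype Z
  let m : H × Z →* G := MonoidHom.mk' (fun p => iH p.1 * iZ p.2) (by
    intro a b
    show iH (a.1 * b.1) * iZ (a.2 * b.2) = iH a.1 * iZ a.2 * (iH b.1 * iZ b.2)
    rw [map_mul, map_mul]
    calc iH a.1 * iH b.1 * (iZ a.2 * iZ b.2) = iH a.1 * (iH b.1 * iZ a.2) * iZ b.2 := by group
      _ = iH a.1 * (iZ a.2 * iH b.1) * iZ b.2 := by rw [hi]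
      _ = _ := by group)
  have hm : Function.Surjective m := by
    intro g
    obtain ⟨h, z, rfl⟩ := hsurj g
    exact ⟨(h, z), rfl⟩
  have h1 : IsIrrCharacter (H × Z) (fun p => β₂ p.1) :=
    Cfsg.Agent.Lib.Helper24.IsIrrCharacter.inflate (MonoidHom.fst H Z)
      (fun h => ⟨(h, 1), rfl⟩) hβ₂
  have h2 : IsIrrCharacter (H × Z) (fun p => ((μ.comp (MonoidHom.snd H Z)) p : ℂ)) :=
    isIrrCharacter_of_hom _
  have h3 := IsIrrCharacter.linear_mul (IsIrrCharacter.isCharacter h2) (by simp) h1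
  obtain ⟨β, hβ, hβm⟩ := IsIrrCharacter.deflate_hom m hm h3 (by
    rintro ⟨h, z⟩ hx
    have hx' : iH h * iZ z = 1 := hx
    have h4 : iH h = iZ z⁻¹ := by
      rw [map_inv]
      exact eq_inv_of_mul_eq_one_left hx'
    show ((μ z : ℂˣ) : ℂ) * β₂ h = ((μ 1 : ℂˣ) : ℂ) * β₂ 1
    rw [hcompat h z⁻¹ h4, map_inv, map_one, ← mul_assoc, Units.val_inv_eq_inv_val,
      mul_inv_cancel₀ (Units.ne_zero _)]
    simp)
  refine ⟨β, hβ, fun h z => ?_⟩
  have := hβm (h, z)
  rw [show m (h, z) = iH h * iZ z from rfl] at this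
  rw [this]
  show ((μ z : ℂˣ) : ℂ) * β₂ h = _
  ring

theorem solvable_of_derived {Q : Type*} [Group Q] (G S : Subgroup Q)
    (h : ∃ n, derivedSeries Q n ≤ G) (hcomm : ∀ a ∈ S ⊓ G, ∀ b ∈ S ⊓ G, a * b = b * a) :
    Group.IsSolvable S := by
  obtain ⟨n, hn⟩ := h
  rw [isSolvable_def]
  refine ⟨n + 1, ?_⟩
  rw [derivedSeries_succ, eq_bot_iff, Subgroup.commutator_le]
  intro a ha b hb
  have h1 : ∀ x ∈ derivedSeries S n, (x : Q) ∈ S ⊓ G := by
    intro x hx
    refine Subgroup.mem_inf.mpr ⟨x.2, hn ?_⟩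
    exact map_derivedSeries_le_derivedSeries S.subtype n ⟨x, hx, rfl⟩
  rw [Subgroup.mem_bot, commutatorElement_eq_one_iff_mul_comm]
  exact Subtype.ext (hcomm a (h1 a ha) b (h1 b hb))

end Cfsg.Agent.Lib.Helper25.CopLayers
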