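import Mathlib
import Cfsg.Agent.Lib.Helper25.CopLayers2

/-!
# Coprime layers: the central case, II
-/

set_option autoImplicit false

namespace Cfsg.Agent.Lib.Helper25.CopLayers

open Cfsg Cfsg.Agent.Lib.Helper2 Cfsg.Agent.Lib.Helper6 Cfsg.Agent.Lib.Helper24
open Cfsg.Agent.Lib.Helper13
open scoped ComplexConjugate Classical

theorem solvable_quot_of_derived {G : Type*} [Group G] (N : Subgroup G) [N.Normal]
    (h : ∃ n, derivedSeries G n ≤ N) : Group.IsSolvable (G ⧸ N) := by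
  obtain ⟨n, hn⟩ := h
  rw [isSolvable_def]
  refine ⟨n, ?_⟩
  rw [← map_derivedSeries_eq (QuotientGroup.mk'_surjective N), eq_bot_iff,
    Subgroup.map_le_iff_le_comap]
  intro x hx
  rw [Subgroup.mem_comap, Subgroup.mem_bot]
  exact (QuotientGroup.eq_one_iff x).mpr (hn hx)

theorem derived_of_solvable_quot {G : Type*} [Group G] (N : Subgroup G) [N.Normal]
    (h : Group.IsSolvable (G ⧸ N)) : ∃ n, derivedSeries G n ≤ N := by
  rw [isSolvable_def] at h
  obtain ⟨n, hn⟩ := h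
  refine ⟨n, ?_⟩
  rw [← map_derivedSeries_eq (QuotientGroup.mk'_surjective N), eq_bot_iff,
    Subgroup.map_le_iff_le_comap] at hn
  intro x hx
  have := hn hx
  rw [Subgroup.mem_comap, Subgroup.mem_bot] at this
  exact (QuotientGroup.eq_one_iff x).mp this

theorem central_case {Q : Type*} [Group Q] [Fintype Q] (G Z : Subgroup Q) [hG : G.Normal]
    (hZG : Z ≤ G) (hZc : ∀ z ∈ Z, ∀ x : Q, z * x = x * z)
    (hcop : G.index.Coprime (Z.relIndex G))
    (hsolv : (∃ n, derivedSeries Q n ≤ G) ∨ ∃ n, derivedSeries G n ≤ Z.subgroupOf G)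
    (μ : Z →* ℂˣ) :
    ∃ β : G → ℂ, IsIrrCharacter G β ∧
      (∀ (z : Z) (y : G), β (⟨z, hZG z.2⟩ * y) = μ z * β y) ∧
      ∀ (x : Q) (g : G), β ⟨x * g * x⁻¹, hG.conj_mem g g.2 x⟩ = β g := by
  obtain ⟨H, S, hHn, hHG, hdec, hHS, hcopHS, hcopm⟩ := exists_hall_structure G Z hZG hZc hcop
  have hconjZ : ∀ z ∈ Z, ∀ x : Q, x * z * x⁻¹ = z := by
    intro z hz x
    rw [← hZc z hz x, mul_inv_cancel_right]
  rcases hsolv with hsolv | hsolv
  · -- `Γ/G` solvable
    have hbot : H ⊓ S = ⊥ := Subgroup.inf_eq_bot_of_coprime hcopHS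
    have hSsolv : Group.IsSolvable S := by
      apply solvable_of_derived G S hsolv
      intro a ha b hb
      obtain ⟨h₁, hh₁, z₁, hz₁, rfl⟩ := hdec a (Subgroup.mem_inf.mp ha).2
      have h1 : h₁ * z₁ * b * (h₁ * z₁)⁻¹ * b⁻¹ = h₁ * (b * h₁⁻¹ * b⁻¹) := by
        calc h₁ * z₁ * b * (h₁ * z₁)⁻¹ * b⁻¹ = h₁ * (z₁ * b) * z₁⁻¹ * h₁⁻¹ * b⁻¹ := by group
          _ = h₁ * (b * z₁) * z₁⁻¹ * h₁⁻¹ * b⁻¹ := by rw [hZc z₁ hz₁ b]
          _ = _ := by group
      have h2 : h₁ * z₁ * b * (h₁ * z₁)⁻¹ * b⁻¹ ∈ H ⊓ S := by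
        refine Subgroup.mem_inf.mpr ⟨?_, ?_⟩
        · rw [h1]
          exact H.mul_mem hh₁ (hHn.conj_mem _ (H.inv_mem hh₁) b)
        · exact S.mul_mem (S.mul_mem (S.mul_mem (Subgroup.mem_inf.mp ha).1
            (Subgroup.mem_inf.mp hb).1) (S.inv_mem (Subgroup.mem_inf.mp ha).1))
            (S.inv_mem (Subgroup.mem_inf.mp hb).1)
      rw [hbot, Subgroup.mem_bot] at h2
      have h3 : h₁ * z₁ * b = (h₁ * z₁ * b * (h₁ * z₁)⁻¹ * b⁻¹) * (b * (h₁ * z₁)) := by group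
      rw [h3, h2, one_mul]
    let μ' : (Z ⊓ H : Subgroup Q) →* ℂˣ := μ.comp (Subgroup.inclusion inf_le_left)
    obtain ⟨χ, hov, hinv⟩ := Cfsg.Agent.S4449.result H S (Z ⊓ H)
      (fun s _ g hg => hHn.conj_mem g hg s) inf_le_right
      (fun g _ n hn => by rw [hconjZ n (Subgroup.mem_inf.mp hn).1 g]; exact hn)
      (fun g _ n hn => by rw [hconjZ n (Subgroup.mem_inf.mp hn).1 g]; exact hn)
      hcopHS hSsolv ⟨_, isIrrCharacter_of_hom μ'⟩ (by
        intro s _ g g' hgg'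
        rw [hconjZ g (Subgroup.mem_inf.mp g.2).1 s] at hgg'
        rw [Subtype.ext hgg'])
    have hcen := over_central (Subgroup.inclusion (inf_le_right : Z ⊓ H ≤ H))
      (fun z x => Subtype.ext (hZc z (Subgroup.mem_inf.mp z.2).1 x)) χ.2 μ' hov
    obtain ⟨β, hβ, hβm⟩ := central_product (Subgroup.inclusion hHG) (Subgroup.inclusion hZG)
      (fun z x => Subtype.ext (hZc z z.2 x)) (by
        intro g
        obtain ⟨h, hh, z, hz, hg⟩ := hdec g g.2
        exact ⟨⟨h, hh⟩, ⟨z, hz⟩, Subtype.ext hg⟩) χ.2 μ (by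
        intro h z hhz
        have hhz' : (h : Q) = z := congrArg Subtype.val hhz
        have hw : (h : Q) ∈ Z ⊓ H := Subgroup.mem_inf.mpr ⟨hhz' ▸ z.2, h.2⟩
        have h1 := hcen ⟨h, hw⟩ 1
        rw [mul_one] at h1
        have h2 : Subgroup.inclusion (inf_le_right : Z ⊓ H ≤ H) ⟨h, hw⟩ = h := rfl
        have h3 : μ' ⟨h, hw⟩ = μ z := by
          show μ _ = μ z
          congr 1
          exact Subtype.ext hhz'
        rw [h2, h3] at h1
        exact h1)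
    have hχQ : ∀ (x : Q) (h : H), (χ : H → ℂ) ⟨x * h * x⁻¹, hHn.conj_mem h h.2 x⟩ =
        (χ : H → ℂ) h := by
      intro x h
      obtain ⟨k, hk, s, hs, rfl⟩ := hHS x
      have h1 := hinv s hs h ⟨s * h * s⁻¹, hHn.conj_mem h h.2 s⟩ rfl
      have h2 := IsCharacter.isClassFunction (IsIrrCharacter.isCharacter χ.2)
        ⟨s * h * s⁻¹, hHn.conj_mem h h.2 s⟩ ⟨k, hk⟩
      rw [← h1, ← h2]
      refine congrArg (χ : H → ℂ) (Subtype.ext ?_)
      show k * s * h * (k * s)⁻¹ = k * (s * h * s⁻¹) * k⁻¹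
      group
    refine ⟨β, hβ, ?_, ?_⟩
    · intro z y
      obtain ⟨h, hh, w, hw, hy⟩ := hdec y y.2
      have h1 : y = Subgroup.inclusion hHG ⟨h, hh⟩ * Subgroup.inclusion hZG ⟨w, hw⟩ :=
        Subtype.ext hy
      have h2 : (⟨z, hZG z.2⟩ : G) * y =
          Subgroup.inclusion hHG ⟨h, hh⟩ * Subgroup.inclusion hZG (z * ⟨w, hw⟩) := by
        apply Subtype.ext
        show (z : Q) * y = h * (z * w)
        rw [hy, ← mul_assoc, ← mul_assoc, hZc z z.2 h]
      rw [h2, hβm, h1, hβm, map_mul, Units.val_mul]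
      ring
    · intro x g
      obtain ⟨h, hh, w, hw, hg⟩ := hdec g g.2
      have h1 : g = Subgroup.inclusion hHG ⟨h, hh⟩ * Subgroup.inclusion hZG ⟨w, hw⟩ :=
        Subtype.ext hg
      have h2 : (⟨x * g * x⁻¹, hG.conj_mem g g.2 x⟩ : G) =
          Subgroup.inclusion hHG ⟨x * h * x⁻¹, hHn.conj_mem h hh x⟩ *
            Subgroup.inclusion hZG ⟨w, hw⟩ := by
        apply Subtype.ext
        show x * g * x⁻¹ = x * h * x⁻¹ * w
        rw [hg]
        calc x * (h * w) * x⁻¹ = x * h * (w * x⁻¹) := by group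
          _ = x * h * (x⁻¹ * w) := by rw [hZc w hw]
          _ = _ := by group
      rw [h2, hβm, hχQ x ⟨h, hh⟩]
      conv_rhs => rw [h1, hβm]
  · -- `G/N` solvable
    haveI : (Z.subgroupOf G).Normal := by
      constructor
      intro z hz x
      rw [Subgroup.mem_subgroupOf] at hz ⊢
      show (x : Q) * z * (x : Q)⁻¹ ∈ Z
      rw [hconjZ z hz x]
      exact hz
    have hsolv := solvable_quot_of_derived (Z.subgroupOf G) hsolv
    obtain ⟨χ, hov, hinv⟩ := Cfsg.Agent.S4448.result G S Z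
      (fun s _ g hg => hG.conj_mem g hg s) hZG
      (fun g _ n hn => by rw [hconjZ n hn g]; exact hn)
      hcopm hsolv ⟨_, isIrrCharacter_of_hom μ⟩ (by
        intro s _ g g' hgg'
        rw [hconjZ g g.2 s] at hgg'
        rw [Subtype.ext hgg'])
    refine ⟨χ, χ.2, ?_, ?_⟩
    · exact over_central (Subgroup.inclusion hZG) (fun z x => Subtype.ext (hZc z z.2 x)) χ.2 μ hov
    · intro x g
      obtain ⟨k, hk, s, hs, rfl⟩ := hHS x
      have h1 := hinv s hs g ⟨s * g * s⁻¹, hG.conj_mem g g.2 s⟩ rfl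
      have h2 := IsCharacter.isClassFunction (IsIrrCharacter.isCharacter χ.2)
        ⟨s * g * s⁻¹, hG.conj_mem g g.2 s⟩ ⟨k, hHG hk⟩
      rw [← h1, ← h2]
      refine congrArg (χ : G → ℂ) (Subtype.ext ?_)
      show k * s * g * (k * s)⁻¹ = k * (s * g * s⁻¹) * k⁻¹
      group

end Cfsg.Agent.Lib.Helper25.CopLayers
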