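import Mathlib
import Cfsg.Agent.Lib.Helper25.CopLayers3

/-!
# Coprime layers: reduction to the central case
-/

set_option autoImplicit false

namespace Cfsg.Agent.Lib.Helper25.CopLayers

open Cfsg Cfsg.Agent.Lib.Helper2 Cfsg.Agent.Lib.Helper6 Cfsg.Agent.Lib.Helper24
open Cfsg.Agent.Lib.Helper13
open scoped ComplexConjugate Classical

/-- Gallagher's theorem (the product is irreducible) for an injective homomorphism with normal
range. -/
theorem gallagher_hom_mul {Γ N : Type*} [Group Γ] [Finite Γ] [Group N] [Fintype N] (j : N →* Γ)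
    (hj : Function.Injective j) (hnorm : j.range.Normal) {π : Γ → ℂ} (hπ : IsCharacter Γ π)
    (hπN : IsIrrCharacter N (fun n => π (j n))) {β : Γ → ℂ} (hβ : IsIrrCharacter Γ β)
    (hβk : ∀ n, β (j n) = β 1) : IsIrrCharacter Γ (β * π) := by
  cases nonempty_fintype Γ
  let e : N ≃* j.range := MonoidHom.ofInjective hj
  have hres : IsIrrCharacter j.range (fun x : j.range => π x) := by
    have h1 := Cfsg.Agent.Lib.Helper24.IsIrrCharacter.inflate e.symm.toMonoidHom
      e.symm.surjective hπN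
    have h2 : (fun g : j.range => (fun n => π (j n)) (e.symm.toMonoidHom g)) =
        fun x : j.range => π x := by
      funext x
      have : (e (e.symm x) : Γ) = j (e.symm x) := rfl
      show π (j (e.symm x)) = π x
      rw [← this, e.apply_symm_apply]
    rw [h2] at h1
    exact h1
  have hπirr := isIrrCharacter_of_restrict j.range hπ hres
  have hgal := gallagher j.range hπirr hres
  have := hgal.mapsTo (⟨hβ, by rintro _ ⟨n, rfl⟩; exact hβk n⟩ : β ∈ {β : Γ → ℂ |
    IsIrrCharacter Γ β ∧ ∀ n ∈ j.range, β n = β 1})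
  exact this.1

universe u

theorem main {Γ : Type u} [Group Γ] [Fintype Γ] (G N : Subgroup Γ) [hG : G.Normal]
    [hN : N.Normal] (hNG : N ≤ G) (hcop : G.index.Coprime (N.relIndex G))
    (hsolv : (∃ n, derivedSeries Γ n ≤ G) ∨ ∃ n, derivedSeries G n ≤ N.subgroupOf G)
    {θ : N → ℂ} (hθ : IsIrrCharacter N θ) (hinv : ∀ g : Γ, conjFun N g θ = θ) :
    ∃ χ : G → ℂ, IsIrrCharacter G χ ∧ (∃ c : ℂ, c ≠ 0 ∧ ∀ n : N, χ ⟨n, hNG n.2⟩ = c * θ n) ∧
      ∀ (x : Γ) (g : G), χ ⟨x * g * x⁻¹, hG.conj_mem g g.2 x⟩ = χ g := by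
  obtain ⟨E, _, _, f, ι, π, hf, hfι, hconj, hcent, hπ, hπι, hscal⟩ :=
    exists_central_extension N hθ hinv
  cases nonempty_fintype E
  have hinj : Function.Injective ι := by
    intro a b hab
    apply Subtype.ext
    rw [← hfι a, ← hfι b, hab]
  have hπN : (fun n => π (ι n)) = θ := funext hπι
  have hπirr : IsIrrCharacter E π := isIrrCharacter_of_comp_hom ι hinj hπ (by rw [hπN]; exact hθ)
  have hπ1 : π 1 ≠ 0 := irr_one_ne_zero hπirr
  let A : f.ker →* ℂˣ := MonoidHom.mk' (fun z => (hscal z.1 z.2).choose) (by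
    intro a b
    have ha := (hscal a.1 a.2).choose_spec
    have hb := (hscal b.1 b.2).choose_spec
    have hab := (hscal (a * b).1 (a * b).2).choose_spec
    apply Units.ext
    have h1 := hab 1
    have h2 : ((a * b : f.ker) : E) * 1 = (a : E) * ((b : E) * 1) := by
      simp
    rw [h2, ha, hb, ← mul_assoc] at h1
    rw [Units.val_mul]
    exact (mul_right_cancel₀ hπ1 h1).symm)
  have hA : ∀ (z : f.ker) (y : E), π (z * y) = A z * π y := fun z => (hscal z.1 z.2).choose_spec
  haveI hIn : ι.range.Normal := by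
    constructor
    rintro _ ⟨n, rfl⟩ x
    exact ⟨MulAut.conjNormal (f x) n, (hconj x n).symm⟩
  let q : E →* E ⧸ ι.range := QuotientGroup.mk' ι.range
  have hq : Function.Surjective q := QuotientGroup.mk'_surjective _
  have hqι : ∀ n, q (ι n) = 1 := fun n => (QuotientGroup.eq_one_iff _).mpr ⟨n, rfl⟩
  have hq1 : ∀ x, q x = 1 → ∃ n, ι n = x := fun x hx => (QuotientGroup.eq_one_iff _).mp hx
  haveI hGcn : (G.comap f).Normal := hG.comap f
  haveI hGbn : ((G.comap f).map q).Normal := Subgroup.Normal.map hGcn q hq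
  have hkerG : f.ker ≤ G.comap f := by
    intro x hx
    rw [Subgroup.mem_comap, MonoidHom.mem_ker.mp hx]
    exact G.one_mem
  have hZG : f.ker.map q ≤ (G.comap f).map q := Subgroup.map_mono hkerG
  have hZc : ∀ z ∈ f.ker.map q, ∀ x : E ⧸ ι.range, z * x = x * z := by
    rintro _ ⟨z, hz, rfl⟩ x
    obtain ⟨x, rfl⟩ := hq x
    rw [← map_mul, ← map_mul, hcent z hz x]
  have hIG : q.ker ≤ G.comap f := by
    intro x hx
    obtain ⟨n, rfl⟩ := hq1 x hx
    rw [Subgroup.mem_comap, hfι]
    exact hNG n.2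
  have hidx : ((G.comap f).map q).index = G.index := by
    rw [Subgroup.index_map_eq _ hq hIG, Subgroup.index_comap_of_surjective _ hf]
  have hcomap : (f.ker.map q).comap q = N.comap f := by
    ext x
    rw [Subgroup.mem_comap, Subgroup.mem_comap]
    constructor
    · rintro ⟨z, hz, hzx⟩
      have h1 : q (z⁻¹ * x) = 1 := by rw [map_mul, map_inv, hzx, inv_mul_cancel]
      obtain ⟨n, hn⟩ := hq1 _ h1
      have h2 : x = z * ι n := by rw [hn, mul_inv_cancel_left]
      rw [h2, map_mul, MonoidHom.mem_ker.mp hz, one_mul, hfι]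
      exact n.2
    · intro hx
      refine ⟨x * (ι ⟨f x, hx⟩)⁻¹, ?_, ?_⟩
      · rw [SetLike.mem_coe, MonoidHom.mem_ker, map_mul, map_inv, hfι, mul_inv_cancel]
      · rw [map_mul, map_inv, hqι, inv_one, mul_one]
  have hrel : (f.ker.map q).relIndex ((G.comap f).map q) = N.relIndex G := by
    rw [← Subgroup.relIndex_comap, hcomap, Subgroup.relIndex_comap,
      Subgroup.map_comap_eq_self_of_surjective hf]
  let fG : G.comap f →* G := f.subgroupComap G
  have hfG : Function.Surjective fG := f.subgroupComap_surjective_of_surjective G hf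
  let qG : G.comap f →* (G.comap f).map q := q.subgroupMap (G.comap f)
  have hqG : Function.Surjective qG := q.subgroupMap_surjective (G.comap f)
  have hsolv' : (∃ n, derivedSeries (E ⧸ ι.range) n ≤ (G.comap f).map q) ∨
      ∃ n, derivedSeries ((G.comap f).map q) n ≤ (f.ker.map q).subgroupOf ((G.comap f).map q) := by
    rcases hsolv with ⟨n, hn⟩ | ⟨n, hn⟩
    · left
      refine ⟨n, ?_⟩
      rw [← map_derivedSeries_eq hq]
      apply Subgroup.map_mono
      rw [← Subgroup.map_le_iff_le_comap, map_derivedSeries_eq hf]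
      exact hn
    · right
      refine ⟨n, ?_⟩
      rw [← map_derivedSeries_eq hqG]
      rintro _ ⟨x, hx, rfl⟩
      have h1 : fG x ∈ derivedSeries G n := map_derivedSeries_le_derivedSeries fG n ⟨x, hx, rfl⟩
      have h2 : f x ∈ N := hn h1
      have h3 : (x : E) ∈ (f.ker.map q).comap q := by
        rw [hcomap]
        exact h2
      exact h3
  let e : f.ker ≃* f.ker.map q := MulEquiv.ofBijective (q.subgroupMap f.ker) ⟨by
    rw [injective_iff_map_eq_one]
    intro z hz
    have h1 : q z = 1 := congrArg Subtype.val hz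
    obtain ⟨n, hn⟩ := hq1 _ h1
    have h2 : (n : Γ) = 1 := by rw [← hfι, hn]; exact z.2
    have h3 : n = 1 := Subtype.ext h2
    apply Subtype.ext
    rw [← hn, h3, map_one]
    rfl, q.subgroupMap_surjective f.ker⟩
  let μ : f.ker.map q →* ℂˣ := (A.comp e.symm.toMonoidHom)⁻¹
  have hμ : ∀ z : f.ker, μ (e z) = (A z)⁻¹ := by
    intro z
    show (A (e.symm (e z)))⁻¹ = _
    rw [e.symm_apply_apply]
  obtain ⟨β, hβ, hβZ, hβinv⟩ := central_case ((G.comap f).map q) (f.ker.map q) hZG hZc
    (by rw [hidx, hrel]; exact hcop) hsolv' μ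
  have hβh : IsIrrCharacter (G.comap f) (fun x => β (qG x)) :=
    Cfsg.Agent.Lib.Helper24.IsIrrCharacter.inflate qG hqG hβ
  let j : N →* G.comap f := ι.codRestrict (G.comap f) (fun n => by
    rw [Subgroup.mem_comap, hfι]
    exact hNG n.2)
  have hjinj : Function.Injective j := by
    intro a b hab
    exact hinj (congrArg Subtype.val hab)
  have hjnorm : j.range.Normal := by
    constructor
    rintro _ ⟨n, rfl⟩ x
    refine ⟨MulAut.conjNormal (f x) n, ?_⟩
    apply Subtype.ext
    exact (hconj x n).symm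
  have hπH : IsCharacter (G.comap f) (fun x : G.comap f => π x) := IsCharacter.restrict _ hπ
  have hπHN : (fun n => (fun x : G.comap f => π x) (j n)) = θ := funext hπι
  have hqGj : ∀ n, qG (j n) = 1 := fun n => Subtype.ext (hqι n)
  have hψ := gallagher_hom_mul j hjinj hjnorm hπH (by rw [hπHN]; exact hθ) hβh (by
    intro n
    show β (qG (j n)) = β (qG 1)
    rw [hqGj, map_one])
  obtain ⟨χ, hχ, hχf⟩ := IsIrrCharacter.deflate_hom fG hfG hψ (by
    intro x hx
    have hx' : f x = 1 := congrArg Subtype.val hx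
    have h1 := hβZ (e ⟨x, hx'⟩) 1
    have h2 : (⟨(e ⟨x, hx'⟩ : E ⧸ ι.range), hZG (e ⟨x, hx'⟩).2⟩ : (G.comap f).map q) * 1 = qG x := by
      rw [mul_one]
      rfl
    rw [h2, hμ] at h1
    have h3 := hA ⟨x, hx'⟩ 1
    rw [mul_one] at h3
    show β (qG x) * π x = β (qG 1) * π (1 : E)
    rw [h1, show π (x : E) = A ⟨x, hx'⟩ * π 1 from h3, map_one, Units.val_inv_eq_inv_val]
    have h4 : ((A ⟨x, hx'⟩ : ℂˣ) : ℂ) ≠ 0 := Units.ne_zero _
    field_simp)
  refine ⟨χ, hχ, ⟨β 1, irr_one_ne_zero hβ, ?_⟩, ?_⟩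
  · intro n
    have h1 := hχf (j n)
    have h2 : fG (j n) = ⟨n, hNG n.2⟩ := Subtype.ext (hfι n)
    rw [h2] at h1
    rw [h1]
    show β (qG (j n)) * π (ι n) = _
    rw [hqGj, hπι]
  · intro x g
    obtain ⟨x, rfl⟩ := hf x
    obtain ⟨g, rfl⟩ := hfG g
    have h1 : (⟨f x * (fG g : Γ) * (f x)⁻¹, hG.conj_mem (fG g) (fG g).2 (f x)⟩ : G) =
        fG ⟨x * g * x⁻¹, hGcn.conj_mem g g.2 x⟩ := by
      apply Subtype.ext
      show f x * f g * (f x)⁻¹ = f (x * g * x⁻¹)
      rw [map_mul, map_mul, map_inv]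
    rw [h1, hχf, hχf]
    show β (qG ⟨x * g * x⁻¹, hGcn.conj_mem g g.2 x⟩) * π (x * g * x⁻¹) = β (qG g) * π g
    rw [IsCharacter.isClassFunction hπ (g : E) x, ← hβinv (q x) (qG g)]
    congr 2

end Cfsg.Agent.Lib.Helper25.CopLayers
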