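import Mathlib

set_option autoImplicit false

namespace Cfsg.Agent.Lib.Helper25
namespace CoprimeCount

variable {M : Type*} [AddCommGroup M]

theorem geom_fixed (a : Module.End ℤ M) (m : ℕ) (u : M) (hu : a u = u) :
    (∑ i ∈ Finset.range m, a ^ i) u = m • u := by
  rw [LinearMap.sum_apply]
  have : ∀ i, (a ^ i) u = u := fun i => by
    rw [Module.End.pow_apply]; exact Function.iterate_fixed hu i
  simp [this]

theorem cast_eq_geom_add (a : Module.End ℤ M) (m : ℕ) :
    (m : Module.End ℤ M) = (∑ i ∈ Finset.range m, a ^ i)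
      + (1 - a) * ∑ i ∈ Finset.range m, ∑ j ∈ Finset.range i, a ^ j := by
  rw [Finset.mul_sum, ← Finset.sum_add_distrib]
  have : ∀ i ∈ Finset.range m, a ^ i + (1 - a) * ∑ j ∈ Finset.range i, a ^ j = 1 := by
    intro i _
    rw [mul_neg_geom_sum]; abel
  rw [Finset.sum_congr rfl this]
  simp

/-- the key count: for commuting automorphisms `a, b` of orders prime to `|M|`, the number of
solutions of `v + a w = w + b v` is `|M|` times the number of common fixed points. -/
theorem card_solutions [Finite M] (a b : Module.End ℤ M) (hab : Commute a b) (m n : ℕ)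
    (ha : a ^ m = 1) (hb : b ^ n = 1) (hm : (Nat.card M).Coprime (m * n)) :
    Nat.card {p : M × M // p.1 + a p.2 = p.2 + b p.1}
      = Nat.card M * Nat.card {v : M // a v = v ∧ b v = v} := by
  classical
  set πa : Module.End ℤ M := ∑ i ∈ Finset.range m, a ^ i with hπa
  set πb : Module.End ℤ M := ∑ i ∈ Finset.range n, b ^ i with hπb
  set Sa : Module.End ℤ M := ∑ i ∈ Finset.range m, ∑ j ∈ Finset.range i, a ^ j with hSa
  set Sb : Module.End ℤ M := ∑ i ∈ Finset.range n, ∑ j ∈ Finset.range i, b ^ j with hSb
  have hA : (m : Module.End ℤ M) = πa + (1 - a) * Sa := cast_eq_geom_add a m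
  have hB : (n : Module.End ℤ M) = πb + (1 - b) * Sb := cast_eq_geom_add b n
  have ha0 : (1 - a) * πa = 0 := by rw [hπa, mul_neg_geom_sum, ha, sub_self]
  have ha0' : πa * (1 - a) = 0 := by rw [hπa, geom_sum_mul_neg, ha, sub_self]
  have hb0 : (1 - b) * πb = 0 := by rw [hπb, mul_neg_geom_sum, hb, sub_self]
  have hb0' : πb * (1 - b) = 0 := by rw [hπb, geom_sum_mul_neg, hb, sub_self]
  have hcab : Commute a πb := Commute.sum_right _ _ _ (fun i _ => hab.pow_right i)
  have hcba : Commute πa b := Commute.sum_left _ _ _ (fun i _ => hab.pow_left i)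
  have hcπ : Commute πa πb := Commute.sum_right _ _ _ (fun i _ => hcba.pow_right i)
  let L : (M × M) →ₗ[ℤ] M :=
    (1 - b) ∘ₗ LinearMap.fst ℤ M M - (1 - a) ∘ₗ LinearMap.snd ℤ M M
  have hL : ∀ p : M × M, L p = (p.1 - b p.1) - (p.2 - a p.2) := fun p => rfl
  let C : Submodule ℤ M := LinearMap.ker (1 - a) ⊓ LinearMap.ker (1 - b)
  have hC : ∀ v, v ∈ C ↔ a v = v ∧ b v = v := by
    intro v
    simp only [C, Submodule.mem_inf, LinearMap.mem_ker, LinearMap.sub_apply, Module.End.one_apply,
      sub_eq_zero]
    constructor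
    · rintro ⟨h1, h2⟩; exact ⟨h1.symm, h2.symm⟩
    · rintro ⟨h1, h2⟩; exact ⟨h1.symm, h2.symm⟩
  have hπL : ∀ p, (πa * πb) (L p) = 0 := by
    intro p
    have e1 : (πa * πb) * (1 - b) = 0 := by rw [mul_assoc, hb0', mul_zero]
    have e2 : (πa * πb) * (1 - a) = 0 := by
      rw [hcπ.eq, mul_assoc, ha0', mul_zero]
    have : L p = (1 - b) p.1 - (1 - a) p.2 := rfl
    rw [this, map_sub, ← Module.End.mul_apply, ← Module.End.mul_apply, e1, e2]
    simp
  have hinj : ∀ u : M, (m * n) • u = 0 → u = 0 := by
    intro u hu
    have := (nsmulCoprime hm).injective (a₁ := u) (a₂ := 0)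
    apply this
    simpa [nsmulCoprime] using hu
  have hsurj : ∀ v : M, ∃ u : M, (m * n) • u = v := by
    intro v
    obtain ⟨u, hu⟩ := (nsmulCoprime hm).surjective v
    exact ⟨u, by simpa [nsmulCoprime] using hu⟩
  have hcompl : IsCompl C (LinearMap.range L) := by
    constructor
    · rw [Submodule.disjoint_def]
      rintro u huC ⟨p, rfl⟩
      apply hinj
      obtain ⟨h1, h2⟩ := (hC _).1 huC
      have e := hπL p
      rw [Module.End.mul_apply, hπb, geom_fixed b n _ h2, map_nsmul, hπa, geom_fixed a m _ h1] at e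
      rw [mul_comm, mul_smul]; exact e
    · rw [codisjoint_iff, eq_top_iff]
      intro v _
      obtain ⟨u, rfl⟩ := hsurj v
      have key : ((m * n : ℕ) : Module.End ℤ M)
          = πa * πb + ((1 - b) * ((m : Module.End ℤ M) * Sb) - (1 - a) * (- (Sa * πb))) := by
        have c1 : (m : Module.End ℤ M) * ((1 - b) * Sb) = (1 - b) * ((m : Module.End ℤ M) * Sb) := by
          rw [← mul_assoc, (Nat.cast_commute m (1 - b)).eq, mul_assoc]
        calc ((m * n : ℕ) : Module.End ℤ M) = (m : Module.End ℤ M) * (n : Module.End ℤ M) := by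
              push_cast; rfl
          _ = (m : Module.End ℤ M) * πb + (m : Module.End ℤ M) * ((1 - b) * Sb) := by
              rw [hB, mul_add]
          _ = (πa + (1 - a) * Sa) * πb + (1 - b) * ((m : Module.End ℤ M) * Sb) := by
              rw [c1, ← hA]
          _ = _ := by
              rw [add_mul, mul_assoc, mul_neg, sub_neg_eq_add]; abel
      have e : (m * n) • u = (πa * πb) u + L (((m : Module.End ℤ M) * Sb) u, (- (Sa * πb)) u) := by
        have : (m * n) • u = ((m * n : ℕ) : Module.End ℤ M) u := by
          rw [Module.End.natCast_apply]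
        rw [this, key]
        rfl
      rw [e]
      apply Submodule.add_mem_sup
      · rw [hC]
        constructor
        · have : (1 - a) * (πa * πb) = 0 := by rw [← mul_assoc, ha0, zero_mul]
          have h2 := congrArg (fun f : Module.End ℤ M => f u) this
          simp only [Module.End.mul_apply, LinearMap.sub_apply, Module.End.one_apply,
            LinearMap.zero_apply] at h2
          exact (sub_eq_zero.1 h2).symm
        · have : (1 - b) * (πa * πb) = 0 := by rw [hcπ.eq, ← mul_assoc, hb0, zero_mul]
          have h2 := congrArg (fun f : Module.End ℤ M => f u) this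
          simp only [Module.End.mul_apply, LinearMap.sub_apply, Module.End.one_apply,
            LinearMap.zero_apply] at h2
          exact (sub_eq_zero.1 h2).symm
      · exact ⟨_, rfl⟩
  have c1 : Nat.card M = Nat.card C * Nat.card (LinearMap.range L) := by
    rw [← Nat.card_prod]
    exact (Nat.card_congr (Submodule.prodEquivOfIsCompl _ _ hcompl).toEquiv).symm
  have c2 : Nat.card (M × M) = Nat.card (LinearMap.range L) * Nat.card (LinearMap.ker L) := by
    rw [Submodule.card_eq_card_quotient_mul_card (LinearMap.ker L),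
      Nat.card_congr (LinearMap.quotKerEquivRange L).toEquiv, mul_comm]
  have c3 : Nat.card {p : M × M // p.1 + a p.2 = p.2 + b p.1} = Nat.card (LinearMap.ker L) := by
    apply Nat.card_congr
    apply Equiv.subtypeEquivRight
    intro p
    rw [LinearMap.mem_ker, hL]
    constructor
    · intro h
      have : p.1 - b p.1 = p.2 - a p.2 := by
        rw [sub_eq_sub_iff_add_eq_add]; exact h
      rw [this, sub_self]
    · intro h
      have := sub_eq_zero.1 h
      rw [sub_eq_sub_iff_add_eq_add] at this; exact this
  have c4 : Nat.card {v : M // a v = v ∧ b v = v} = Nat.card C := by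
    apply Nat.card_congr
    apply Equiv.subtypeEquivRight
    intro v; exact (hC v).symm
  rw [c3, c4]
  rw [Nat.card_prod] at c2
  have hpos : 0 < Nat.card (LinearMap.range L) := Nat.card_pos
  apply Nat.eq_of_mul_eq_mul_left hpos
  rw [← c2]
  calc Nat.card M * Nat.card M = Nat.card M * (Nat.card C * Nat.card (LinearMap.range L)) := by
        rw [← c1]
    _ = _ := by ring

end CoprimeCount
end Cfsg.Agent.Lib.Helper25
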