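import Cfsg.Agent.Lib.Helper25.CoprimeCount

set_option autoImplicit false

namespace Cfsg.Agent.Lib.Helper25
namespace CoprimeCount

variable {X : Type*} [Group X]

/-- the commutative group structure on an abelian subgroup. -/
@[reducible] def commGroupOf (V : Subgroup X) (hab : ∀ a ∈ V, ∀ b ∈ V, a * b = b * a) :
    CommGroup ↥V :=
  { V.toGroup with mul_comm := fun a b => Subtype.ext (hab a a.2 b b.2) }

/-- conjugation action on the additive version of an abelian normal subgroup. -/
noncomputable def conjEnd (V : Subgroup X) [V.Normal] (hab : ∀ a ∈ V, ∀ b ∈ V, a * b = b * a) :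
    letI := commGroupOf V hab
    X →* Module.End ℤ (Additive ↥V) :=
  letI := commGroupOf V hab
  { toFun := fun x => AddMonoidHom.toIntLinearMap
      (MonoidHom.toAdditive (MulAut.conjNormal x : MulAut ↥V).toMonoidHom)
    map_one' := by
      ext v
      simp
    map_mul' := by
      intro x y
      ext v
      simp }

theorem conjEnd_apply (V : Subgroup X) [V.Normal] (hab : ∀ a ∈ V, ∀ b ∈ V, a * b = b * a)
    (x : X) (v : ↥V) :
    letI := commGroupOf V hab
    conjEnd V hab x (Additive.ofMul v) = Additive.ofMul (MulAut.conjNormal x v) := rfl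

theorem card_solutions_conj [Finite X] (V : Subgroup X) [V.Normal]
    (hab : ∀ a ∈ V, ∀ b ∈ V, a * b = b * a) (g h : X) (hgh : g * h = h * g)
    (hcop : (Nat.card V).Coprime (orderOf g * orderOf h)) :
    Nat.card {p : ↥V × ↥V // (p.1 : X) * (g * p.2 * g⁻¹) = p.2 * (h * p.1 * h⁻¹)}
      = Nat.card V * Nat.card {v : ↥V // g * (v : X) * g⁻¹ = v ∧ h * (v : X) * h⁻¹ = v} := by
  letI := commGroupOf V hab
  have key := card_solutions (M := Additive ↥V) (conjEnd V hab g) (conjEnd V hab h)
    (Commute.map (show Commute g h from hgh) _) (orderOf g) (orderOf h)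
    (by rw [← map_pow, pow_orderOf_eq_one, map_one]) (by rw [← map_pow, pow_orderOf_eq_one, map_one])
    (by rw [Nat.card_congr Additive.toMul]; exact hcop)
  rw [Nat.card_congr (Additive.toMul (α := ↥V))] at key
  have e1 : Nat.card {p : ↥V × ↥V // (p.1 : X) * (g * p.2 * g⁻¹) = p.2 * (h * p.1 * h⁻¹)}
      = Nat.card {p : Additive ↥V × Additive ↥V //
          p.1 + (conjEnd V hab g) p.2 = p.2 + (conjEnd V hab h) p.1} := by
    apply Nat.card_congr
    refine Equiv.subtypeEquiv (Equiv.prodCongr Additive.ofMul Additive.ofMul) ?_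
    rintro ⟨v, w⟩
    show _ ↔ Additive.ofMul v + (conjEnd V hab g) (Additive.ofMul w)
      = Additive.ofMul w + (conjEnd V hab h) (Additive.ofMul v)
    rw [conjEnd_apply, conjEnd_apply, ← ofMul_mul, ← ofMul_mul, Additive.ofMul.injective.eq_iff,
      Subtype.ext_iff]
    simp
  have e2 : Nat.card {v : ↥V // g * (v : X) * g⁻¹ = v ∧ h * (v : X) * h⁻¹ = v}
      = Nat.card {v : Additive ↥V // (conjEnd V hab g) v = v ∧ (conjEnd V hab h) v = v} := by
    apply Nat.card_congr
    refine Equiv.subtypeEquiv Additive.ofMul ?_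
    intro v
    rw [conjEnd_apply, conjEnd_apply, Additive.ofMul.injective.eq_iff,
      Additive.ofMul.injective.eq_iff, Subtype.ext_iff, Subtype.ext_iff]
    simp
  rw [e1, e2, key]

end CoprimeCount
end Cfsg.Agent.Lib.Helper25
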