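import Mathlib
import Cfsg.Agent.Lib.Helper1.Hall

/-!
# Characters induced from maximal subgroups: group theory
-/

set_option autoImplicit false

namespace Cfsg.Agent.Lib.Helper25.MaxInd

open Cfsg.Agent.Lib.Helper1

theorem corefree_structure {Q : Type*} [Group Q] [Finite Q] [Group.IsSolvable Q] (H : Subgroup Q)
    (hH : H ≠ ⊥) (hcore : ∀ X : Subgroup Q, X.Normal → X ≤ H → X = ⊥)
    (hsup : ∀ X : Subgroup Q, X.Normal → X ≠ ⊥ → ∀ g : Q, ∃ h ∈ H, ∃ x ∈ X, g = h * x) :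
    ∃ K R : Subgroup Q, K.Normal ∧ K ≠ ⊥ ∧ (∀ x ∈ K, ∀ y ∈ K, x * y = y * x) ∧ R ≤ H ∧ R ≠ ⊥ ∧
      (∀ h ∈ H, ∀ r ∈ R, h * r * h⁻¹ ∈ R) ∧ (Nat.card K).Coprime (Nat.card R) := by
  classical
  haveI : Nontrivial H := (Subgroup.nontrivial_iff_ne_bot H).mpr hH
  haveI : Nontrivial Q := ⟨by
    obtain ⟨a, b, hab⟩ := exists_pair_ne H
    exact ⟨a, b, fun h => hab (Subtype.ext h)⟩⟩
  obtain ⟨p, K, hp, hKn, hKne, hKab, hKp⟩ := exists_normal_elementary_abelian (G := Q)
  obtain ⟨q, R₀, hq, hR₀n, hR₀ne, -, hR₀q⟩ := exists_normal_elementary_abelian (G := H)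
  set R : Subgroup Q := R₀.map H.subtype with hR
  have hRH : R ≤ H := by
    rintro _ ⟨r, -, rfl⟩
    exact r.2
  have hRne : R ≠ ⊥ := by
    intro h
    apply hR₀ne
    rw [eq_bot_iff]
    intro r hr
    have h1 : (r : Q) ∈ R := ⟨r, hr, rfl⟩
    rw [h, Subgroup.mem_bot] at h1
    rw [Subgroup.mem_bot]
    exact Subtype.ext h1
  have hRn : ∀ h ∈ H, ∀ r ∈ R, h * r * h⁻¹ ∈ R := by
    rintro h hh _ ⟨r, hr, rfl⟩
    exact ⟨⟨h, hh⟩ * r * ⟨h, hh⟩⁻¹, hR₀n.conj_mem r hr ⟨h, hh⟩, rfl⟩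
  have hRq : ∀ x ∈ R, x ^ q = 1 := by
    rintro _ ⟨r, hr, rfl⟩
    have := hR₀q r hr
    show (r : Q) ^ q = 1
    rw [← Subgroup.coe_pow, this]
    rfl
  have hKpg : IsPGroup p K := isPGroup_of_pow_eq_one hKp
  have hRpg : IsPGroup q R := isPGroup_of_pow_eq_one hRq
  refine ⟨K, R, hKn, hKne, hKab, hRH, hRne, hRn, ?_⟩
  obtain ⟨s, hs⟩ := (haveI : Fact p.Prime := ⟨hp⟩; IsPGroup.iff_card.mp hKpg)
  obtain ⟨t, ht⟩ := (haveI : Fact q.Prime := ⟨hq⟩; IsPGroup.iff_card.mp hRpg)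
  rw [hs, ht]
  by_cases hpq : p = q
  · exfalso
    subst hpq
    haveI : Fact p.Prime := ⟨hp⟩
    haveI := hKn
    letI : MulAction R K := MulAction.compHom K ((MulAut.conjNormal (H := K)).comp R.subtype)
    have hsmul : ∀ (r : R) (k : K), ((r • k : K) : Q) = r * k * (r : Q)⁻¹ := fun r k => rfl
    have hpK : p ∣ Nat.card K := by
      rw [hs]
      apply dvd_pow_self
      rintro rfl
      rw [pow_zero] at hs
      exact hKne ((Subgroup.card_eq_one (H := K)).mp hs)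
    obtain ⟨b, hb, hb1⟩ := hRpg.exists_fixed_point_of_prime_dvd_card_of_fixed_point (α := K) hpK
      (a := 1) (by
        intro r
        apply Subtype.ext
        rw [hsmul]
        simp)
    set C : Subgroup Q := K ⊓ Subgroup.centralizer (R : Set Q) with hC
    have hbC : (b : Q) ∈ C := by
      refine Subgroup.mem_inf.mpr ⟨b.2, ?_⟩
      rw [Subgroup.mem_centralizer_iff]
      intro r hr
      have h1 := congrArg Subtype.val (hb ⟨r, hr⟩)
      rw [hsmul] at h1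
      have h2 : r * (b : Q) * r⁻¹ = b := h1
      calc r * (b : Q) = r * b * r⁻¹ * r := by group
        _ = b * r := by rw [h2]
    have hCne : C ≠ ⊥ := by
      intro h
      rw [h, Subgroup.mem_bot] at hbC
      exact hb1 (Subtype.ext hbC.symm)
    have hCn : C.Normal := by
      constructor
      intro c hc g
      obtain ⟨h, hh, k, hk, rfl⟩ := hsup K hKn hKne g
      obtain ⟨hcK, hcR⟩ := Subgroup.mem_inf.mp hc
      have h1 : k * c * k⁻¹ = c := by
        rw [hKab k hk c hcK, mul_inv_cancel_right]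
      have h2 : h * k * c * (h * k)⁻¹ = h * c * h⁻¹ := by
        calc h * k * c * (h * k)⁻¹ = h * (k * c * k⁻¹) * h⁻¹ := by group
          _ = _ := by rw [h1]
      rw [h2]
      refine Subgroup.mem_inf.mpr ⟨hKn.conj_mem c hcK h, ?_⟩
      rw [Subgroup.mem_centralizer_iff] at hcR ⊢
      intro r hr
      have h3 : h⁻¹ * r * h ∈ R := by
        have := hRn h⁻¹ (H.inv_mem hh) r hr
        rwa [inv_inv] at this
      have h4 := hcR _ h3
      calc r * (h * c * h⁻¹) = h * ((h⁻¹ * r * h) * c) * h⁻¹ := by group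
        _ = h * (c * (h⁻¹ * r * h)) * h⁻¹ := by rw [h4]
        _ = _ := by group
    have hRnorm : R.Normal := by
      constructor
      intro r hr g
      obtain ⟨h, hh, c, hc, rfl⟩ := hsup C hCn hCne g
      have hcR := (Subgroup.mem_inf.mp hc).2
      rw [Subgroup.mem_centralizer_iff] at hcR
      have h1 : c * r * c⁻¹ = r := by
        rw [← hcR r hr, mul_inv_cancel_right]
      have h2 : h * c * r * (h * c)⁻¹ = h * r * h⁻¹ := by
        calc h * c * r * (h * c)⁻¹ = h * (c * r * c⁻¹) * h⁻¹ := by group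
          _ = _ := by rw [h1]
      rw [h2]
      exact hRn h hh r hr
    exact hRne (hcore R hRnorm hRH)
  · exact Nat.Coprime.pow _ _ ((Nat.coprime_primes hp hq).mpr hpq)

end Cfsg.Agent.Lib.Helper25.MaxInd
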