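import Mathlib
import Cfsg.Agent.Lib.Helper25.MaxInd1

/-!
# Characters induced from maximal subgroups: group theory, II
-/

set_option autoImplicit false

namespace Cfsg.Agent.Lib.Helper25.MaxInd

theorem structure_G {G : Type*} [Group G] [Finite G] (H L : Subgroup G) [L.Normal]
    (hmax : IsCoatom H) (hLH : L ≤ H) (hLcore : ∀ X : Subgroup G, X.Normal → X ≤ H → X ≤ L)
    (hsolv : Group.IsSolvable (G ⧸ L)) (hne : L ≠ H) :
    ∃ K R : Subgroup G, K.Normal ∧ L ≤ K ∧ K ⊓ H = L ∧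
      (∀ g : G, ∃ k ∈ K, ∃ h ∈ H, g = k * h) ∧ L ≤ R ∧ R ≤ H ∧ R ≠ L ∧
      (∀ h ∈ H, ∀ r ∈ R, h * r * h⁻¹ ∈ R) ∧
      (L.relIndex K).Coprime (L.relIndex R) := by
  classical
  let π : G →* G ⧸ L := QuotientGroup.mk' L
  have hπ : Function.Surjective π := QuotientGroup.mk'_surjective L
  have hker : π.ker = L := QuotientGroup.ker_mk' L
  have hcomapH : (H.map π).comap π = H := Subgroup.comap_map_eq_self (by rw [hker]; exact hLH)
  have hbot : ∀ X : Subgroup (G ⧸ L), X.comap π ≤ L → X = ⊥ := by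
    intro X hX
    rw [eq_bot_iff]
    intro x hx
    obtain ⟨g, rfl⟩ := hπ x
    rw [Subgroup.mem_bot]
    exact (QuotientGroup.eq_one_iff g).mpr (hX hx)
  have hcore : ∀ X : Subgroup (G ⧸ L), X.Normal → X ≤ H.map π → X = ⊥ := by
    intro X hXn hX
    apply hbot
    apply hLcore _ (hXn.comap π)
    rw [← hcomapH]
    exact Subgroup.comap_mono hX
  have hsupG : ∀ X : Subgroup G, X.Normal → ¬ X ≤ H → ∀ g : G, ∃ h ∈ H, ∃ x ∈ X, g = h * x := by
    intro X hXn hX g
    haveI := hXn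
    have h1 : H ⊔ X = ⊤ := hmax.2 _ (lt_of_le_of_ne le_sup_left (fun h => hX (h ▸ le_sup_right)))
    have h2 : g ∈ H ⊔ X := h1 ▸ Subgroup.mem_top g
    obtain ⟨y, hy, z, hz, hyz⟩ := Subgroup.mem_sup_of_normal_right.mp h2
    exact ⟨y, hy, z, hz, hyz.symm⟩
  have hsup : ∀ X : Subgroup (G ⧸ L), X.Normal → X ≠ ⊥ → ∀ g : G ⧸ L, ∃ h ∈ H.map π, ∃ x ∈ X,
      g = h * x := by
    intro X hXn hX g
    obtain ⟨g, rfl⟩ := hπ g
    obtain ⟨h, hh, x, hx, rfl⟩ := hsupG (X.comap π) (hXn.comap π) (by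
      intro hle
      apply hX
      apply hcore X hXn
      rw [← Subgroup.map_comap_eq_self_of_surjective hπ X]
      exact Subgroup.map_mono hle) g
    exact ⟨π h, ⟨h, hh, rfl⟩, π x, hx, map_mul π h x⟩
  have hHne : H.map π ≠ ⊥ := by
    intro h
    apply hne
    apply le_antisymm hLH
    rw [← hcomapH, h]
    intro x hx
    rw [← hker]
    exact hx
  obtain ⟨K, R, hKn, hKne, hKab, hRH, hRne, hRn, hcop⟩ :=
    corefree_structure (H.map π) hHne hcore hsup
  haveI hKn' : (K.comap π).Normal := hKn.comap π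
  have hLK : L ≤ K.comap π := by
    intro x hx
    rw [Subgroup.mem_comap, show π x = 1 from (QuotientGroup.eq_one_iff x).mpr hx]
    exact K.one_mem
  have hLR : L ≤ R.comap π := by
    intro x hx
    rw [Subgroup.mem_comap, show π x = 1 from (QuotientGroup.eq_one_iff x).mpr hx]
    exact R.one_mem
  have hKH : ¬ K.comap π ≤ H := by
    intro hle
    apply hKne
    apply hbot
    exact hLcore _ hKn' hle
  have hdec : ∀ g : G, ∃ k ∈ K.comap π, ∃ h ∈ H, g = k * h := by
    intro g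
    obtain ⟨h, hh, x, hx, hg⟩ := hsupG (K.comap π) hKn' hKH g⁻¹
    refine ⟨x⁻¹, (K.comap π).inv_mem hx, h⁻¹, H.inv_mem hh, ?_⟩
    rw [← mul_inv_rev, ← hg, inv_inv]
  refine ⟨K.comap π, R.comap π, hKn', hLK, ?_, hdec, hLR, ?_, ?_, ?_, ?_⟩
  · apply le_antisymm _ (le_inf hLK hLH)
    haveI : (K.comap π ⊓ H).Normal := by
      constructor
      intro x hx g
      obtain ⟨hxK, hxH⟩ := Subgroup.mem_inf.mp hx
      obtain ⟨k, hk, h, hh, rfl⟩ := hdec g
      have h1 : h * x * h⁻¹ ∈ K.comap π ⊓ H :=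
        Subgroup.mem_inf.mpr ⟨hKn'.conj_mem x hxK h, H.mul_mem (H.mul_mem hh hxH) (H.inv_mem hh)⟩
      obtain ⟨hyK, hyH⟩ := Subgroup.mem_inf.mp h1
      have h2 : k * h * x * (k * h)⁻¹ = k * (h * x * h⁻¹) * k⁻¹ := by group
      rw [h2]
      refine Subgroup.mem_inf.mpr ⟨hKn'.conj_mem _ hyK k, ?_⟩
      have h3 : π (k * (h * x * h⁻¹) * k⁻¹) = π (h * x * h⁻¹) := by
        rw [map_mul, map_mul, hKab (π k) hk (π (h * x * h⁻¹)) hyK, map_inv, mul_inv_cancel_right]
      have h4 : (h * x * h⁻¹)⁻¹ * (k * (h * x * h⁻¹) * k⁻¹) ∈ L := by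
        rw [← QuotientGroup.eq_one_iff]
        show π _ = 1
        rw [map_mul, h3, map_inv, inv_mul_cancel]
      have h5 := H.mul_mem hyH (hLH h4)
      rwa [mul_inv_cancel_left] at h5
    exact hLcore _ this inf_le_right
  · rw [← hcomapH]
    exact Subgroup.comap_mono hRH
  · intro h
    apply hRne
    apply hbot
    rw [h]
  · intro h hh r hr
    rw [Subgroup.mem_comap, map_mul, map_mul, map_inv]
    exact hRn (π h) ⟨h, hh, rfl⟩ (π r) hr
  · have e1 : L.relIndex (K.comap π) = Nat.card K := by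
      have := Subgroup.relIndex_ker (K := K.comap π) π
      rw [hker, Subgroup.map_comap_eq_self_of_surjective hπ] at this
      exact this
    have e2 : L.relIndex (R.comap π) = Nat.card R := by
      have := Subgroup.relIndex_ker (K := R.comap π) π
      rw [hker, Subgroup.map_comap_eq_self_of_surjective hπ] at this
      exact this
    rw [e1, e2]
    exact hcop

end Cfsg.Agent.Lib.Helper25.MaxInd
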