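import Mathlib
import Cfsg.Agent.Lib.Helper25.MaxInd2
import Cfsg.Agent.Lib.Helper25.RelGlaub1
import Cfsg.Agent.Lib.Helper13.MGroup
import Cfsg.Agent.Lib.Helper13.FullRam
import Cfsg.Agent.Lib.Helper13.CentralExt3
import Cfsg.Agent.Lib.Lead.FrobChar

/-!
# Characters induced from maximal subgroups: characters
-/

set_option autoImplicit false

namespace Cfsg.Agent.Lib.Helper25.MaxInd

open Cfsg Cfsg.Agent.Lib.Helper2 Cfsg.Agent.Lib.Helper6 Cfsg.Agent.Lib.Helper24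
open Cfsg.Agent.Lib.Helper13
open scoped ComplexConjugate Classical

universe u

variable {G : Type u} [Group G] [Fintype G]

theorem sum_sub (K : Subgroup G) (f : G → ℂ) :
    ∑ k : K, f k = ∑ g : G, if g ∈ K then f g else 0 := by
  rw [← Finset.sum_filter]
  exact (Finset.sum_subtype (Finset.univ.filter (· ∈ K)) (by simp) f).symm

theorem sum_sub_of_vanish {L K : Subgroup G} (hLK : L ≤ K) (f : G → ℂ)
    (hf : ∀ k ∈ K, k ∉ L → f k = 0) : ∑ k : K, f k = ∑ l : L, f l := by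
  rw [sum_sub, sum_sub]
  refine Finset.sum_congr rfl fun g _ => ?_
  by_cases hL : g ∈ L
  · rw [if_pos hL, if_pos (hLK hL)]
  · rw [if_neg hL]
    by_cases hK : g ∈ K
    · rw [if_pos hK, hf g hK hL]
    · rw [if_neg hK]

variable (H L : Subgroup G) [hLn : L.Normal] (hLH : L ≤ H) {ϑ : H → ℂ}

include hLH in
theorem resL (hϑ : IsIrrCharacter H ϑ)
    (hϑL : IsIrrCharacter L (fun x : L => ϑ ⟨(x : G), hLH x.2⟩))
    (hind : IsIrrCharacter G (indFun H ϑ))
    (hq : ∃ (φ : L → ℂ) (e : ℕ), IsIrrCharacter L φ ∧ (fun m : L => indFun H ϑ m) = (e : ℂ) • φ)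
    (l : L) : indFun H ϑ l = (H.index : ℂ) * ϑ ⟨(l : G), hLH l.2⟩ := by
  obtain ⟨φ, e, hφ, he⟩ := hq
  have h1 : classInner (fun h : H => indFun H ϑ h) ϑ ≠ 0 := by
    rw [← classInner_conj_symm, ← frobenius_reciprocity H ϑ _ (irr_isClassFunction hind),
      classInner_irr hind hind, if_pos rfl]
    simp
  have h2 := RelGlaub.constituent_trans (Subgroup.inclusion hLH)
    (IsCharacter.restrict H (IsIrrCharacter.isCharacter hind)) ⟨ϑ, hϑ⟩ ⟨_, hϑL⟩ h1 (by
      have : (fun a : L => ((⟨ϑ, hϑ⟩ : IrrCharacter H) : H → ℂ) (Subgroup.inclusion hLH a)) =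
          fun x : L => ϑ ⟨(x : G), hLH x.2⟩ := rfl
      rw [this]
      show classInner (fun x : L => ϑ ⟨(x : G), hLH x.2⟩) (fun x : L => ϑ ⟨(x : G), hLH x.2⟩) ≠ 0
      rw [classInner_irr hϑL hϑL, if_pos rfl]
      exact one_ne_zero)
  have h3 : (fun a : L => (fun h : H => indFun H ϑ h) (Subgroup.inclusion hLH a)) =
      (e : ℂ) • φ := he
  rw [h3, classInner_smul_left] at h2
  have h4 : φ = fun x : L => ϑ ⟨(x : G), hLH x.2⟩ := by
    by_contra hne
    apply h2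
    show (e : ℂ) * classInner φ (fun x : L => ϑ ⟨(x : G), hLH x.2⟩) = 0
    rw [classInner_irr hφ hϑL, if_neg hne, mul_zero]
  have h5 := congrFun he 1
  simp only [Pi.smul_apply, smul_eq_mul, Subgroup.coe_one] at h5
  rw [Cfsg.Agent.Lib.Helper24.indFun_one, h4] at h5
  have h6 : ϑ 1 ≠ 0 := irr_one_ne_zero hϑ
  have h7 : (H.index : ℂ) = e := mul_right_cancel₀ h6 h5
  have h8 := congrFun he l
  simp only [Pi.smul_apply, smul_eq_mul] at h8
  rw [h8, h7, h4]

omit [Fintype G] hLn in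
theorem not_conj {K : Subgroup G} (hK : K.Normal) [hLn : L.Normal] (hKH : K ⊓ H = L) {k : G}
    (hk : k ∈ K) (hkL : k ∉ L) (g : G) : g⁻¹ * k * g ∉ H := by
  intro hmem
  apply hkL
  have h1 : g⁻¹ * k * g ∈ L := by
    rw [← hKH]
    refine Subgroup.mem_inf.mpr ⟨?_, hmem⟩
    have := hK.conj_mem k hk g⁻¹
    rwa [inv_inv] at this
  have h2 := hLn.conj_mem _ h1 g
  have h3 : g * (g⁻¹ * k * g) * g⁻¹ = k := by group
  rwa [h3] at h2

theorem vanishK {K : Subgroup G} (hK : K.Normal) (hKH : K ⊓ H = L) {k : G}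
    (hk : k ∈ K) (hkL : k ∉ L) : indFun H ϑ k = 0 := by
  unfold indFun
  rw [Finset.sum_eq_zero, mul_zero]
  intro g _
  exact extendByZero_not_mem H ϑ (not_conj H L hK hKH hk hkL g)

include hLH in
theorem normK (hϑL : IsIrrCharacter L (fun x : L => ϑ ⟨(x : G), hLH x.2⟩))
    (hres : ∀ l : L, indFun H ϑ l = (H.index : ℂ) * ϑ ⟨(l : G), hLH l.2⟩)
    {K : Subgroup G} (hK : K.Normal) (hLK : L ≤ K) (hKH : K ⊓ H = L) :
    ∑ k : K, indFun H ϑ k * conj (indFun H ϑ k) = (H.index : ℂ) ^ 2 * Nat.card L := by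
  rw [sum_sub_of_vanish hLK (fun g => indFun H ϑ g * conj (indFun H ϑ g)) (by
    intro k hk hkL
    show indFun H ϑ k * _ = 0
    rw [vanishK H L hK hKH hk hkL, zero_mul])]
  rw [← sum_mul_conj_self hϑL, Finset.mul_sum]
  refine Finset.sum_congr rfl fun l _ => ?_
  rw [hres l, map_mul, Complex.conj_natCast]
  ring

theorem index_eq (hϑ : IsIrrCharacter H ϑ) (K : Subgroup G)
    (hdec : ∀ g : G, ∃ k ∈ K, ∃ h ∈ H, g = k * h) : H.index = H.relIndex K := by
  have h1 := MGroup.mackey_of_mul K H hdec (irr_isClassFunction hϑ) 1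
  rw [Subgroup.coe_one, Cfsg.Agent.Lib.Helper24.indFun_one,
    Cfsg.Agent.Lib.Helper24.indFun_one] at h1
  have h2 : toSubgroupOf H K ϑ 1 = ϑ 1 := rfl
  rw [h2] at h1
  have h3 := mul_right_cancel₀ (irr_one_ne_zero hϑ) h1
  exact_mod_cast h3

end Cfsg.Agent.Lib.Helper25.MaxInd
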