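import Mathlib
import Cfsg.Agent.Lib.Helper25.MaxInd3

/-!
# Characters induced from maximal subgroups: the main argument
-/

set_option autoImplicit false

namespace Cfsg.Agent.Lib.Helper25.MaxInd

open Cfsg Cfsg.Agent.Lib.Helper2 Cfsg.Agent.Lib.Helper6 Cfsg.Agent.Lib.Helper24
open Cfsg.Agent.Lib.Helper13
open scoped ComplexConjugate Classical

universe u

variable {G : Type u} [Group G] [Fintype G]

omit [Fintype G] in
theorem card_eq_relIndex_mul [Finite G] {L K : Subgroup G} (hLK : L ≤ K) :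
    Nat.card K = L.relIndex K * Nat.card L := by
  have h1 := Subgroup.relIndex_mul_relIndex ⊥ L K bot_le hLK
  rw [Subgroup.relIndex_bot_left, Subgroup.relIndex_bot_left] at h1
  rw [← h1, mul_comm]

theorem norm_smul {X : Type*} [Group X] [Fintype X] {f ψ : X → ℂ} {c : ℕ}
    (hψ : IsIrrCharacter X ψ) (hf : f = (c : ℂ) • ψ) :
    ∑ x, f x * conj (f x) = (c : ℂ) ^ 2 * Nat.card X := by
  rw [← sum_mul_conj_self hψ, Finset.mul_sum, hf]
  refine Finset.sum_congr rfl fun x _ => ?_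
  simp only [Pi.smul_apply, smul_eq_mul, map_mul, Complex.conj_natCast]
  ring

theorem mid_irr (H L : Subgroup G) (hLH : L ≤ H) {ϑ : H → ℂ} (hϑ : IsIrrCharacter H ϑ)
    (hϑL : IsIrrCharacter L (fun x : L => ϑ ⟨(x : G), hLH x.2⟩)) (D : Subgroup G) (hLD : L ≤ D)
    (hDH : D ≤ H) : IsIrrCharacter D (fun d : D => ϑ ⟨(d : G), hDH d.2⟩) :=
  isIrrCharacter_of_comp_hom (Subgroup.inclusion hLD) (Subgroup.inclusion_injective hLD)
    (IsCharacter.comp_hom (Subgroup.inclusion hDH) (IsIrrCharacter.isCharacter hϑ)) hϑL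

end Cfsg.Agent.Lib.Helper25.MaxInd
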