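import Mathlib
import Cfsg.Agent.Lib.Helper13.TwoDeg2
import Cfsg.Agent.Lib.Helper25.MaxInd4
import Cfsg.Agent.Lib.Helper24.Covering
import Cfsg.Agent.Lib.Helper24.Constituent
import Cfsg.Agent.Lib.Helper24.Central

/-!
# Groups with character degrees 1 and p: basic lemmas
-/

set_option autoImplicit false

namespace Cfsg.Agent.Lib.Helper25.DegP

open Cfsg Cfsg.Agent.Lib.Helper2 Cfsg.Agent.Lib.Helper6 Cfsg.Agent.Lib.Helper24
open Cfsg.Agent.Lib.Helper13
open scoped ComplexConjugate Classical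

variable {G : Type*} [Group G] [Fintype G] {p : ℕ}

theorem deg_sub (hp : p.Prime)
    (hcd : ∀ χ : IrrCharacter G, charDegree (χ : G → ℂ) = 1 ∨ charDegree (χ : G → ℂ) = p)
    (N : Subgroup G) [N.Normal] (θ : IrrCharacter N) :
    charDegree (θ : N → ℂ) = 1 ∨ charDegree (θ : N → ℂ) = p := by
  obtain ⟨χ, e, h1, -⟩ := exists_over_degree N θ
  have h2 : charDegree (θ : N → ℂ) ∣ charDegree (χ : G → ℂ) := ⟨e, by rw [h1, mul_comm]⟩
  rcases hcd χ with h | h
  · left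
    rw [h] at h2
    exact Nat.dvd_one.mp h2
  · rw [h] at h2
    exact (Nat.dvd_prime hp).mp h2

theorem inv_of_deg (hp : p.Prime)
    (hcd : ∀ χ : IrrCharacter G, charDegree (χ : G → ℂ) = 1 ∨ charDegree (χ : G → ℂ) = p)
    (N : Subgroup G) [hN : N.Normal] {ψ : N → ℂ} (hψ : IsIrrCharacter N ψ)
    (hdeg : charDegree ψ = p) (g : G) (x : N) :
    ψ ⟨g * x * g⁻¹, hN.conj_mem x x.2 g⟩ = ψ x := by
  obtain ⟨χ, hχ⟩ := Cfsg.Agent.Lib.Helper24.exists_irr_over N.subtype N.subtype_injective ⟨ψ, hψ⟩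
  have hc : IsCharacter N ((χ : G → ℂ) ∘ N.subtype) :=
    IsCharacter.comp_hom N.subtype (IsIrrCharacter.isCharacter χ.2)
  have hle := degree_le_of_constituent hc ⟨ψ, hψ⟩ hχ
  have hd : charDegree ((χ : G → ℂ) ∘ N.subtype) = charDegree (χ : G → ℂ) := rfl
  have hle' : p ≤ charDegree (χ : G → ℂ) := by
    rw [← hd, ← hdeg]
    exact hle
  have hdp : charDegree ((χ : G → ℂ) ∘ N.subtype) = p := by
    rw [hd]
    rcases hcd χ with h | h
    · exfalso
      rw [h] at hle'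
      exact absurd hp.one_lt (by omega)
    · exact h
  have heq := eq_of_constituent_of_degree_eq hc ⟨ψ, hψ⟩ hχ (by rw [hdp]; exact hdeg.symm)
  have h1 : ∀ y : N, ψ y = (χ : G → ℂ) y := fun y => (congrFun heq y).symm
  rw [h1, h1]
  exact irr_isClassFunction χ.2 (x : G) g

theorem exists_lin {M : Type*} [Group M] [Finite M] {w : M} (hw : w ∉ commutator M) :
    ∃ μ : M →* ℂˣ, μ w ≠ 1 := by
  have hne : Abelianization.of w ≠ 1 := by
    intro h
    exact hw ((QuotientGroup.eq_one_iff w).mp h)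
  haveI : NeZero ((Monoid.exponent (Abelianization M) : ℕ) : ℂ) :=
    ⟨by exact_mod_cast Monoid.exponent_ne_zero_of_finite⟩
  obtain ⟨φ, hφ⟩ :=
    CommGroup.exists_apply_ne_one_of_hasEnoughRootsOfUnity (Abelianization M) ℂ hne
  exact ⟨φ.comp Abelianization.of, hφ⟩

theorem vanish (hp : p.Prime)
    (hcd : ∀ χ : IrrCharacter G, charDegree (χ : G → ℂ) = 1 ∨ charDegree (χ : G → ℂ) = p)
    (M : Subgroup G) [hM : M.Normal] {ψ : M → ℂ} (hψ : IsIrrCharacter M ψ)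
    (hdeg : charDegree ψ = p) (g : G) (x : M)
    (hx : (⟨g * x * g⁻¹, hM.conj_mem x x.2 g⟩ : M) * x⁻¹ ∉ commutator M) : ψ x = 0 := by
  obtain ⟨μ, hμ⟩ := exists_lin hx
  have hμc : IsIrrCharacter M (fun m => ((μ m : ℂˣ) : ℂ)) := isIrrCharacter_of_hom μ
  have hirr := IsIrrCharacter.linear_mul (IsIrrCharacter.isCharacter hμc) (by simp) hψ
  have hdeg' : charDegree ((fun m => ((μ m : ℂˣ) : ℂ)) * ψ) = p := by
    have h1 : ((fun m => ((μ m : ℂˣ) : ℂ)) * ψ) 1 = ψ 1 := by simp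
    unfold charDegree at hdeg ⊢
    rw [h1]
    exact hdeg
  have h1 := inv_of_deg hp hcd M hirr hdeg' g x
  have h2 := inv_of_deg hp hcd M hψ hdeg g x
  simp only [Pi.mul_apply] at h1
  rw [h2] at h1
  by_contra h0
  have h3 := mul_right_cancel₀ h0 h1
  apply hμ
  rw [map_mul, map_inv]
  have h4 : μ ⟨g * x * g⁻¹, hM.conj_mem x x.2 g⟩ = μ x := Units.ext h3
  rw [h4, mul_inv_cancel]

omit [Fintype G] in
theorem comm_of_commute (hp : p.Prime) (M K : Subgroup G) [M.Normal] [K.Normal]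
    (hidx : M.index = p) (hMK : ∀ a ∈ M, ∀ b ∈ M, a * b * a⁻¹ * b⁻¹ ∈ K) {x : G} (hx : x ∉ M)
    (hxM : ∀ m ∈ M, x * m * x⁻¹ * m⁻¹ ∈ K) : ∀ a b : G, a * b * a⁻¹ * b⁻¹ ∈ K := by
  haveI := Fact.mk hp
  have hcard : Nat.card (G ⧸ M) = p := hidx
  have hdec : ∀ a : G, ∃ i : ℤ, ∃ m ∈ M, a = x ^ i * m := by
    intro a
    have hne : (QuotientGroup.mk x : G ⧸ M) ≠ 1 := fun h => hx ((QuotientGroup.eq_one_iff x).mp h)
    have h1 : (QuotientGroup.mk a : G ⧸ M) ∈ Subgroup.zpowers (QuotientGroup.mk x : G ⧸ M) :=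
      mem_zpowers_of_prime_card hcard hne
    obtain ⟨i, hi⟩ := Subgroup.mem_zpowers_iff.mp h1
    refine ⟨i, (x ^ i)⁻¹ * a, ?_, by group⟩
    apply (QuotientGroup.eq_one_iff _).mp
    rw [QuotientGroup.mk_mul, QuotientGroup.mk_inv, QuotientGroup.mk_zpow, hi, inv_mul_cancel]
  have hc : ∀ a b : G, a * b * a⁻¹ * b⁻¹ ∈ K ↔
      Commute (QuotientGroup.mk' K a) (QuotientGroup.mk' K b) := by
    intro a b
    rw [← QuotientGroup.eq_one_iff, commute_iff_eq]
    show (QuotientGroup.mk' K (a * b * a⁻¹ * b⁻¹)) = 1 ↔ _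
    rw [map_mul, map_mul, map_mul, map_inv, map_inv, mul_inv_eq_one, mul_inv_eq_iff_eq_mul]
  intro a b
  obtain ⟨i, m, hm, rfl⟩ := hdec a
  obtain ⟨j, n, hn, rfl⟩ := hdec b
  rw [hc, map_mul, map_mul, map_zpow, map_zpow]
  have h1 := (hc x n).mp (hxM n hn)
  have h2 := (hc x m).mp (hxM m hm)
  have h3 := (hc m n).mp (hMK m hm n hn)
  exact Commute.mul_left (Commute.mul_right ((Commute.refl _).zpow_zpow i j) (h1.zpow_left i))
    (Commute.mul_right (h2.symm.zpow_right j) h3)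

/-- preimage of the centre of `G / K` -/
def cen (K : Subgroup G) [K.Normal] : Subgroup G :=
  (Subgroup.center (G ⧸ K)).comap (QuotientGroup.mk' K)

omit [Fintype G] in
theorem mem_cen (K : Subgroup G) [K.Normal] (x : G) :
    x ∈ cen K ↔ ∀ g, g * x * g⁻¹ * x⁻¹ ∈ K := by
  unfold cen
  rw [Subgroup.mem_comap, Subgroup.mem_center_iff]
  constructor
  · intro h g
    have h1 := h (QuotientGroup.mk' K g)
    rw [← QuotientGroup.eq_one_iff]
    show QuotientGroup.mk' K (g * x * g⁻¹ * x⁻¹) = 1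
    rw [map_mul, map_mul, map_mul, map_inv, map_inv, h1]
    group
  · intro h q
    obtain ⟨g, rfl⟩ := QuotientGroup.mk'_surjective K q
    have h1 := (QuotientGroup.eq_one_iff _).mpr (h g)
    change QuotientGroup.mk' K (g * x * g⁻¹ * x⁻¹) = 1 at h1
    rw [map_mul, map_mul, map_mul, map_inv, map_inv, mul_inv_eq_one, mul_inv_eq_iff_eq_mul] at h1
    exact h1

instance cen_normal (K : Subgroup G) [K.Normal] : (cen K).Normal := by
  unfold cen
  infer_instance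

end Cfsg.Agent.Lib.Helper25.DegP
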