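import Mathlib
import Cfsg.Agent.Lib.Helper25.DegP1
import Cfsg.Agent.S0174

/-!
# Groups with character degrees 1 and p: general character lemmas
-/

set_option autoImplicit false

namespace Cfsg.Agent.Lib.Helper25.DegP

open Cfsg Cfsg.Agent.Lib.Helper2 Cfsg.Agent.Lib.Helper6 Cfsg.Agent.Lib.Helper24
open Cfsg.Agent.Lib.Helper13 Cfsg.Agent.Lib.Helper25.MaxInd
open scoped ComplexConjugate Classical

attribute [local instance] irrFintype

variable {G : Type*} [Group G] [Fintype G] {p : ℕ}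

omit [Fintype G] in
theorem mem_comm_iff (M : Subgroup G) (w : M) : w ∈ commutator M ↔ (w : G) ∈ ⁅M, M⁆ := by
  rw [← Subgroup.map_subtype_commutator]
  constructor
  · intro h
    exact ⟨w, h, rfl⟩
  · rintro ⟨w', hw', h⟩
    have : w' = w := Subtype.ext h
    rwa [← this]

theorem const_of_constituents {X : Type*} [Group X] [Fintype X] {Θ : X → ℂ}
    (hΘ : IsCharacter X Θ) (a : X)
    (h : ∀ θ : IrrCharacter X, classInner Θ θ ≠ 0 → (θ : X → ℂ) a = (θ : X → ℂ) 1) :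
    Θ a = Θ 1 := by
  obtain ⟨n, hn⟩ := IsCharacter.exists_eq_sum hΘ
  have h1 : ∀ θ : IrrCharacter X, classInner Θ θ = n θ := by
    intro θ
    conv_lhs => rw [hn]
    exact classInner_sum_irr_left _ θ
  rw [hn]
  simp only [Finset.sum_apply, Pi.smul_apply, smul_eq_mul]
  refine Finset.sum_congr rfl fun θ _ => ?_
  by_cases h0 : n θ = 0
  · rw [h0]
    simp
  · rw [h θ (by rw [h1]; exact_mod_cast h0)]

theorem norm_restrict (M C : Subgroup G) (hCM : C ≤ M) {ψ : M → ℂ} (hψ : IsIrrCharacter M ψ)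
    (hv : ∀ x : M, (x : G) ∉ C → ψ x = 0) :
    ∑ c : C, ψ ⟨c, hCM c.2⟩ * conj (ψ ⟨c, hCM c.2⟩) = Nat.card M := by
  have hs3 := sum_sub_of_vanish hCM
    (fun g => extendByZero M ψ g * conj (extendByZero M ψ g)) (by
      intro d hd hdL
      show extendByZero M ψ d * _ = 0
      rw [extendByZero_mem M ψ hd, hv ⟨d, hd⟩ hdL, zero_mul])
  have hs4 : ∑ d : M, extendByZero M ψ d * conj (extendByZero M ψ d) = Nat.card M := by
    rw [← sum_mul_conj_self hψ]
    refine Finset.sum_congr rfl fun d _ => ?_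
    rw [extendByZero_mem M ψ d.2]
  rw [← hs4, hs3]
  refine Finset.sum_congr rfl fun l _ => ?_
  rw [extendByZero_mem M ψ (hCM l.2)]

theorem exists_ext (hp : p.Prime)
    (hcd : ∀ χ : IrrCharacter G, charDegree (χ : G → ℂ) = 1 ∨ charDegree (χ : G → ℂ) = p)
    (N : Subgroup G) {ψ : N → ℂ} (hψ : IsIrrCharacter N ψ)
    (hdeg : charDegree ψ = p) : ∃ χ : IrrCharacter G, ∀ y : N, ψ y = (χ : G → ℂ) y := by
  obtain ⟨χ, hχ⟩ := Cfsg.Agent.Lib.Helper24.exists_irr_over N.subtype N.subtype_injective ⟨ψ, hψ⟩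
  have hc : IsCharacter N ((χ : G → ℂ) ∘ N.subtype) :=
    IsCharacter.comp_hom N.subtype (IsIrrCharacter.isCharacter χ.2)
  have hle := degree_le_of_constituent hc ⟨ψ, hψ⟩ hχ
  have hd : charDegree ((χ : G → ℂ) ∘ N.subtype) = charDegree (χ : G → ℂ) := rfl
  have hle' : p ≤ charDegree (χ : G → ℂ) := by
    rw [← hd, ← hdeg]
    exact hle
  have hdp : charDegree ((χ : G → ℂ) ∘ N.subtype) = p := by
    rw [hd]
    rcases hcd χ with h | h
    · exfalso
      rw [h] at hle'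
      exact absurd hp.one_lt (by omega)
    · exact h
  have heq := eq_of_constituent_of_degree_eq hc ⟨ψ, hψ⟩ hχ (by rw [hdp]; exact hdeg.symm)
  exact ⟨χ, fun y => (congrFun heq y).symm⟩

theorem commute_of_index {X Q : Type*} [Group X] [Group Q] (hp : p.Prime) (π : X →* Q)
    (M : Subgroup X) [M.Normal] (hidx : M.index = p)
    (hMM : ∀ a ∈ M, ∀ b ∈ M, Commute (π a) (π b)) {x : X} (hx : x ∉ M)
    (hxM : ∀ m ∈ M, Commute (π x) (π m)) : ∀ a b : X, Commute (π a) (π b) := by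
  haveI := Fact.mk hp
  have hcard : Nat.card (X ⧸ M) = p := hidx
  have hdec : ∀ a : X, ∃ i : ℤ, ∃ m ∈ M, a = x ^ i * m := by
    intro a
    have hne : (QuotientGroup.mk x : X ⧸ M) ≠ 1 := fun h => hx ((QuotientGroup.eq_one_iff x).mp h)
    have h1 : (QuotientGroup.mk a : X ⧸ M) ∈ Subgroup.zpowers (QuotientGroup.mk x : X ⧸ M) :=
      mem_zpowers_of_prime_card hcard hne
    obtain ⟨i, hi⟩ := Subgroup.mem_zpowers_iff.mp h1
    refine ⟨i, (x ^ i)⁻¹ * a, ?_, by group⟩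
    apply (QuotientGroup.eq_one_iff _).mp
    rw [QuotientGroup.mk_mul, QuotientGroup.mk_inv, QuotientGroup.mk_zpow, hi, inv_mul_cancel]
  intro a b
  obtain ⟨i, m, hm, rfl⟩ := hdec a
  obtain ⟨j, n, hn, rfl⟩ := hdec b
  rw [map_mul, map_mul, map_zpow, map_zpow]
  have h1 := hxM n hn
  have h2 := hxM m hm
  have h3 := hMM m hm n hn
  exact Commute.mul_left (Commute.mul_right ((Commute.refl _).zpow_zpow i j) (h1.zpow_left i))
    (Commute.mul_right (h2.symm.zpow_right j) h3)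

theorem norm_mult_one (N : Subgroup G) [hN : N.Normal] {χ : G → ℂ} (hχ : IsIrrCharacter G χ)
    {θ : N → ℂ} (hθ : IsIrrCharacter N θ) (h1 : classInner (fun n : N => χ n) θ = 1)
    (hθ1 : θ 1 = 1) : ∑ n : N, χ n * conj (χ n) = χ 1 * Nat.card N := by
  have hcl := Cfsg.Agent.S0174.result N hN χ hχ θ hθ (by rw [h1]; exact one_ne_zero)
  rw [h1, one_smul] at hcl
  have hfin : {ψ : N → ℂ | ∃ g : G, ψ = fun n : N =>
      θ ⟨g * n * g⁻¹, hN.conj_mem n n.2 g⟩}.Finite := by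
    have : {ψ : N → ℂ | ∃ g : G, ψ = fun n : N => θ ⟨g * n * g⁻¹, hN.conj_mem n n.2 g⟩} =
        Set.range (fun g : G => fun n : N => θ ⟨g * n * g⁻¹, hN.conj_mem n n.2 g⟩) := by
      ext ψ
      simp [eq_comm]
    rw [this]
    exact Set.finite_range _
  rw [finsum_mem_eq_finite_toFinset_sum _ hfin] at hcl
  have hirr : ∀ ψ ∈ hfin.toFinset, IsIrrCharacter N ψ ∧ ψ 1 = 1 := by
    intro ψ hψ
    rw [Set.Finite.mem_toFinset] at hψ
    obtain ⟨g, rfl⟩ := hψ
    constructor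
    · exact IsIrrCharacter.inflate (MulAut.conjNormal g : N ≃* N).toMonoidHom
        (MulEquiv.surjective _) hθ
    · have h2 : (⟨g * ((1 : N) : G) * g⁻¹, hN.conj_mem _ (1 : N).2 g⟩ : N) = 1 :=
        Subtype.ext (by simp)
      show θ ⟨g * ((1 : N) : G) * g⁻¹, _⟩ = 1
      rw [h2, hθ1]
  have hin : classInner (fun n : N => χ n) (fun n : N => χ n) = (hfin.toFinset.card : ℂ) := by
    rw [hcl, classInner_sum_left]
    have h3 : ∀ ψ ∈ hfin.toFinset, classInner ψ (∑ i ∈ hfin.toFinset, i) = 1 := by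
      intro ψ hψ
      rw [classInner_sum_right]
      rw [Finset.sum_congr rfl (fun ψ' hψ' => classInner_irr (hirr ψ hψ).1 (hirr ψ' hψ').1)]
      rw [Finset.sum_ite_eq, if_pos hψ]
    rw [Finset.sum_congr rfl h3]
    simp
  have hdeg : χ 1 = (hfin.toFinset.card : ℂ) := by
    have h4 := congrFun hcl 1
    rw [Finset.sum_apply, Finset.sum_congr rfl (fun ψ hψ => (hirr ψ hψ).2)] at h4
    simpa using h4
  rw [hdeg, ← hin, classInner]
  have h0 : (Nat.card N : ℂ) ≠ 0 := card_ne_zero_complex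
  field_simp

end Cfsg.Agent.Lib.Helper25.DegP
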