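import Mathlib
import Cfsg.Agent.Lib.Helper25.DegP2

/-!
# Groups with character degrees 1 and p: the subgroup `C`
-/

set_option autoImplicit false

namespace Cfsg.Agent.Lib.Helper25.DegP

open Cfsg Cfsg.Agent.Lib.Helper2 Cfsg.Agent.Lib.Helper6 Cfsg.Agent.Lib.Helper24
open Cfsg.Agent.Lib.Helper13 Cfsg.Agent.Lib.Helper25.MaxInd
open scoped ComplexConjugate Classical

attribute [local instance] irrFintype

variable {G : Type*} [Group G] [Fintype G] {p : ℕ}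

omit [Fintype G] in
theorem comm_mem' (M : Subgroup G) : ∀ a ∈ M, ∀ b ∈ M, a * b * a⁻¹ * b⁻¹ ∈ ⁅M, M⁆ :=
  fun _ ha _ hb => Subgroup.commutator_mem_commutator ha hb

omit [Fintype G] in
theorem cen_le (hp : p.Prime) (M : Subgroup G) [hM : M.Normal] (hidx : M.index = p)
    (hGK : ¬ ∀ a b : G, a * b * a⁻¹ * b⁻¹ ∈ ⁅M, M⁆) : cen ⁅M, M⁆ ≤ M := by
  intro x hx
  by_contra hxM
  apply hGK
  refine comm_of_commute hp M ⁅M, M⁆ hidx (comm_mem' M) hxM fun m _ => ?_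
  have h1 := (⁅M, M⁆).inv_mem ((mem_cen _ x).mp hx m)
  have h2 : (m * x * m⁻¹ * x⁻¹)⁻¹ = x * m * x⁻¹ * m⁻¹ := by group
  rwa [h2] at h1

omit [Fintype G] in
theorem cen_ne (hp : p.Prime) (M : Subgroup G) [hM : M.Normal] (hidx : M.index = p)
    (hGK : ¬ ∀ a b : G, a * b * a⁻¹ * b⁻¹ ∈ ⁅M, M⁆) : cen ⁅M, M⁆ ≠ M := by
  intro heq
  apply hGK
  have hne : M ≠ ⊤ := by
    intro h
    rw [h, Subgroup.index_top] at hidx
    exact hp.one_lt.ne hidx
  obtain ⟨x, -, hx⟩ := SetLike.exists_of_lt (lt_top_iff_ne_top.mpr hne)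
  refine comm_of_commute hp M ⁅M, M⁆ hidx (comm_mem' M) hx fun m hm => ?_
  have hm' : m ∈ cen ⁅M, M⁆ := by
    rw [heq]
    exact hm
  exact (mem_cen _ m).mp hm' x

omit [Fintype G] in
theorem comm_le_cen (M : Subgroup G) [hM : M.Normal] : ⁅M, M⁆ ≤ cen ⁅M, M⁆ := by
  intro k hk
  rw [mem_cen]
  intro g
  exact (⁅M, M⁆).mul_mem ((inferInstance : (⁅M, M⁆).Normal).conj_mem k hk g) ((⁅M, M⁆).inv_mem hk)

omit [Fintype G] in
theorem center_le_cen (M : Subgroup G) [hM : M.Normal] : Subgroup.center G ≤ cen ⁅M, M⁆ := by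
  intro z hz
  rw [mem_cen]
  intro g
  have h1 : g * z * g⁻¹ * z⁻¹ = 1 := by
    rw [Subgroup.mem_center_iff.mp hz g]
    group
  rw [h1]
  exact one_mem _

theorem vanish_off (hp : p.Prime)
    (hcd : ∀ χ : IrrCharacter G, charDegree (χ : G → ℂ) = 1 ∨ charDegree (χ : G → ℂ) = p)
    (M : Subgroup G) [hM : M.Normal] {ψ : M → ℂ} (hψ : IsIrrCharacter M ψ)
    (hdeg : charDegree ψ = p) (x : M) (hx : (x : G) ∉ cen ⁅M, M⁆) : ψ x = 0 := by
  rw [mem_cen] at hx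
  push Not at hx
  obtain ⟨g, hg⟩ := hx
  apply vanish hp hcd M hψ hdeg g x
  intro h
  exact hg ((mem_comm_iff M _).mp h)

theorem one_of_deg {X : Type*} [Group X] [Fintype X] {ψ : X → ℂ} (hψ : IsIrrCharacter X ψ)
    (h : charDegree ψ = 1) : ψ 1 = 1 := by
  rw [← charDegree_cast (IsIrrCharacter.isCharacter hψ), h]
  simp

theorem cen_abelian (hp : p.Prime)
    (hcd : ∀ χ : IrrCharacter G, charDegree (χ : G → ℂ) = 1 ∨ charDegree (χ : G → ℂ) = p)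
    (M : Subgroup G) [hM : M.Normal] (hidx : M.index = p)
    (hGK : ¬ ∀ a b : G, a * b * a⁻¹ * b⁻¹ ∈ ⁅M, M⁆) :
    ∀ a ∈ cen ⁅M, M⁆, ∀ b ∈ cen ⁅M, M⁆, a * b = b * a := by
  intro a ha b hb
  have hCM := cen_le hp M hidx hGK
  have key : ((⟨a, hCM ha⟩ : M) * ⟨b, hCM hb⟩ * (⟨a, hCM ha⟩ : M)⁻¹ * (⟨b, hCM hb⟩ : M)⁻¹) = 1 := by
    apply TwoDeg.eq_one_of_irr_const
    intro ψ hψ
    rcases deg_sub hp hcd M ⟨ψ, hψ⟩ with h | h
    · exact UniqueP.ker_of_degree_one (IsIrrCharacter.isCharacter hψ) (one_of_deg hψ h) _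
        (UniqueP.comm_mem _ _)
    · have hΘ : IsCharacter (cen ⁅M, M⁆) (fun c : cen ⁅M, M⁆ => ψ ⟨c, hCM c.2⟩) :=
        IsCharacter.comp_hom (Subgroup.inclusion hCM) (IsIrrCharacter.isCharacter hψ)
      have h5 := const_of_constituents hΘ
        ((⟨a, ha⟩ : cen ⁅M, M⁆) * ⟨b, hb⟩ * (⟨a, ha⟩ : cen ⁅M, M⁆)⁻¹ * (⟨b, hb⟩ : cen ⁅M, M⁆)⁻¹)
        (fun θ hθ => ?_)
      · exact h5
      · rcases deg_sub hp hcd (cen ⁅M, M⁆) θ with h' | h'
        · exact UniqueP.ker_of_degree_one (IsIrrCharacter.isCharacter θ.2) (one_of_deg θ.2 h') _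
            (UniqueP.comm_mem _ _)
        · exfalso
          have heq := eq_of_constituent_of_degree_eq hΘ θ hθ (by rw [h']; exact h)
          have hirr : IsIrrCharacter (cen ⁅M, M⁆) (fun c : cen ⁅M, M⁆ => ψ ⟨c, hCM c.2⟩) :=
            heq ▸ θ.2
          have h1 := sum_mul_conj_self hirr
          have h2 := norm_restrict M (cen ⁅M, M⁆) hCM hψ (vanish_off hp hcd M hψ h)
          rw [h2] at h1
          have h3 : Nat.card M = Nat.card (cen ⁅M, M⁆) := by exact_mod_cast h1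
          exact cen_ne hp M hidx hGK (Subgroup.eq_of_le_of_card_ge hCM h3.le)
  have h6 : a * b * a⁻¹ * b⁻¹ = 1 := congrArg Subtype.val key
  exact commutatorElement_eq_one_iff_mul_comm.mp h6

end Cfsg.Agent.Lib.Helper25.DegP
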