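import Mathlib
import Cfsg.Agent.Lib.Helper25.DegP3

/-!
# Groups with character degrees 1 and p: invariance of the characters of `C`
-/

set_option autoImplicit false

namespace Cfsg.Agent.Lib.Helper25.DegP

open Cfsg Cfsg.Agent.Lib.Helper2 Cfsg.Agent.Lib.Helper6 Cfsg.Agent.Lib.Helper24
open Cfsg.Agent.Lib.Helper13 Cfsg.Agent.Lib.Helper25.MaxInd
open scoped ComplexConjugate Classical commutatorElement

attribute [local instance] irrFintype

variable {G : Type*} [Group G] [Fintype G] {p : ℕ}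

theorem lam_invariant (hp : p.Prime)
    (hcd : ∀ χ : IrrCharacter G, charDegree (χ : G → ℂ) = 1 ∨ charDegree (χ : G → ℂ) = p)
    (M : Subgroup G) [hM : M.Normal] (hidx : M.index = p)
    (hmin : ∀ T : Subgroup G, T.index = p → Nat.card (⁅M, M⁆ : Subgroup G) ≤ Nat.card (⁅T, T⁆ : Subgroup G))
    (C : Subgroup G) [hC : C.Normal] (hCM : C ≤ M) (hKC : ⁅M, M⁆ ≤ C)
    (hcent : ∀ c ∈ C, ∀ g : G, g * c * g⁻¹ * c⁻¹ ∈ ⁅M, M⁆)
    (hvan : ∀ ψ : M → ℂ, IsIrrCharacter M ψ → charDegree ψ = p → ∀ x : M, (x : G) ∉ C → ψ x = 0)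
    (lam : C →* ℂˣ) {z : G} (hz : z ∈ ⁅M, M⁆) (hlz : lam ⟨z, hKC hz⟩ ≠ 1) :
    inertia C (TwoDeg.fn C lam) = ⊤ := by
  by_contra hne
  have hlam := TwoDeg.fn_irr C lam
  have hlam1 : TwoDeg.fn C lam 1 = 1 := by simp [TwoDeg.fn]
  have hlamdeg : charDegree (TwoDeg.fn C lam) = 1 :=
    charDegree_eq_of_cast (by rw [hlam1]; simp)
  obtain ⟨ψ, hψ⟩ := Cfsg.Agent.Lib.Helper24.exists_irr_over (Subgroup.inclusion hCM)
    (Subgroup.inclusion_injective hCM) ⟨TwoDeg.fn C lam, hlam⟩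
  have hψc : IsCharacter C ((ψ : M → ℂ) ∘ Subgroup.inclusion hCM) :=
    IsCharacter.comp_hom _ (IsIrrCharacter.isCharacter ψ.2)
  have hψdeg : charDegree (ψ : M → ℂ) = p := by
    rcases deg_sub hp hcd M ψ with h | h
    · exfalso
      have heq := eq_of_constituent_of_degree_eq hψc ⟨_, hlam⟩ hψ (hlamdeg ▸ h)
      have h1 := UniqueP.ker_of_degree_one (IsIrrCharacter.isCharacter ψ.2) (one_of_deg ψ.2 h)
        ⟨z, hCM (hKC hz)⟩ ((mem_comm_iff M _).mpr hz)
      rw [one_of_deg ψ.2 h] at h1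
      have h2 := congrFun heq ⟨z, hKC hz⟩
      apply hlz
      apply Units.ext
      have h3 : ((lam ⟨z, hKC hz⟩ : ℂˣ) : ℂ) = (ψ : M → ℂ) ⟨z, hCM (hKC hz)⟩ := h2.symm
      rw [h3, h1]
      rfl
    · exact h
  obtain ⟨χ, hχ⟩ := exists_ext hp hcd M ψ.2 hψdeg
  have hres : (fun n : C => (χ : G → ℂ) n) = (ψ : M → ℂ) ∘ Subgroup.inclusion hCM := by
    funext n
    exact (hχ ⟨n, hCM n.2⟩).symm
  have hcon : classInner (fun n : C => (χ : G → ℂ) n) (TwoDeg.fn C lam) ≠ 0 := by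
    rw [hres]
    exact hψ
  obtain ⟨T, hTdef⟩ : ∃ T : Subgroup G, T = inertia C (TwoDeg.fn C lam) := ⟨_, rfl⟩
  rw [← hTdef] at hne
  have hT : ∀ g, g ∈ T ↔ conjFun C g (TwoDeg.fn C lam) = TwoDeg.fn C lam := fun g => by
    rw [hTdef]
    exact mem_inertia C _ g
  have hCT : C ≤ T := le_inertia C hlam T hT
  have hdvd : T.index ∣ charDegree (χ : G → ℂ) := by
    rw [hTdef]
    exact inertia_index_dvd_degree C hlam χ.2 hcon
  have hT1 : T.index ≠ 1 := fun h => hne (Subgroup.index_eq_one.mp h)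
  have hχdeg : charDegree (χ : G → ℂ) = p := by
    rcases hcd χ with h | h
    · rw [h] at hdvd
      exact absurd (Nat.dvd_one.mp hdvd) hT1
    · exact h
  have hTidx : T.index = p := by
    rw [hχdeg] at hdvd
    exact ((Nat.dvd_prime hp).mp hdvd).resolve_left hT1
  obtain ⟨ψT, hψT, hind, -, hmult⟩ := clifford_surj C hlam T hT hCT χ.2 hcon
  have hp0 : (p : ℂ) ≠ 0 := by exact_mod_cast hp.ne_zero
  have hψT1 : ψT 1 = 1 := by
    have h1 := Cfsg.Agent.Lib.Helper24.indFun_one T ψT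
    rw [hind, ← charDegree_cast (IsIrrCharacter.isCharacter χ.2), hχdeg, hTidx] at h1
    exact (mul_left_cancel₀ hp0 (by rw [mul_one]; exact h1)).symm
  have hψTc : IsCharacter C (fun n : C => ψT ⟨(n : G), hCT n.2⟩) :=
    IsCharacter.comp_hom (Subgroup.inclusion hCT) (IsIrrCharacter.isCharacter hψT)
  have hψTres : (fun n : C => ψT ⟨(n : G), hCT n.2⟩) = TwoDeg.fn C lam :=
    eq_of_constituent_of_degree_eq hψTc ⟨_, hlam⟩ (by rw [hmult]; exact hcon) (by
      rw [show charDegree (((⟨_, hlam⟩ : IrrCharacter C)) : C → ℂ) = 1 from hlamdeg]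
      exact charDegree_eq_of_cast (by
        show ψT 1 = _
        rw [hψT1]
        simp))
  have hmult1 : classInner (fun n : C => (χ : G → ℂ) n) (TwoDeg.fn C lam) = 1 := by
    rw [← hmult, hψTres, classInner_irr hlam hlam, if_pos rfl]
  have hn1 := norm_mult_one C χ.2 hlam hmult1 hlam1
  have hn2 := norm_restrict M C hCM ψ.2 (hvan ψ ψ.2 hψdeg)
  have hcardM : Nat.card M = p * Nat.card C := by
    have h1 : (Nat.card M : ℂ) = p * Nat.card C := by
      rw [← hn2, ← hχdeg, charDegree_cast (IsIrrCharacter.isCharacter χ.2), ← hn1]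
      refine Finset.sum_congr rfl fun c _ => ?_
      rw [hχ]
    exact_mod_cast h1
  have hcardT : Nat.card T = Nat.card M := by
    have h1 := Subgroup.card_mul_index T
    have h2 := Subgroup.card_mul_index M
    rw [hTidx] at h1
    rw [hidx] at h2
    exact Nat.eq_of_mul_eq_mul_right hp.pos (h1.trans h2.symm)
  have hrel : (C.subgroupOf T).index = p := by
    have h1 := card_eq_relIndex_mul hCT
    rw [hcardT, hcardM] at h1
    exact (Nat.eq_of_mul_eq_mul_right Nat.card_pos h1).symm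
  obtain ⟨x, hx⟩ : ∃ x : T, x ∉ C.subgroupOf T := by
    by_contra hall
    push Not at hall
    have h1 : C.subgroupOf T = ⊤ := (Subgroup.eq_top_iff' _).mpr hall
    rw [h1, Subgroup.index_top] at hrel
    exact hp.one_lt.ne hrel
  have hcen : ∀ c ∈ C, ∀ g : G,
      Commute (QuotientGroup.mk' ⁅M, M⁆ g) (QuotientGroup.mk' ⁅M, M⁆ c) := by
    intro c hc g
    have h1 := (QuotientGroup.eq_one_iff _).mpr (hcent c hc g)
    change QuotientGroup.mk' ⁅M, M⁆ (g * c * g⁻¹ * c⁻¹) = 1 at h1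
    rw [map_mul, map_mul, map_mul, map_inv, map_inv, mul_inv_eq_one, mul_inv_eq_iff_eq_mul] at h1
    exact h1
  have hcomm := commute_of_index hp ((QuotientGroup.mk' ⁅M, M⁆).comp T.subtype)
    (C.subgroupOf T) hrel
    (fun a _ b hb => hcen b (Subgroup.mem_subgroupOf.mp hb) a) hx
    (fun m hm => hcen m (Subgroup.mem_subgroupOf.mp hm) x)
  have hTK : ⁅T, T⁆ ≤ ⁅M, M⁆ := by
    rw [Subgroup.commutator_le]
    intro a ha b hb
    apply (QuotientGroup.eq_one_iff _).mp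
    have h1 := hcomm ⟨a, ha⟩ ⟨b, hb⟩
    show QuotientGroup.mk' ⁅M, M⁆ ⁅a, b⁆ = 1
    rw [map_commutatorElement]
    exact commutatorElement_eq_one_iff_commute.mpr h1
  have hTKeq : ⁅T, T⁆ = ⁅M, M⁆ := Subgroup.eq_of_le_of_card_ge hTK (hmin T hTidx)
  have hzT : z ∈ ⁅T, T⁆ := hTKeq ▸ hz
  have h1 := UniqueP.ker_of_degree_one (IsIrrCharacter.isCharacter hψT) hψT1
    ⟨z, hCT (hKC hz)⟩ ((mem_comm_iff T _).mpr hzT)
  rw [hψT1] at h1
  have h2 := congrFun hψTres ⟨z, hKC hz⟩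
  apply hlz
  apply Units.ext
  have h3 : ((lam ⟨z, hKC hz⟩ : ℂˣ) : ℂ) = ψT ⟨z, hCT (hKC hz)⟩ := h2.symm
  rw [h3, h1]
  rfl

end Cfsg.Agent.Lib.Helper25.DegP
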