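import Mathlib
import Cfsg.Agent.Lib.Helper25.DegP4
import Cfsg.Agent.Lib.Lead.GlaubN
import Cfsg.Agent.Lib.Helper6.NormalDefect

/-!
# Groups with character degrees 1 and p: the centre has index p³
-/

set_option autoImplicit false

namespace Cfsg.Agent.Lib.Helper25.DegP

open Cfsg Cfsg.Agent.Lib.Helper2 Cfsg.Agent.Lib.Helper6 Cfsg.Agent.Lib.Helper24
open Cfsg.Agent.Lib.Helper13 Cfsg.Agent.Lib.Helper25.MaxInd
open scoped ComplexConjugate Classical commutatorElement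

attribute [local instance] irrFintype

variable {G : Type*} [Group G] [Fintype G] {p : ℕ}

theorem caseC (hp : p.Prime)
    (hcd : ∀ χ : IrrCharacter G, charDegree (χ : G → ℂ) = 1 ∨ charDegree (χ : G → ℂ) = p)
    (M : Subgroup G) [hM : M.Normal] (hidx : M.index = p)
    (hmin : ∀ T : Subgroup G, T.index = p →
      Nat.card (⁅M, M⁆ : Subgroup G) ≤ Nat.card (⁅T, T⁆ : Subgroup G))
    (hGK : ¬ ∀ a b : G, a * b * a⁻¹ * b⁻¹ ∈ ⁅M, M⁆) (hK : (⁅M, M⁆ : Subgroup G) ≠ ⊥) :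
    (Subgroup.center G).index = p ^ 3 := by
  have hCM := cen_le hp M hidx hGK
  have hKC := comm_le_cen M
  have hab := cen_abelian hp hcd M hidx hGK
  have hcent : ∀ c ∈ cen ⁅M, M⁆, ∀ g : G, g * c * g⁻¹ * c⁻¹ ∈ ⁅M, M⁆ :=
    fun c hc => (mem_cen _ c).mp hc
  have hvan : ∀ ψ : M → ℂ, IsIrrCharacter M ψ → charDegree ψ = p →
      ∀ x : M, (x : G) ∉ cen ⁅M, M⁆ → ψ x = 0 := fun ψ hψ hd => vanish_off hp hcd M hψ hd
  obtain ⟨C, hCdef⟩ : ∃ C : Subgroup G, C = cen ⁅M, M⁆ := ⟨_, rfl⟩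
  have hCn : C.Normal := hCdef ▸ cen_normal _
  have hZC : Subgroup.center G ≤ C := hCdef ▸ center_le_cen M
  rw [← hCdef] at hCM hKC hab hcent hvan
  obtain ⟨⟨z, hz⟩, hz1⟩ := Subgroup.ne_bot_iff_exists_ne_one.mp hK
  have hz1' : z ≠ 1 := fun h => hz1 (Subtype.ext h)
  obtain ⟨lam₀, hlam₀⟩ := Cfsg.Agent.Lib.Lead.Glaub.exists_hom_ne_one (A := C)
    (fun a b => Subtype.ext (hab a a.2 b b.2)) (a := ⟨z, hKC hz⟩)
    (fun h => hz1' (congrArg Subtype.val h))
  have hinv1 : ∀ lam : C →* ℂˣ, lam ⟨z, hKC hz⟩ ≠ 1 → ∀ g : G, TwoDeg.act C g lam = lam := by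
    intro lam hl g
    have h1 := lam_invariant hp hcd M hidx hmin C hCM hKC hcent hvan lam hz hl
    exact (TwoDeg.mem_inertia_fn C g lam).mp (h1 ▸ Subgroup.mem_top g)
  have hinv : ∀ (g : G) (lam : C →* ℂˣ), TwoDeg.act C g lam = lam := by
    intro g lam
    by_cases hl : lam ⟨z, hKC hz⟩ = 1
    · have h1 := hinv1 (lam * lam₀) (by
        rw [MonoidHom.mul_apply, hl, one_mul]
        exact hlam₀) g
      rw [map_mul, hinv1 lam₀ hlam₀ g] at h1
      exact mul_right_cancel h1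
    · exact hinv1 lam hl g
  have hCZ : C ≤ Subgroup.center G := by
    intro c hc
    rw [Subgroup.mem_center_iff]
    intro g
    have h1 := TwoDeg.mem_centralizer_of_act C hab (hinv g)
    exact (Subgroup.mem_centralizer_iff.mp h1 c hc).symm
  have hZeq : Subgroup.center G = C := le_antisymm hZC hCZ
  obtain ⟨ψ, hψdeg⟩ : ∃ ψ : IrrCharacter M, charDegree (ψ : M → ℂ) = p := by
    by_contra hno
    push Not at hno
    have h1 := Cfsg.Agent.Lib.Helper6.comm_of_all_linear (P := M)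
      (fun ζ => (deg_sub hp hcd M ζ).resolve_right (hno ζ))
    apply hK
    rw [eq_bot_iff, Subgroup.commutator_le]
    intro a ha b hb
    rw [Subgroup.mem_bot]
    exact commutatorElement_eq_one_iff_mul_comm.mpr (congrArg Subtype.val (h1 ⟨a, ha⟩ ⟨b, hb⟩))
  have hψ1 : (ψ : M → ℂ) 1 = p := by
    rw [← charDegree_cast (IsIrrCharacter.isCharacter ψ.2), hψdeg]
  have hp0 : (p : ℂ) ≠ 0 := by exact_mod_cast hp.ne_zero
  have hn := norm_restrict M C hCM ψ.2 (hvan ψ ψ.2 hψdeg)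
  have hterm : ∀ c : C, (ψ : M → ℂ) ⟨c, hCM c.2⟩ * conj ((ψ : M → ℂ) ⟨c, hCM c.2⟩) =
      (p : ℂ) ^ 2 := by
    intro c
    have hc : (⟨c, hCM c.2⟩ : M) ∈ Subgroup.center M := by
      rw [Subgroup.mem_center_iff]
      intro m
      exact Subtype.ext (Subgroup.mem_center_iff.mp (hCZ c.2) m)
    have h1 := central_mul ψ.2 hc (⟨c, hCM c.2⟩ : M)⁻¹
    rw [mul_inv_cancel, IsCharacter.apply_inv (IsIrrCharacter.isCharacter ψ.2), hψ1] at h1
    field_simp at h1
    rw [← h1]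
  rw [Finset.sum_congr rfl (fun c _ => hterm c), Finset.sum_const, Finset.card_univ,
    nsmul_eq_mul, ← Nat.card_eq_fintype_card] at hn
  have hcardM : Nat.card C * p ^ 2 = Nat.card M := by exact_mod_cast hn
  have h1 := Subgroup.card_mul_index M
  have h2 := Subgroup.card_mul_index C
  rw [hidx, ← hcardM] at h1
  rw [hZeq]
  have h3 : Nat.card C * C.index = Nat.card C * p ^ 3 := by
    rw [h2, ← h1]
    ring
  exact Nat.eq_of_mul_eq_mul_left Nat.card_pos h3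

end Cfsg.Agent.Lib.Helper25.DegP
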