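import Mathlib
import Cfsg.Agent.Lib.Helper25.DegP5

/-!
# Groups with character degrees 1 and p: both directions
-/

set_option autoImplicit false

namespace Cfsg.Agent.Lib.Helper25.DegP

open Cfsg Cfsg.Agent.Lib.Helper2 Cfsg.Agent.Lib.Helper6 Cfsg.Agent.Lib.Helper24
open Cfsg.Agent.Lib.Helper13 Cfsg.Agent.Lib.Helper25.MaxInd
open scoped ComplexConjugate Classical commutatorElement

attribute [local instance] irrFintype

variable {G : Type*} [Group G] [Fintype G] {p : ℕ}

theorem forward (hp : p.Prime)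
    (hcd : ∀ χ : IrrCharacter G, charDegree (χ : G → ℂ) = 1 ∨ charDegree (χ : G → ℂ) = p)
    (hex : ∃ χ : IrrCharacter G, charDegree (χ : G → ℂ) = p) :
    (∃ A : Subgroup G, A.Normal ∧ (∀ a ∈ A, ∀ b ∈ A, a * b = b * a) ∧ A.index = p) ∨
      (Subgroup.center G).index = p ^ 3 := by
  rcases TwoDeg.main p hcd hex hp.one_lt.ne' with ⟨-, h⟩ | ⟨hnil, -⟩
  · exact Or.inl h
  haveI := hnil
  obtain ⟨χ₀, hχ₀⟩ := hex
  obtain ⟨H, lam, hH⟩ := Cfsg.Agent.S0176.result (χ₀ : G → ℂ) χ₀.2
  have hHidx : H.index = p := by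
    have h1 := Cfsg.Agent.Lib.Helper24.indFun_one H (fun h => ((lam h : ℂˣ) : ℂ))
    rw [← hH, ← charDegree_cast (IsIrrCharacter.isCharacter χ₀.2), hχ₀] at h1
    simp only [map_one, Units.val_one, mul_one] at h1
    exact_mod_cast h1.symm
  have hnormal : ∀ T : Subgroup G, T.index = p → T.Normal := by
    intro T hT
    have hle := TwoDeg.comm_le_of_index p hcd T hT
    constructor
    intro m hm g
    have h1 : g * m * g⁻¹ * m⁻¹ ∈ T := hle (UniqueP.comm_mem g m)
    have h2 := T.mul_mem h1 hm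
    rwa [inv_mul_cancel_right] at h2
  obtain ⟨M, hMidx, hmin⟩ : ∃ M : Subgroup G, M.index = p ∧ ∀ T : Subgroup G, T.index = p →
      Nat.card (⁅M, M⁆ : Subgroup G) ≤ Nat.card (⁅T, T⁆ : Subgroup G) := by
    have hex : ∃ n, ∃ T : Subgroup G, T.index = p ∧ Nat.card (⁅T, T⁆ : Subgroup G) = n :=
      ⟨_, H, hHidx, rfl⟩
    obtain ⟨M, hM1, hM2⟩ := Nat.find_spec hex
    exact ⟨M, hM1, fun T hT => by rw [hM2]; exact Nat.find_min' hex ⟨T, hT, rfl⟩⟩
  haveI hMn := hnormal M hMidx
  haveI hHn := hnormal H hHidx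
  by_cases hK : (⁅M, M⁆ : Subgroup G) = ⊥
  · left
    refine ⟨M, hMn, fun a ha b hb => ?_, hMidx⟩
    have h1 := comm_mem' M a ha b hb
    rw [hK, Subgroup.mem_bot] at h1
    exact commutatorElement_eq_one_iff_mul_comm.mp h1
  right
  apply caseC hp hcd M hMidx hmin _ hK
  intro hall
  have h1 : commutator G ≤ ⁅M, M⁆ := by
    rw [commutator_def, Subgroup.commutator_le]
    intro a _ b _
    exact hall a b
  have h2 : (⁅H, H⁆ : Subgroup G) ≤ commutator G := by
    rw [commutator_def]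
    exact Subgroup.commutator_mono le_top le_top
  have h3 : (⁅H, H⁆ : Subgroup G) = commutator G :=
    Subgroup.eq_of_le_of_card_ge h2 ((Subgroup.card_le_of_le h1).trans (hmin H hHidx))
  have h4 : (χ₀ : G → ℂ) 1 = 1 := by
    apply degree_one_of_abelian_quotient (commutator G) (fun x y => UniqueP.comm_mem x y) χ₀.2
    intro n hn
    rw [hH]
    apply Cfsg.Agent.S0175.indFun_eq_one_of_forall
    intro x
    have hn' : x⁻¹ * n * x ∈ (⁅H, H⁆ : Subgroup G) := by
      rw [h3]
      have h5 := (inferInstance : (commutator G).Normal).conj_mem n hn x⁻¹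
      rwa [inv_inv] at h5
    refine ⟨Subgroup.commutator_le_self H hn', ?_⟩
    have h5 : (⟨x⁻¹ * n * x, Subgroup.commutator_le_self H hn'⟩ : H) ∈ lam.ker :=
      Abelianization.commutator_subset_ker lam ((mem_comm_iff H _).mpr hn')
    rw [MonoidHom.mem_ker.mp h5, map_one]
  rw [← charDegree_cast (IsIrrCharacter.isCharacter χ₀.2), hχ₀] at h4
  exact hp.one_lt.ne' (by exact_mod_cast h4)

theorem sq_le_index_center {χ : G → ℂ} (hχ : IsIrrCharacter G χ) {k : ℕ} (hk : χ 1 = k) :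
    k ^ 2 ≤ (Subgroup.center G).index := by
  have hk0 : (k : ℂ) ≠ 0 := hk ▸ irr_one_ne_zero hχ
  have h1 : ∑ g : G, Complex.normSq (χ g) = Nat.card G := by
    have h := sum_mul_conj_self hχ
    simp_rw [Complex.mul_conj] at h
    exact_mod_cast h
  have h2 : ∀ z ∈ Subgroup.center G, Complex.normSq (χ z) = (k : ℝ) ^ 2 := by
    intro z hz
    have h := central_mul hχ hz z⁻¹
    rw [mul_inv_cancel, IsCharacter.apply_inv (IsIrrCharacter.isCharacter hχ), hk,
      Complex.mul_conj] at h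
    field_simp at h
    have h' : ((Complex.normSq (χ z) : ℝ) : ℂ) = (((k : ℝ) ^ 2 : ℝ) : ℂ) := by
      push_cast
      rw [← h]
    exact_mod_cast h'
  have h3 : ∑ g ∈ Finset.univ.filter (· ∈ Subgroup.center G), Complex.normSq (χ g) ≤
      ∑ g : G, Complex.normSq (χ g) :=
    Finset.sum_le_sum_of_subset_of_nonneg (Finset.filter_subset _ _)
      (fun _ _ _ => Complex.normSq_nonneg _)
  rw [Finset.sum_congr rfl (fun g hg => h2 g (Finset.mem_filter.mp hg).2), Finset.sum_const,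
    h1, nsmul_eq_mul, ← Fintype.card_subtype, ← Nat.card_eq_fintype_card,
    ← Subgroup.card_mul_index (Subgroup.center G)] at h3
  have h4 : Nat.card (Subgroup.center G) * k ^ 2 ≤
      Nat.card (Subgroup.center G) * (Subgroup.center G).index := by exact_mod_cast h3
  exact Nat.le_of_mul_le_mul_left h4 Nat.card_pos

theorem backward_b (hp : p.Prime) (hZ : (Subgroup.center G).index = p ^ 3)
    (χ : IrrCharacter G) : charDegree (χ : G → ℂ) = 1 ∨ charDegree (χ : G → ℂ) = p := by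
  obtain ⟨k, hk1, hk2⟩ := exists_degree_dvd_index_center χ.2
  have hdeg : charDegree (χ : G → ℂ) = k := charDegree_eq_of_cast hk1
  have hsq := sq_le_index_center χ.2 hk1
  rw [hZ] at hk2 hsq
  obtain ⟨j, hj, rfl⟩ := (Nat.dvd_prime_pow hp).mp hk2
  rw [← pow_mul] at hsq
  have h1 : j * 2 ≤ 3 := (Nat.pow_le_pow_iff_right hp.one_lt).mp hsq
  rw [hdeg]
  have h2 : j = 0 ∨ j = 1 := by omega
  rcases h2 with rfl | rfl
  · left
    simp
  · right
    simp

theorem exists_deg (hG : ∃ a b : G, a * b ≠ b * a)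
    (hcd : ∀ χ : IrrCharacter G, charDegree (χ : G → ℂ) = 1 ∨ charDegree (χ : G → ℂ) = p) :
    ∃ χ : IrrCharacter G, charDegree (χ : G → ℂ) = p := by
  by_contra hno
  push Not at hno
  obtain ⟨a, b, hab⟩ := hG
  exact hab (Cfsg.Agent.Lib.Helper6.comm_of_all_linear (P := G)
    (fun ζ => (hcd ζ).resolve_right (hno ζ)) a b)

end Cfsg.Agent.Lib.Helper25.DegP
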