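import Mathlib
import Cfsg.Agent.Lib.Helper25.MaxInd4

/-!
# Characters induced from maximal subgroups: an abstract vanishing lemma
-/

set_option autoImplicit false

namespace Cfsg.Agent.Lib.Helper25.MaxInd

open Cfsg Cfsg.Agent.Lib.Helper2 Cfsg.Agent.Lib.Helper6 Cfsg.Agent.Lib.Helper24
open Cfsg.Agent.Lib.Helper13
open scoped ComplexConjugate Classical

theorem lemA {X : Type*} [Group X] [Fintype X] (N : Subgroup X) [N.Normal] {f ψ' : X → ℂ}
    {ψN : N → ℂ} {c c' : ℕ}
    (hψ' : IsIrrCharacter X ψ') (hψN : IsIrrCharacter N ψN) (hf : f = (c' : ℂ) • ψ')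
    (hfN : (fun n : N => f n) = (c : ℂ) • ψN) (hc : c ≠ 0) :
    ∃ e : ℕ, c = c' * e ∧ e ∣ N.index := by
  have hcon : classInner (fun n : N => ψ' n) ψN ≠ 0 := by
    intro h0
    have h1 : classInner (fun n : N => f n) ψN = c := by
      rw [hfN, classInner_smul_left, classInner_irr hψN hψN, if_pos rfl, mul_one]
    have h2 : (fun n : N => f n) = (c' : ℂ) • (fun n : N => ψ' n) := by
      rw [hf]; rfl
    rw [h2, classInner_smul_left, h0, mul_zero] at h1
    exact hc (by exact_mod_cast h1.symm)
  obtain ⟨e, he, hdvd⟩ := ratio_dvd_index N hψ' hψN hcon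
  refine ⟨e, ?_, hdvd⟩
  have h3 := congrFun hfN 1
  simp only [Pi.smul_apply, smul_eq_mul, Subgroup.coe_one] at h3
  rw [hf] at h3
  simp only [Pi.smul_apply, smul_eq_mul] at h3
  rw [he] at h3
  have h4 : ((c' * e : ℕ) : ℂ) * ψN 1 = c * ψN 1 := by push_cast; rw [← h3]; ring
  have h5 := mul_right_cancel₀ (irr_one_ne_zero hψN) h4
  exact_mod_cast h5.symm

theorem vanish_of_norm {X : Type*} [Fintype X] (P : X → Prop) (f : X → ℂ)
    (h : ∑ x, f x * conj (f x) = ∑ x, if P x then f x * conj (f x) else 0) (x : X) (hx : ¬ P x) :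
    f x = 0 := by
  have h1 : ∑ x, (if P x then 0 else Complex.normSq (f x)) = 0 := by
    have h2 : ((∑ x, (if P x then 0 else Complex.normSq (f x)) : ℝ) : ℂ) = 0 := by
      push_cast
      have h3 : ∀ x, ((if P x then (0 : ℝ) else Complex.normSq (f x) : ℝ) : ℂ) =
          f x * conj (f x) - if P x then f x * conj (f x) else 0 := by
        intro x
        by_cases hP : P x
        · simp [hP]
        · simp [hP, Complex.mul_conj]
      rw [Finset.sum_congr rfl fun x _ => h3 x, Finset.sum_sub_distrib, h, sub_self]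
    exact_mod_cast h2
  have h4 := (Finset.sum_eq_zero_iff_of_nonneg (fun x _ => by
    by_cases hP : P x
    · simp [hP]
    · simp [hP, Complex.normSq_nonneg])).mp h1 x (Finset.mem_univ x)
  rw [if_neg hx] at h4
  exact Complex.normSq_eq_zero.mp h4

theorem lemB {X : Type*} [Group X] [Fintype X] (N D : Subgroup X) [N.Normal] {η : D → ℂ}
    {ψ' : X → ℂ} {ψN : N → ℂ} {c c' : ℕ}
    (hη : IsIrrCharacter D η)
    (hψ' : IsIrrCharacter X ψ') (hψN : IsIrrCharacter N ψN) (hf : indFun D η = (c' : ℂ) • ψ')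
    (hfN : (fun n : N => indFun D η n) = (c : ℂ) • ψN) (hc : c ^ 2 = D.index)
    (hcop : D.index.Coprime N.index) :
    (∀ d : D, indFun D η d = D.index * η d) ∧ ∀ x, x ∉ D → indFun D η x = 0 := by
  have hn0 : D.index ≠ 0 := Subgroup.index_ne_zero_of_finite
  have hc0 : c ≠ 0 := by
    rintro rfl
    simp at hc
    exact hn0 hc.symm
  obtain ⟨e, he, hdvd⟩ := lemA N hψ' hψN hf hfN hc0
  have he1 : e = 1 := by
    have h1 : e ∣ D.index := by
      rw [← hc, he]
      exact Dvd.dvd.pow (Dvd.intro_left _ rfl) two_ne_zero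
    exact Nat.eq_one_of_dvd_coprimes hcop h1 hdvd
  subst he1
  rw [mul_one] at he
  subst he
  have h1 : classInner (indFun D η) (indFun D η) = D.index := by
    rw [hf, classInner_smul_left, classInner_smul_right, classInner_irr hψ' hψ', if_pos rfl,
      ← hc]
    simp
    ring
  have hchar : IsCharacter X (indFun D η) := IsCharacter.indFun D (IsIrrCharacter.isCharacter hη)
  have hcl : IsClassFunction X (indFun D η) := by
    rw [hf]
    intro g h
    simp only [Pi.smul_apply, smul_eq_mul]
    rw [irr_isClassFunction hψ' g h]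
  have h2 : classInner (fun d : D => indFun D η d) η = (D.index : ℕ) := by
    rw [← classInner_conj_symm, ← frobenius_reciprocity D η _ hcl, h1]
    simp
  have h3 := FullRam.eq_smul_of_degree (IsCharacter.restrict D hchar) ⟨η, hη⟩ D.index h2 (by
    have h4 : charDegree (fun d : D => indFun D η d) = charDegree (indFun D η) := rfl
    rw [h4, charDegree_indFun D (IsIrrCharacter.isCharacter hη)])
  have h5 : ∀ d : D, indFun D η d = D.index * η d := fun d => congrFun h3 d
  refine ⟨h5, ?_⟩
  apply vanish_of_norm (fun x => x ∈ D) (indFun D η)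
  rw [← sum_sub D (fun x => indFun D η x * conj (indFun D η x)), norm_smul hψ' hf,
    norm_smul hη (f := fun d : D => indFun D η d) (c := D.index) h3]
  rw [← Subgroup.index_mul_card D, ← hc]
  push_cast
  ring

end Cfsg.Agent.Lib.Helper25.MaxInd
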