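import Mathlib
import Cfsg.Agent.Lib.Helper25.MaxInd5

/-!
# Characters induced from maximal subgroups: the main argument
-/

set_option autoImplicit false

namespace Cfsg.Agent.Lib.Helper25.MaxInd

open Cfsg Cfsg.Agent.Lib.Helper2 Cfsg.Agent.Lib.Helper6 Cfsg.Agent.Lib.Helper24
open Cfsg.Agent.Lib.Helper13
open scoped ComplexConjugate Classical

universe u

variable {G : Type u} [Group G] [Fintype G]

theorem main (H L : Subgroup G) [L.Normal] (hLH : L ≤ H) (hmax : IsCoatom H)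
    (hLcore : ∀ X : Subgroup G, X.Normal → X ≤ H → X ≤ L)
    (hsolv : Group.IsSolvable (G ⧸ L)) {ϑ : H → ℂ} (hϑ : IsIrrCharacter H ϑ)
    (hϑL : IsIrrCharacter L (fun x : L => ϑ ⟨(x : G), hLH x.2⟩))
    (hind : IsIrrCharacter G (indFun H ϑ))
    (hq : ∀ M : Subgroup G, M.Normal → L ≤ M → ∃ (φ : M → ℂ) (e : ℕ), IsIrrCharacter M φ ∧
      (fun m : M => indFun H ϑ m) = (e : ℂ) • φ) : False := by
  have hres := resL H L hLH hϑ hϑL hind (hq L inferInstance le_rfl)
  have hn0 : H.index ≠ 0 := Subgroup.index_ne_zero_of_finite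
  have hn1 : H.index ≠ 1 := fun h => hmax.1 (Subgroup.index_eq_one.mp h)
  have hL0 : (Nat.card L : ℂ) ≠ 0 := by exact_mod_cast Nat.card_pos.ne'
  have hn0' : (H.index : ℂ) ≠ 0 := by exact_mod_cast hn0
  by_cases hne : L = H
  · have h1 := normK H L hLH hϑL hres (K := ⊤) inferInstance le_top (by rw [top_inf_eq, hne])
    rw [sum_sub ⊤ (fun g => indFun H ϑ g * conj (indFun H ϑ g))] at h1
    simp only [Subgroup.mem_top, if_true] at h1
    have hcard : Nat.card H = Nat.card L := by rw [hne]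
    rw [sum_mul_conj_self hind, ← Subgroup.index_mul_card H, hcard] at h1
    push_cast at h1
    have h2 : (H.index : ℂ) = 1 := by
      apply mul_right_cancel₀ (mul_ne_zero hn0' hL0)
      rw [one_mul]
      conv_rhs => rw [h1]
      ring
    exact hn1 (by exact_mod_cast h2)
  obtain ⟨K, R, hK, hLK, hKH, hdec, hLR, hRH, hRL, hRn, hcop⟩ :=
    structure_G H L hmax hLH hLcore hsolv hne
  have hn : H.index = L.relIndex K := by
    rw [index_eq H hϑ K hdec, ← Subgroup.inf_relIndex_right, inf_comm, hKH]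
  obtain ⟨ψ, c, hψ, hc⟩ := hq K hK hLK
  have hc2 : c ^ 2 = H.index := by
    have h1 := normK H L hLH hϑL hres hK hLK hKH
    rw [norm_smul hψ hc, card_eq_relIndex_mul hLK, ← hn] at h1
    push_cast at h1
    have h2 : ((c ^ 2 : ℕ) : ℂ) = H.index := by
      apply mul_right_cancel₀ (mul_ne_zero hn0' hL0)
      push_cast
      rw [h1]
      ring
    exact_mod_cast h2
  have hMn : (K ⊔ R).Normal := by
    constructor
    intro m hm g
    have h1 : (K ⊔ R).map (MulAut.conj g).toMonoidHom ≤ K ⊔ R := by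
      rw [Subgroup.map_sup]
      refine sup_le ?_ ?_
      · rintro _ ⟨k, hk, rfl⟩
        exact (le_sup_left : K ≤ K ⊔ R) (hK.conj_mem k hk g)
      · rintro _ ⟨r, hr, rfl⟩
        obtain ⟨k₀, hk₀, h₀, hh₀, rfl⟩ := hdec g
        have h2 : (MulAut.conj (k₀ * h₀)).toMonoidHom r = k₀ * (h₀ * r * h₀⁻¹) * k₀⁻¹ := by
          show (k₀ * h₀) * r * (k₀ * h₀)⁻¹ = _
          group
        rw [h2]
        have h3 : k₀ ∈ K ⊔ R := (le_sup_left : K ≤ K ⊔ R) hk₀
        exact mul_mem (mul_mem h3 ((le_sup_right : R ≤ K ⊔ R) (hRn h₀ hh₀ r hr))) (inv_mem h3)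
    exact h1 ⟨m, hm, rfl⟩
  have hKRL : K ⊓ R = L := le_antisymm
    (by rw [← hKH]; exact inf_le_inf_left K hRH) (le_inf hLK hLR)
  have hidx : K.relIndex (K ⊔ R) = L.relIndex R := by
    rw [Subgroup.relIndex_sup_left, ← Subgroup.inf_relIndex_right, hKRL]
  obtain ⟨M, hM⟩ : ∃ M, M = K ⊔ R := ⟨_, rfl⟩
  rw [← hM] at hMn hidx
  have hKM : K ≤ M := hM ▸ le_sup_left
  have hRM : R ≤ M := hM ▸ le_sup_right
  have hLM : L ≤ M := hLK.trans hKM
  have hdecM : ∀ g : G, ∃ m ∈ M, ∃ h ∈ H, g = m * h := by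
    intro g
    obtain ⟨k, hk, h, hh, rfl⟩ := hdec g
    exact ⟨k, hKM hk, h, hh, rfl⟩
  obtain ⟨ψ', c', hψ', hc'⟩ := hq M hMn hLM
  have hmack := MGroup.mackey_of_mul M H hdecM (irr_isClassFunction hϑ)
  have hη : IsIrrCharacter (H.subgroupOf M) (toSubgroupOf H M ϑ) := by
    let j : L →* H.subgroupOf M :=
      { toFun := fun l => ⟨⟨(l : G), hLM l.2⟩, Subgroup.mem_subgroupOf.mpr (hLH l.2)⟩
        map_one' := rfl
        map_mul' := fun _ _ => rfl }
    let i : H.subgroupOf M →* H :=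
      { toFun := fun x => ⟨((x : M) : G), Subgroup.mem_subgroupOf.mp x.2⟩
        map_one' := rfl
        map_mul' := fun _ _ => rfl }
    refine isIrrCharacter_of_comp_hom j ?_
      (IsCharacter.comp_hom i (IsIrrCharacter.isCharacter hϑ)) hϑL
    intro a b hab
    apply Subtype.ext
    exact congrArg (fun x : H.subgroupOf M => ((x : M) : G)) hab
  haveI : (K.subgroupOf M).Normal := Subgroup.normal_subgroupOf
  have hB := lemB (K.subgroupOf M) (H.subgroupOf M) (c := c) (c' := c') hη hψ'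
    (IsIrrCharacter.toSubgroupOf hKM hψ)
    (by
      funext m
      rw [← hmack m]
      exact congrFun hc' m)
    (by
      funext x
      rw [← hmack (x : M)]
      exact congrFun hc ⟨((x : M) : G), Subgroup.mem_subgroupOf.mp x.2⟩)
    (by
      rw [hc2, index_eq H hϑ M hdecM]
      rfl)
    (by
      have h1 : (H.subgroupOf M).index = L.relIndex K := by
        rw [← hn, index_eq H hϑ M hdecM]
        rfl
      have h2 : (K.subgroupOf M).index = L.relIndex R := hidx
      rw [h1, h2]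
      exact hcop)
  obtain ⟨hB1, hB2⟩ := hB
  have hidxM : (H.subgroupOf M).index = H.index := by
    rw [index_eq H hϑ M hdecM]
    rfl
  -- translate
  have hv1 : ∀ m (hm : m ∈ M) (hmH : m ∈ H), indFun H ϑ m = H.index * ϑ ⟨m, hmH⟩ := by
    intro m hm hmH
    have h1 := hmack ⟨m, hm⟩
    have h2 := hB1 ⟨⟨m, hm⟩, Subgroup.mem_subgroupOf.mpr hmH⟩
    rw [hidxM] at h2
    exact h1.trans h2
  have hv2 : ∀ m, m ∈ M → m ∉ H → indFun H ϑ m = 0 := by
    intro m hm hmH
    have h1 := hmack ⟨m, hm⟩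
    have h2 := hB2 ⟨m, hm⟩ (fun h => hmH (Subgroup.mem_subgroupOf.mp h))
    exact h1.trans h2
  have hvan : ∀ d (hd : d ∈ H ⊓ M), d ∉ L → ϑ ⟨d, (Subgroup.mem_inf.mp hd).1⟩ = 0 := by
    intro d hd hdL
    by_contra h0
    apply hdL
    apply hLcore H.normalCore inferInstance (Subgroup.normalCore_le H)
    intro g
    by_contra hg
    have h1 := hv2 (g * d * g⁻¹) (hMn.conj_mem d (Subgroup.mem_inf.mp hd).2 g) hg
    have h2 : indFun H ϑ (g * d * g⁻¹) = indFun H ϑ d := irr_isClassFunction hind d g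
    rw [h2, hv1 d (Subgroup.mem_inf.mp hd).2 (Subgroup.mem_inf.mp hd).1] at h1
    exact (mul_ne_zero hn0' h0) h1
  have hLD : L ≤ H ⊓ M := le_inf hLH hLM
  have hirrD := mid_irr H L hLH hϑ hϑL (H ⊓ M) hLD inf_le_left
  have hs1 := sum_mul_conj_self hirrD
  have hs2 := sum_mul_conj_self hϑL
  have hs3 := sum_sub_of_vanish hLD
    (fun g => extendByZero H ϑ g * conj (extendByZero H ϑ g)) (by
      intro d hd hdL
      show extendByZero H ϑ d * _ = 0
      rw [extendByZero_mem H ϑ (Subgroup.mem_inf.mp hd).1, hvan d hd hdL, zero_mul])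
  have hs4 : ∑ d : (H ⊓ M : Subgroup G), extendByZero H ϑ d * conj (extendByZero H ϑ d) =
      Nat.card (H ⊓ M : Subgroup G) := by
    rw [← hs1]
    refine Finset.sum_congr rfl fun d _ => ?_
    rw [extendByZero_mem H ϑ (Subgroup.mem_inf.mp d.2).1]
  have hs5 : ∑ l : L, extendByZero H ϑ l * conj (extendByZero H ϑ l) = Nat.card L := by
    rw [← hs2]
    refine Finset.sum_congr rfl fun l _ => ?_
    rw [extendByZero_mem H ϑ (hLH l.2)]
  rw [hs4, hs5] at hs3
  have hs6 : Nat.card (H ⊓ M : Subgroup G) = Nat.card L := by exact_mod_cast hs3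
  have hDL : L = H ⊓ M := Subgroup.eq_of_le_of_card_ge hLD hs6.le
  apply hRL
  exact le_antisymm (by rw [hDL]; exact le_inf hRH hRM) hLR

end Cfsg.Agent.Lib.Helper25.MaxInd
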