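import Cfsg.Agent.Lib.Helper24.Galois
import Cfsg.Agent.Lib.Helper24.DefectZero
import Cfsg.Agent.Lib.Helper6.Height
import Cfsg.Agent.Lib.Helper2.Ortho

set_option autoImplicit false

namespace Cfsg.Agent.Lib.Helper25
namespace NonVanish

open Cfsg Cfsg.Agent.Lib.Helper2 Cfsg.Agent.Lib.Helper6 Cfsg.Agent.Lib.Helper24
open scoped ComplexConjugate

attribute [local instance] irrFintype

variable {G : Type*} [Group G]

/-- a character of degree prime to `p` does not vanish on `p`-elements. -/
theorem ne_zero_of_pElement [Finite G] {p : ℕ} (hp : p.Prime) {χ : G → ℂ} (hχ : IsCharacter G χ)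
    (hd : ¬ p ∣ charDegree χ) {x : G} {k : ℕ} (hx : x ^ (p ^ k) = 1) : χ x ≠ 0 := by
  classical
  haveI := Fintype.ofFinite G
  obtain ⟨M, hM⟩ := exists_isPModular hp
  intro h0
  have h1 := char_mul_sub_memLocalIdeal hM hχ (Commute.one_right x) hx
  rw [mul_one, h0, zero_sub, ← charDegree_cast hχ] at h1
  have h2 := MemLocalIdeal.neg h1
  rw [neg_neg] at h2
  exact hd ((memLocalIdeal_natCast_iff hM _).1 h2)

theorem card_conjClasses_congr {A B : Type*} [Group A] [Group B] (e : A ≃* B) :
    Nat.card (ConjClasses A) = Nat.card (ConjClasses B) := by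
  apply Nat.card_congr
  exact
    { toFun := ConjClasses.map e.toMonoidHom
      invFun := ConjClasses.map e.symm.toMonoidHom
      left_inv := by
        intro c
        induction c using Quotient.inductionOn with
        | _ a => 
          show ConjClasses.mk (e.symm (e a)) = ConjClasses.mk a
          rw [e.symm_apply_apply]
      right_inv := by
        intro c
        induction c using Quotient.inductionOn with
        | _ a => 
          show ConjClasses.mk (e (e.symm a)) = ConjClasses.mk a
          rw [e.apply_symm_apply] }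

/-- inflation as a bijection onto the irreducible characters with `N` in the kernel. -/
noncomputable def inflEquiv [Finite G] (N : Subgroup G) [N.Normal] :
    IrrCharacter (G ⧸ N) ≃ {χ : IrrCharacter G // ∀ n ∈ N, (χ : G → ℂ) n = (χ : G → ℂ) 1} :=
  Equiv.ofBijective
    (fun ψ => ⟨⟨fun g => (ψ : G ⧸ N → ℂ) (QuotientGroup.mk' N g),
      IsIrrCharacter.inflate (QuotientGroup.mk' N) (QuotientGroup.mk'_surjective N) ψ.2⟩, by
        intro n hn
        show (ψ : G ⧸ N → ℂ) (QuotientGroup.mk' N n) = (ψ : G ⧸ N → ℂ) (QuotientGroup.mk' N 1)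
        rw [map_one, QuotientGroup.mk'_apply, (QuotientGroup.eq_one_iff n).2 hn]⟩)
    (by
      constructor
      · intro ψ ψ' h
        apply Subtype.ext
        funext q
        obtain ⟨g, rfl⟩ := QuotientGroup.mk'_surjective N q
        exact congrFun (congrArg (fun z => ((z : {χ : IrrCharacter G // ∀ n ∈ N, (χ : G → ℂ) n = (χ : G → ℂ) 1}).1 : G → ℂ)) h) g
      · intro χ
        obtain ⟨ψ, hψ, h⟩ := IsIrrCharacter.deflate N χ.1.2 χ.2
        refine ⟨⟨ψ, hψ⟩, ?_⟩
        apply Subtype.ext
        apply Subtype.ext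
        funext g
        exact h g)

theorem inflEquiv_apply [Finite G] (N : Subgroup G) [N.Normal] (ψ : IrrCharacter (G ⧸ N)) (g : G) :
    ((inflEquiv N ψ).1 : G → ℂ) g = (ψ : G ⧸ N → ℂ) (g : G ⧸ N) := rfl

theorem card_irr_ker [Finite G] (N : Subgroup G) [N.Normal] :
    Nat.card {χ : IrrCharacter G // ∀ n ∈ N, (χ : G → ℂ) n = (χ : G → ℂ) 1}
      = Nat.card (ConjClasses (G ⧸ N)) := by
  haveI := Fintype.ofFinite (G ⧸ N)
  rw [← Nat.card_congr (inflEquiv N), card_irr_eq_card_conjClasses]

theorem sum_norm_sq [Finite G] (y : G) :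
    ∑ χ : IrrCharacter G, ‖(χ : G → ℂ) y‖ ^ 2
      = (Nat.card (Subgroup.centralizer ({y} : Set G)) : ℝ) := by
  classical
  haveI := Fintype.ofFinite G
  have h := column_orthogonality y y
  rw [if_pos (IsConj.refl y)] at h
  apply Complex.ofReal_injective
  push_cast
  rw [← h]
  apply Finset.sum_congr rfl
  intro χ _
  rw [Complex.mul_conj']

end NonVanish
end Cfsg.Agent.Lib.Helper25
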