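import Mathlib

set_option autoImplicit false

namespace Cfsg.Agent.Lib.Helper25.PiPart

/-- In a finite nilpotent group the "π-part" power map is multiplicative. -/
theorem pow_mul_of_nilpotent {E : Type*} [Group E] [Finite E] (hE : Group.IsNilpotent E)
    {m m' a : ℕ} (hc : Nat.Coprime m m') (hcard : Nat.card E ∣ m * m')
    (ha1 : a ≡ 1 [MOD m]) (ha0 : a ≡ 0 [MOD m']) (e f : E) :
    (e * f) ^ a = e ^ a * f ^ a := by
  obtain ⟨Φ⟩ := ((Group.isNilpotent_of_finite_tfae (G := E)).out 0 4).mp hE
  obtain ⟨u, rfl⟩ := Φ.surjective e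
  obtain ⟨v, rfl⟩ := Φ.surjective f
  rw [← map_mul, ← map_pow, ← map_pow, ← map_pow, ← map_mul]
  congr 1
  funext q P
  simp only [Pi.pow_apply, Pi.mul_apply]
  have hq : (q : ℕ).Prime := Nat.prime_of_mem_primeFactors q.2
  haveI := Fact.mk hq
  have key : (∀ w : (P : Subgroup E), w ^ a = w) ∨ (∀ w : (P : Subgroup E), w ^ a = 1) := by
    obtain ⟨j, hj⟩ := (IsPGroup.iff_card.mp P.2)
    have hPd : Nat.card (P : Subgroup E) ∣ m * m' := (Subgroup.card_subgroup_dvd_card _).trans hcard
    by_cases hqm : (q : ℕ) ∣ m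
    · left
      intro w
      have h1 : Nat.Coprime (Nat.card (P : Subgroup E)) m' := by
        rw [hj]
        apply Nat.Coprime.pow_left
        rw [Nat.Prime.coprime_iff_not_dvd hq]
        intro h
        exact hq.one_lt.ne' (Nat.eq_one_of_dvd_coprimes hc hqm h)
      have h2 : Nat.card (P : Subgroup E) ∣ m := h1.dvd_of_dvd_mul_right hPd
      have h3 : a ≡ 1 [MOD orderOf w] := ha1.of_dvd ((orderOf_dvd_natCard w).trans h2)
      have := pow_eq_pow_iff_modEq.mpr h3
      rwa [pow_one] at this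
    · right
      intro w
      have h1 : Nat.Coprime (Nat.card (P : Subgroup E)) m := by
        rw [hj]
        apply Nat.Coprime.pow_left
        rwa [Nat.Prime.coprime_iff_not_dvd hq]
      have h2 : Nat.card (P : Subgroup E) ∣ m' := h1.dvd_of_dvd_mul_left hPd
      have h3 : a ≡ 0 [MOD orderOf w] := ha0.of_dvd ((orderOf_dvd_natCard w).trans h2)
      have := pow_eq_pow_iff_modEq.mpr h3
      rwa [pow_zero] at this
  rcases key with key | key
  · rw [key, key, key]
  · rw [key, key, key, one_mul]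

/-- A finite group of exponent dividing `e` and order dividing `e * e'` (`e`, `e'` coprime) has
order dividing `e`. -/
theorem card_dvd_of_pow_eq_one {X : Type*} [Group X] [Finite X] {e e' : ℕ}
    (hX : ∀ g : X, g ^ e = 1) (hd : Nat.card X ∣ e * e') (hc : Nat.Coprime e e') :
    Nat.card X ∣ e := by
  have h1 : Nat.Coprime (Nat.card X) e' := by
    apply Nat.coprime_of_dvd
    intro q hq hqX hqe
    haveI := Fact.mk hq
    obtain ⟨g, hg⟩ := exists_prime_orderOf_dvd_card' q hqX
    have h2 : q ∣ e := by rw [← hg]; exact orderOf_dvd_of_pow_eq_one (hX g)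
    exact hq.one_lt.ne' (Nat.eq_one_of_dvd_coprimes hc h2 hqe)
  exact h1.dvd_of_dvd_mul_right hd

end Cfsg.Agent.Lib.Helper25.PiPart
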