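import Mathlib
import Cfsg.Prelude.Def_RootSubgroups

set_option autoImplicit false
open Cfsg
open scoped commutatorElement

namespace Cfsg.Agent.Lib.Helper25

variable {G : Type*} [Group G]

/-! ### conjBy -/

theorem mem_conjBy {A : Subgroup G} {g x : G} : x ∈ conjBy A g ↔ g⁻¹ * x * g ∈ A := by
  constructor
  · rintro ⟨y, hy, rfl⟩
    simpa [MulAut.conj_apply, mul_assoc] using hy
  · intro h
    exact ⟨g⁻¹ * x * g, h, by simp [MulAut.conj_apply, mul_assoc]⟩

theorem conj_mem_conjBy {A : Subgroup G} {a : G} (ha : a ∈ A) (g : G) : g * a * g⁻¹ ∈ conjBy A g := by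
  rw [mem_conjBy]; simpa [mul_assoc] using ha

theorem conjBy_conjBy (A : Subgroup G) (g h : G) : conjBy (conjBy A g) h = conjBy A (h * g) := by
  ext x
  simp only [mem_conjBy, mul_inv_rev, mul_assoc]

@[simp] theorem conjBy_one (A : Subgroup G) : conjBy A 1 = A := by
  ext x; simp

theorem conjBy_of_mem {A : Subgroup G} {g : G} (hg : g ∈ A) : conjBy A g = A := by
  ext x
  rw [mem_conjBy]
  constructor
  · intro h
    have := A.mul_mem (A.mul_mem hg h) (A.inv_mem hg)
    simpa [mul_assoc] using this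
  · intro h
    exact A.mul_mem (A.mul_mem (A.inv_mem hg) h) hg

theorem conjBy_inv_conjBy (A : Subgroup G) (g : G) : conjBy (conjBy A g) g⁻¹ = A := by
  rw [conjBy_conjBy]; simp

theorem conjBy_conjBy_inv (A : Subgroup G) (g : G) : conjBy (conjBy A g⁻¹) g = A := by
  rw [conjBy_conjBy]; simp

theorem conjBy_injective (g : G) : Function.Injective (fun A : Subgroup G => conjBy A g) := by
  intro A B h
  have := congrArg (fun C => conjBy C g⁻¹) h
  simpa [conjBy_inv_conjBy] using this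

theorem conjBy_inj {A B : Subgroup G} {g : G} : conjBy A g = conjBy B g ↔ A = B :=
  ⟨fun h => conjBy_injective g h, fun h => by rw [h]⟩

theorem conjBy_eq_iff {A B : Subgroup G} {g : G} : conjBy A g = B ↔ A = conjBy B g⁻¹ := by
  constructor
  · rintro rfl; rw [conjBy_inv_conjBy]
  · rintro rfl; rw [conjBy_conjBy_inv]

theorem conjBy_sup (A B : Subgroup G) (g : G) : conjBy (A ⊔ B) g = conjBy A g ⊔ conjBy B g :=
  Subgroup.map_sup A B _

theorem conjBy_mono {A B : Subgroup G} (h : A ≤ B) (g : G) : conjBy A g ≤ conjBy B g :=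
  Subgroup.map_mono h

theorem conjBy_le_iff {A B : Subgroup G} {g : G} : conjBy A g ≤ conjBy B g ↔ A ≤ B := by
  constructor
  · intro h
    have := conjBy_mono h g⁻¹
    simpa [conjBy_inv_conjBy] using this
  · intro h; exact conjBy_mono h g

theorem conjBy_le_of_mem {A X : Subgroup G} (h : A ≤ X) {g : G} (hg : g ∈ X) : conjBy A g ≤ X := by
  have := conjBy_mono h g
  rwa [conjBy_of_mem hg] at this

theorem conjBy_of_normal {N : Subgroup G} (hN : N.Normal) (g : G) : conjBy N g = N := by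
  ext x
  rw [mem_conjBy]
  constructor
  · intro h
    have := hN.conj_mem _ h g
    simpa [mul_assoc] using this
  · intro h
    have := hN.conj_mem _ h g⁻¹
    simpa [mul_assoc] using this

theorem conjBy_of_centralizes {C : Subgroup G} {z : G} (hz : ∀ c ∈ C, z * c = c * z) : conjBy C z = C := by
  ext x
  rw [mem_conjBy]
  constructor
  · intro h
    have h1 := hz _ h
    have : x = z⁻¹ * x * z := by
      have e : z * (z⁻¹ * x * z) = x * z := by group
      rw [e] at h1
      exact mul_right_cancel h1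
    rw [this]; exact h
  · intro h
    have h1 := hz _ h
    have : z⁻¹ * x * z = x := by rw [mul_assoc, ← h1]; group
    rw [this]; exact h

theorem conjBy_bot (g : G) : conjBy (⊥ : Subgroup G) g = ⊥ := Subgroup.map_bot _

theorem conjBy_eq_bot_iff {A : Subgroup G} {g : G} : conjBy A g = ⊥ ↔ A = ⊥ := by
  rw [conjBy_eq_iff, conjBy_bot]

theorem conjBy_inf (A B : Subgroup G) (g : G) : conjBy (A ⊓ B) g = conjBy A g ⊓ conjBy B g := by
  ext x
  simp only [mem_conjBy, Subgroup.mem_inf]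

theorem mem_normalizer_iff_conjBy {A : Subgroup G} {g : G} :
    g ∈ Subgroup.normalizer (A : Set G) ↔ conjBy A g = A :=
  Subgroup.mem_normalizer_iff_map_conj_eq

/-- the isomorphism `A ≃* conjBy A g`. -/
noncomputable def conjByEquiv (A : Subgroup G) (g : G) : A ≃* conjBy A g :=
  A.equivMapOfInjective (MulAut.conj g).toMonoidHom (MulAut.conj g).injective

theorem conjBy_isNilpotent {A : Subgroup G} (h : Group.IsNilpotent A) (g : G) :
    Group.IsNilpotent (conjBy A g) :=
  (Group.isNilpotent_congr (conjByEquiv A g)).mp h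

theorem conjBy_isMulCommutative {A : Subgroup G} (h : IsMulCommutative A) (g : G) :
    IsMulCommutative (conjBy A g) := by
  constructor
  constructor
  rintro ⟨x, hx⟩ ⟨y, hy⟩
  rw [mem_conjBy] at hx hy
  have := h.is_comm.comm ⟨_, hx⟩ ⟨_, hy⟩
  have h2 : (g⁻¹ * x * g) * (g⁻¹ * y * g) = (g⁻¹ * y * g) * (g⁻¹ * x * g) := congrArg Subtype.val this
  apply Subtype.ext
  have h3 : g⁻¹ * (x * y) * g = g⁻¹ * (y * x) * g := by
    simpa [mul_assoc] using h2
  simpa using h3

theorem comm_of_isMulCommutative {A : Subgroup G} (h : IsMulCommutative A) {x y : G} (hx : x ∈ A) (hy : y ∈ A) :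
    x * y = y * x :=
  congrArg Subtype.val (h.is_comm.comm ⟨x, hx⟩ ⟨y, hy⟩)


/-- A property of subgroups stable under conjugation by `A` and by `B` is stable under `A ⊔ B`. -/
theorem conj_induction_sup {A B : Subgroup G} (P : Subgroup G → Prop)
    (hA : ∀ a ∈ A, ∀ C, P C → P (conjBy C a)) (hB : ∀ b ∈ B, ∀ C, P C → P (conjBy C b)) :
    ∀ x ∈ A ⊔ B, ∀ C, P C → P (conjBy C x) := by
  intro x hx
  rw [Subgroup.sup_eq_closure] at hx
  have key : (∀ C, P C → P (conjBy C x)) ∧ (∀ C, P C → P (conjBy C x⁻¹)) := by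
    refine Subgroup.closure_induction (p := fun x _ => (∀ C, P C → P (conjBy C x)) ∧ (∀ C, P C → P (conjBy C x⁻¹)))
      ?_ ?_ ?_ ?_ hx
    · rintro y (hy | hy)
      · exact ⟨hA y hy, hA y⁻¹ (A.inv_mem hy)⟩
      · exact ⟨hB y hy, hB y⁻¹ (B.inv_mem hy)⟩
    · simp
    · rintro y z _ _ ⟨hy1, hy2⟩ ⟨hz1, hz2⟩
      refine ⟨fun C hC => ?_, fun C hC => ?_⟩
      · rw [← conjBy_conjBy]; exact hy1 _ (hz1 _ hC)
      · rw [mul_inv_rev, ← conjBy_conjBy]; exact hz2 _ (hy2 _ hC)
    · rintro y _ ⟨hy1, hy2⟩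
      exact ⟨hy2, by simpa using hy1⟩
  exact key.1

theorem exists_ne_one_of_ne_bot {A : Subgroup G} (h : A ≠ ⊥) : ∃ a ∈ A, a ≠ 1 := by
  obtain ⟨x, hx⟩ := (Subgroup.ne_bot_iff_exists_ne_one).mp h
  exact ⟨x.1, x.2, fun h => hx (Subtype.ext h)⟩

/-! ### Rank one pairs -/

namespace RankOne

variable {A B : Subgroup G}

theorem symm (h : IsRankOnePair A B) : IsRankOnePair B A := RankOnePair_symm h

theorem eq_one_of_normalizes (h : IsRankOnePair A B) {a : G} (ha : a ∈ A) (hn : conjBy B a = B) : a = 1 := by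
  by_contra h1
  obtain ⟨b, hb, _, hab⟩ := h.cond_left a ha h1
  have h2 : conjBy B a⁻¹ = B := (conjBy_eq_iff.mp hn).symm
  rw [h2, conjBy_eq_iff, inv_inv, conjBy_of_mem hb] at hab
  exact h.ne hab

theorem inf_eq_bot (h : IsRankOnePair A B) : A ⊓ B = ⊥ := by
  rw [eq_bot_iff]
  rintro x ⟨hxA, hxB⟩
  exact eq_one_of_normalizes h hxA (conjBy_of_mem hxB)

theorem ne_bot_left (h : IsRankOnePair A B) : A ≠ ⊥ := by
  intro hA
  have hB : B ≠ ⊥ := fun hB => h.ne (hA.trans hB.symm)
  obtain ⟨b, hb, hb1⟩ := exists_ne_one_of_ne_bot hB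
  obtain ⟨a, ha, ha1, _⟩ := h.cond_right b hb hb1
  rw [hA, Subgroup.mem_bot] at ha
  exact ha1 ha

theorem ne_bot_right (h : IsRankOnePair A B) : B ≠ ⊥ := ne_bot_left (symm h)

theorem exists_ne_one_left (h : IsRankOnePair A B) : ∃ a ∈ A, a ≠ 1 :=
  exists_ne_one_of_ne_bot (ne_bot_left h)

theorem exists_ne_one_right (h : IsRankOnePair A B) : ∃ b ∈ B, b ≠ 1 := exists_ne_one_left (symm h)

theorem conj (h : IsRankOnePair A B) (g : G) : IsRankOnePair (conjBy A g) (conjBy B g) := by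
  have aux : ∀ {A B : Subgroup G}, RankOneCondition A B → RankOneCondition (conjBy A g) (conjBy B g) := by
    intro A B hc a' ha' ha'1
    rw [mem_conjBy] at ha'
    have h1 : g⁻¹ * a' * g ≠ 1 := by
      intro h0
      apply ha'1
      have : a' = g * (g⁻¹ * a' * g) * g⁻¹ := by group
      rw [this, h0]; group
    obtain ⟨b, hb, hb1, hab⟩ := hc _ ha' h1
    refine ⟨g * b * g⁻¹, conj_mem_conjBy hb g, ?_, ?_⟩
    · intro h0
      apply hb1
      have : b = g⁻¹ * (g * b * g⁻¹) * g := by group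
      rw [this, h0]; group
    · rw [conjBy_conjBy, conjBy_conjBy]
      have e1 : (g * b * g⁻¹)⁻¹ * g = g * b⁻¹ := by group
      have e2 : a'⁻¹ * g = g * (g⁻¹ * a' * g)⁻¹ := by group
      rw [e1, e2, ← conjBy_conjBy, ← conjBy_conjBy, hab]
  exact ⟨fun he => h.ne (conjBy_inj.mp he), conjBy_isNilpotent h.nilpotent_left g,
    conjBy_isNilpotent h.nilpotent_right g, aux h.cond_left, aux h.cond_right⟩

/-- `b A b⁻¹` is `A` or an `A`-conjugate of `B`. -/
theorem conj_left_by_right (h : IsRankOnePair A B) {b : G} (hb : b ∈ B) :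
    conjBy A b = A ∨ ∃ a ∈ A, conjBy A b = conjBy B a := by
  by_cases hb1 : b = 1
  · left; rw [hb1, conjBy_one]
  · right
    obtain ⟨a, ha, _, hab⟩ := h.cond_right b⁻¹ (B.inv_mem hb) (by simpa using hb1)
    exact ⟨a⁻¹, A.inv_mem ha, by rw [hab, inv_inv]⟩

theorem right_mem_unipotent (h : IsRankOnePair A B) : B ∈ unipotentSubgroups A B := by
  obtain ⟨a, ha, ha1⟩ := exists_ne_one_left h
  obtain ⟨b, hb, _, hab⟩ := h.cond_left a ha ha1
  refine ⟨a * b⁻¹, Subgroup.mul_mem_sup ha (B.inv_mem hb), ?_⟩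
  rw [← conjBy_conjBy, hab, conjBy_conjBy_inv]

theorem left_mem_unipotent (A B : Subgroup G) : A ∈ unipotentSubgroups A B :=
  ⟨1, Subgroup.one_mem _, by simp⟩

theorem conj_mem_unipotent {C : Subgroup G} (hC : C ∈ unipotentSubgroups A B) {x : G} (hx : x ∈ A ⊔ B) :
    conjBy C x ∈ unipotentSubgroups A B := by
  obtain ⟨y, hy, rfl⟩ := hC
  exact ⟨x * y, Subgroup.mul_mem _ hx hy, conjBy_conjBy _ _ _⟩

theorem mem_unipotent_iff (h : IsRankOnePair A B) {C : Subgroup G} :
    C ∈ unipotentSubgroups A B ↔ C = A ∨ ∃ a ∈ A, C = conjBy B a := by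
  constructor
  · rintro ⟨x, hx, rfl⟩
    refine conj_induction_sup (A := A) (B := B) (fun C => C = A ∨ ∃ a ∈ A, C = conjBy B a) ?_ ?_ x hx A (Or.inl rfl)
    · rintro a ha C (rfl | ⟨a', ha', rfl⟩)
      · left; exact conjBy_of_mem ha
      · right; exact ⟨a * a', A.mul_mem ha ha', conjBy_conjBy _ _ _⟩
    · rintro b hb C (rfl | ⟨a', ha', rfl⟩)
      · exact conj_left_by_right h hb
      · by_cases ha1 : a' = 1
        · right; exact ⟨1, A.one_mem, by rw [ha1, conjBy_one, conjBy_of_mem hb]⟩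
        · obtain ⟨b', hb', _, hab⟩ := h.cond_left a'⁻¹ (A.inv_mem ha') (by simpa using ha1)
          rw [inv_inv] at hab
          rw [← hab, conjBy_conjBy]
          exact conj_left_by_right h (B.mul_mem hb (B.inv_mem hb'))
  · rintro (rfl | ⟨a, ha, rfl⟩)
    · exact left_mem_unipotent _ _
    · exact conj_mem_unipotent (right_mem_unipotent h) (Subgroup.mem_sup_left ha)

/-- normalized double transitivity. -/
theorem exists_conj_pair (h : IsRankOnePair A B) {C D : Subgroup G} (hC : C ∈ unipotentSubgroups A B)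
    (hD : D ∈ unipotentSubgroups A B) (hCD : C ≠ D) :
    ∃ x ∈ A ⊔ B, C = conjBy A x ∧ D = conjBy B x := by
  obtain ⟨g, hg, rfl⟩ := hC
  have hD' : conjBy D g⁻¹ ∈ unipotentSubgroups A B := conj_mem_unipotent hD (Subgroup.inv_mem _ hg)
  rcases (mem_unipotent_iff h).mp hD' with h1 | ⟨a, ha, h1⟩
  · exfalso; apply hCD
    rw [conjBy_eq_iff, inv_inv] at h1
    exact h1.symm
  · refine ⟨g * a, Subgroup.mul_mem _ hg (Subgroup.mem_sup_left ha), ?_, ?_⟩
    · rw [← conjBy_conjBy, conjBy_of_mem ha]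
    · rw [← conjBy_conjBy, ← h1, conjBy_conjBy_inv]

theorem pair_of_mem (h : IsRankOnePair A B) {C D : Subgroup G} (hC : C ∈ unipotentSubgroups A B)
    (hD : D ∈ unipotentSubgroups A B) (hCD : C ≠ D) : IsRankOnePair C D := by
  obtain ⟨x, _, rfl, rfl⟩ := exists_conj_pair h hC hD hCD
  exact conj h x

theorem sup_of_mem (h : IsRankOnePair A B) {C D : Subgroup G} (hC : C ∈ unipotentSubgroups A B)
    (hD : D ∈ unipotentSubgroups A B) (hCD : C ≠ D) : C ⊔ D = A ⊔ B := by
  obtain ⟨x, hx, rfl, rfl⟩ := exists_conj_pair h hC hD hCD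
  rw [← conjBy_sup, conjBy_of_mem hx]

theorem unipotent_of_mem (h : IsRankOnePair A B) {C D : Subgroup G} (hC : C ∈ unipotentSubgroups A B)
    (hD : D ∈ unipotentSubgroups A B) (hCD : C ≠ D) : unipotentSubgroups C D = unipotentSubgroups A B := by
  have hs := sup_of_mem h hC hD hCD
  obtain ⟨x, hx, rfl, rfl⟩ := exists_conj_pair h hC hD hCD
  ext E
  constructor
  · rintro ⟨y, hy, rfl⟩
    rw [hs] at hy
    exact ⟨y * x, Subgroup.mul_mem _ hy hx, conjBy_conjBy _ _ _⟩
  · rintro ⟨y, hy, rfl⟩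
    refine ⟨y * x⁻¹, ?_, ?_⟩
    · rw [hs]; exact Subgroup.mul_mem _ hy (Subgroup.inv_mem _ hx)
    · rw [conjBy_conjBy]; simp [mul_assoc]

theorem unipotent_symm (h : IsRankOnePair A B) : unipotentSubgroups B A = unipotentSubgroups A B :=
  unipotent_of_mem h (right_mem_unipotent h) (left_mem_unipotent A B) h.ne.symm

theorem le_sup_of_mem {C : Subgroup G} (hC : C ∈ unipotentSubgroups A B) : C ≤ A ⊔ B := by
  obtain ⟨x, hx, rfl⟩ := hC
  exact conjBy_le_of_mem le_sup_left hx

theorem conj_right_ne_left (h : IsRankOnePair A B) {a : G} (ha : a ∈ A) : conjBy B a ≠ A := by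
  intro he
  rw [conjBy_eq_iff, conjBy_of_mem (A.inv_mem ha)] at he
  exact h.ne he.symm

/-- non-identity elements of `A` and `B` never commute. -/
theorem not_commute (h : IsRankOnePair A B) {a b : G} (ha : a ∈ A) (ha1 : a ≠ 1) (hb : b ∈ B) (hb1 : b ≠ 1) :
    a * b ≠ b * a := by
  intro hab
  have hne : conjBy B a ≠ B := fun he => ha1 (eq_one_of_normalizes h ha he)
  have hp := pair_of_mem h (conj_mem_unipotent (right_mem_unipotent h) (Subgroup.mem_sup_left ha))
    (right_mem_unipotent h) hne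
  have hmem : b ∈ conjBy B a ⊓ B := by
    refine Subgroup.mem_inf.mpr ⟨?_, hb⟩
    rw [mem_conjBy]
    have : a⁻¹ * b * a = b := by rw [mul_assoc, ← hab]; group
    rwa [this]
  rw [inf_eq_bot hp, Subgroup.mem_bot] at hmem
  exact hb1 hmem

/-- A subgroup normalized by `A ⊔ B` that normalizes `A` and `B` centralizes `A ⊔ B`. -/
theorem centralizes_of_normalizes (h : IsRankOnePair A B) (N : Subgroup G)
    (hN : ∀ x ∈ A ⊔ B, conjBy N x = N) (hNA : ∀ n ∈ N, conjBy A n = A) (hNB : ∀ n ∈ N, conjBy B n = B) :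
    ∀ n ∈ N, ∀ x ∈ A ⊔ B, n * x = x * n := by
  have aux : ∀ {A B : Subgroup G}, IsRankOnePair A B → (∀ x ∈ A, conjBy N x = N) →
      (∀ n ∈ N, conjBy A n = A) → (∀ n ∈ N, conjBy B n = B) → ∀ n ∈ N, ∀ a ∈ A, n * a = a * n := by
    intro A B h hN hA hB n hn a ha
    have h1 : n * a * n⁻¹ * a⁻¹ ∈ A := by
      refine A.mul_mem ?_ (A.inv_mem ha)
      have := conj_mem_conjBy ha n
      rwa [hA n hn] at this
    have h2 : n * a * n⁻¹ * a⁻¹ ∈ N := by
      have := conj_mem_conjBy (N.inv_mem hn) a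
      rw [hN a ha] at this
      have h3 := N.mul_mem hn this
      simpa [mul_assoc] using h3
    have h3 := eq_one_of_normalizes h h1 (hB _ h2)
    have : n * a = (n * a * n⁻¹ * a⁻¹) * (a * n) := by group
    rw [this, h3, one_mul]
  have hA := aux h (fun x hx => hN x (Subgroup.mem_sup_left hx)) hNA hNB
  have hB := aux (symm h) (fun x hx => hN x (Subgroup.mem_sup_right hx)) hNB hNA
  intro n hn x hx
  have : A ⊔ B ≤ Subgroup.centralizer {n} := by
    rw [sup_le_iff]
    constructor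
    · intro a ha
      rw [Subgroup.mem_centralizer_iff]
      intro y hy
      rw [Set.mem_singleton_iff.mp hy]
      exact hA n hn a ha
    · intro b hb
      rw [Subgroup.mem_centralizer_iff]
      intro y hy
      rw [Set.mem_singleton_iff.mp hy]
      exact hB n hn b hb
  exact Subgroup.mem_centralizer_iff.mp (this hx) n rfl

/-- The dichotomy for subgroups normalized by `A ⊔ B`. -/
theorem normal_dichotomy (h : IsRankOnePair A B) (N : Subgroup G) (hNle : N ≤ A ⊔ B)
    (hN : ∀ x ∈ A ⊔ B, conjBy N x = N) :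
    A ⊔ B ≤ N ⊔ A ∨ ∀ n ∈ N, ∀ x ∈ A ⊔ B, n * x = x * n := by
  by_cases hker : ∀ n ∈ N, ∀ C ∈ unipotentSubgroups A B, conjBy C n = C
  · right
    exact centralizes_of_normalizes h N hN (fun n hn => hker n hn A (left_mem_unipotent A B))
      (fun n hn => hker n hn B (right_mem_unipotent h))
  · left
    push Not at hker
    obtain ⟨n, hn, C, ⟨x, hx, rfl⟩, hne⟩ := hker
    -- n' = x⁻¹ n x moves A
    have hn' : x⁻¹ * n * x ∈ N := by
      have := conj_mem_conjBy hn x⁻¹
      rw [hN _ (Subgroup.inv_mem _ hx)] at this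
      simpa using this
    have hne' : conjBy A (x⁻¹ * n * x) ≠ A := by
      intro he
      apply hne
      rw [conjBy_conjBy]
      have : n * x = x * (x⁻¹ * n * x) := by group
      rw [this, ← conjBy_conjBy, he]
    have hmem : conjBy A (x⁻¹ * n * x) ∈ unipotentSubgroups A B :=
      conj_mem_unipotent (left_mem_unipotent A B) (hNle hn')
    rcases (mem_unipotent_iff h).mp hmem with h1 | ⟨a, ha, h1⟩
    · exact absurd h1 hne'
    · -- B = a⁻¹ n' A n'⁻¹ a = (a⁻¹ n' a) A (..)⁻¹
      have hB : B = conjBy A (a⁻¹ * (x⁻¹ * n * x) * a) := by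
        have e : a⁻¹ * (x⁻¹ * n * x) * a = a⁻¹ * ((x⁻¹ * n * x) * a) := by group
        rw [e, ← conjBy_conjBy, ← conjBy_conjBy, conjBy_of_mem ha, h1, conjBy_inv_conjBy]
      have hm : a⁻¹ * (x⁻¹ * n * x) * a ∈ N := by
        have := conj_mem_conjBy hn' a⁻¹
        rw [hN _ (Subgroup.inv_mem _ (Subgroup.mem_sup_left ha))] at this
        simpa using this
      rw [sup_le_iff]
      refine ⟨le_sup_right, ?_⟩
      rw [hB]
      exact conjBy_le_of_mem le_sup_right (Subgroup.mem_sup_left hm)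

theorem conj_left_injOn (h : IsRankOnePair A B) {b b' : G} (hb : b ∈ B) (hb' : b' ∈ B)
    (he : conjBy A b = conjBy A b') : b = b' := by
  have h1 : conjBy A (b'⁻¹ * b) = A := by
    rw [← conjBy_conjBy, he, conjBy_inv_conjBy]
  have := eq_one_of_normalizes (symm h) (B.mul_mem (B.inv_mem hb') hb) h1
  exact (inv_mul_eq_one.mp this).symm

theorem conj_right_injOn (h : IsRankOnePair A B) {a a' : G} (ha : a ∈ A) (ha' : a' ∈ A)
    (he : conjBy B a = conjBy B a') : a = a' := conj_left_injOn (symm h) ha ha' he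

theorem inf_normalizer (h : IsRankOnePair A B) : A ⊓ Subgroup.normalizer (B : Set G) = ⊥ := by
  rw [eq_bot_iff]
  rintro x ⟨hxA, hxB⟩
  exact eq_one_of_normalizes h hxA (mem_normalizer_iff_conjBy.mp hxB)

/-- elements of the "second centre" of `A ⊔ B` are central in `A ⊔ B`. -/
theorem second_center (h : IsRankOnePair A B) {z : G} (hz : z ∈ A ⊔ B)
    (hz2 : ∀ x ∈ A ⊔ B, ∀ y ∈ A ⊔ B, ⁅z, x⁆ * y = y * ⁅z, x⁆) : ∀ x ∈ A ⊔ B, z * x = x * z := by
  have hnorm : ∀ C ∈ unipotentSubgroups A B, conjBy C z = C := by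
    intro C hC
    by_contra hne
    have hD := conj_mem_unipotent hC hz
    have hp := pair_of_mem h hD hC hne
    apply ne_bot_left hp
    rw [eq_bot_iff]
    intro d hd
    rw [Subgroup.mem_bot]
    apply eq_one_of_normalizes hp hd
    have hc : z⁻¹ * d * z ∈ C := mem_conjBy.mp hd
    have hd' : d = ⁅z, z⁻¹ * d * z⁆ * (z⁻¹ * d * z) := by
      rw [commutatorElement_def]; group
    rw [hd', ← conjBy_conjBy, conjBy_of_mem hc]
    apply conjBy_of_centralizes
    intro c hc'
    exact hz2 _ (le_sup_of_mem hC hc) c (le_sup_of_mem hC hc')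
  have aux : ∀ {A' B' : Subgroup G}, IsRankOnePair A' B' → A' ≤ A ⊔ B → B' ≤ A ⊔ B → conjBy A' z = A' →
      ∀ a ∈ A', z * a = a * z := by
    intro A' B' h' hA' hB' hn a ha
    have h1 : ⁅z, a⁆ ∈ A' := by
      rw [commutatorElement_def]
      refine A'.mul_mem ?_ (A'.inv_mem ha)
      have := conj_mem_conjBy ha z
      rwa [hn] at this
    have h2 : conjBy B' ⁅z, a⁆ = B' := conjBy_of_centralizes (fun c hc => hz2 a (hA' ha) c (hB' hc))
    have h3 := eq_one_of_normalizes h' h1 h2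
    rw [commutatorElement_def] at h3
    have : z * a = (z * a * z⁻¹ * a⁻¹) * (a * z) := by group
    rw [this, h3, one_mul]
  have hA := aux h le_sup_left le_sup_right (hnorm A (left_mem_unipotent A B))
  have hB := aux (symm h) le_sup_right le_sup_left (hnorm B (right_mem_unipotent h))
  intro x hx
  have : A ⊔ B ≤ Subgroup.centralizer {z} := by
    rw [sup_le_iff]
    constructor
    · intro a ha
      rw [Subgroup.mem_centralizer_iff]
      intro y hy
      rw [Set.mem_singleton_iff.mp hy]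
      exact hA a ha
    · intro b hb
      rw [Subgroup.mem_centralizer_iff]
      intro y hy
      rw [Set.mem_singleton_iff.mp hy]
      exact hB b hb
  exact Subgroup.mem_centralizer_iff.mp (this hx) z rfl

end RankOne

end Cfsg.Agent.Lib.Helper25
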