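import Mathlib
import Cfsg.Prelude.Def_RootSubgroups
import Cfsg.Agent.Lib.Helper25.RankOne

set_option autoImplicit false
open Cfsg
open scoped commutatorElement

namespace Cfsg.Agent.Lib.Helper25

variable {G : Type*} [Group G]

namespace RankOne

variable {A B : Subgroup G}

theorem cond_left' (h : IsRankOnePair A B) {a : G} (ha : a ∈ A) (ha1 : a ≠ 1) :
    ∃ b ∈ B, b ≠ 1 ∧ conjBy A b = conjBy B a := by
  obtain ⟨b, hb, hb1, hab⟩ := h.cond_left a⁻¹ (A.inv_mem ha) (by simpa using ha1)
  exact ⟨b⁻¹, B.inv_mem hb, by simpa using hb1, by simpa using hab⟩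

theorem cond_right' (h : IsRankOnePair A B) {b : G} (hb : b ∈ B) (hb1 : b ≠ 1) :
    ∃ a ∈ A, a ≠ 1 ∧ conjBy B a = conjBy A b := cond_left' (symm h) hb hb1

/-- an element normalizing all unipotent subgroups centralizes `A ⊔ B`. -/
theorem central_of_normalizes_all (h : IsRankOnePair A B) {y : G}
    (hy : ∀ E ∈ unipotentSubgroups A B, conjBy E y = E) : ∀ x ∈ A ⊔ B, y * x = x * y := by
  have hy' : ∀ E ∈ unipotentSubgroups A B, conjBy E y⁻¹ = E := by
    intro E hE
    have := hy E hE
    rw [conjBy_eq_iff] at this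
    exact this.symm
  have aux : ∀ {A' B' : Subgroup G}, IsRankOnePair A' B' → A' ∈ unipotentSubgroups A B →
      B' ∈ unipotentSubgroups A B → ∀ a ∈ A', y * a = a * y := by
    intro A' B' h' hA' hB' a ha
    have haX : a ∈ A ⊔ B := le_sup_of_mem hA' ha
    have h1 : y * a * y⁻¹ * a⁻¹ ∈ A' := by
      refine A'.mul_mem ?_ (A'.inv_mem ha)
      have := conj_mem_conjBy ha y
      rwa [hy A' hA'] at this
    have h2 : conjBy B' (y * a * y⁻¹ * a⁻¹) = B' := by
      have e : y * a * y⁻¹ * a⁻¹ = y * (a * (y⁻¹ * a⁻¹)) := by group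
      rw [e, ← conjBy_conjBy, ← conjBy_conjBy, ← conjBy_conjBy,
        hy' _ (conj_mem_unipotent hB' (Subgroup.inv_mem _ haX)), conjBy_conjBy_inv, hy _ hB']
    have h3 := eq_one_of_normalizes h' h1 h2
    have : y * a = (y * a * y⁻¹ * a⁻¹) * (a * y) := by group
    rw [this, h3, one_mul]
  have hA := aux h (left_mem_unipotent A B) (right_mem_unipotent h)
  have hB := aux (symm h) (right_mem_unipotent h) (left_mem_unipotent A B)
  intro x hx
  have : A ⊔ B ≤ Subgroup.centralizer {y} := by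
    rw [sup_le_iff]
    constructor
    · intro a ha
      rw [Subgroup.mem_centralizer_iff]
      intro z hz
      rw [Set.mem_singleton_iff.mp hz]
      exact hA a ha
    · intro b hb
      rw [Subgroup.mem_centralizer_iff]
      intro z hz
      rw [Set.mem_singleton_iff.mp hz]
      exact hB b hb
  exact Subgroup.mem_centralizer_iff.mp (this hx) y rfl

/-- distinct unipotent subgroups meet trivially -/
theorem inf_eq_bot_of_mem (h : IsRankOnePair A B) {C D : Subgroup G} (hC : C ∈ unipotentSubgroups A B)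
    (hD : D ∈ unipotentSubgroups A B) (hCD : C ≠ D) : C ⊓ D = ⊥ :=
  inf_eq_bot (pair_of_mem h hC hD hCD)

end RankOne

/-! ### Sets of abstract root subgroups -/

namespace RootSub

variable {S : Set (Subgroup G)}

theorem commute_of_commutator_eq_bot {A B : Subgroup G} (h : ⁅A, B⁆ = ⊥) {a b : G} (ha : a ∈ A) (hb : b ∈ B) :
    a * b = b * a := by
  have h1 : ⁅a, b⁆ ∈ ⁅A, B⁆ := Subgroup.commutator_mem_commutator ha hb
  rw [h, Subgroup.mem_bot, commutatorElement_def] at h1
  have : a * b = (a * b * a⁻¹ * b⁻¹) * (b * a) := by group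
  rw [this, h1, one_mul]

theorem commutator_eq_bot_of_commute {A B : Subgroup G} (h : ∀ a ∈ A, ∀ b ∈ B, a * b = b * a) : ⁅A, B⁆ = ⊥ := by
  rw [Subgroup.commutator_eq_bot_iff_le_centralizer]
  intro a ha
  rw [Subgroup.mem_centralizer_iff]
  intro b hb
  exact (h a ha b hb).symm

/-- If `c ∈ C` moves `Q` to a rank one partner of `Q`, then `(C, Q)` is a rank one pair. -/
theorem rankOne_of_moves (hS : IsRootSubgroupSet S) {C Q : Subgroup G} (hC : C ∈ S) (hQ : Q ∈ S) {c : G}
    (hc : c ∈ C) (hp : IsRankOnePair (conjBy Q c) Q) : IsRankOnePair C Q := by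
  rcases hS.pair C hC Q hQ with h1 | h1 | h1
  · exfalso
    apply hp.ne
    apply conjBy_of_centralizes
    intro q hq
    exact commute_of_commutator_eq_bot h1 hc hq
  · exact h1
  · exfalso
    apply RankOne.ne_bot_left hp
    rw [eq_bot_iff]
    intro d hd
    rw [Subgroup.mem_bot]
    apply RankOne.eq_one_of_normalizes hp hd
    have hq : c⁻¹ * d * c ∈ Q := mem_conjBy.mp hd
    have hd' : d = ⁅c, c⁻¹ * d * c⁆ * (c⁻¹ * d * c) := by
      rw [commutatorElement_def]; group
    rw [hd', ← conjBy_conjBy, conjBy_of_mem hq]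
    apply conjBy_of_centralizes
    intro q hq'
    exact h1.2.1 _ (Subgroup.commutator_mem_commutator hc hq) q (Subgroup.mem_sup_right hq')

theorem mem_of_unipotent (hS : IsRootSubgroupSet S) {A B E : Subgroup G} (hA : A ∈ S)
    (hE : E ∈ unipotentSubgroups A B) : E ∈ S := by
  obtain ⟨x, _, rfl⟩ := hE
  exact hS.conj_mem A hA x

/-- A member of `S` inside a rank one group `⟨C, D⟩` (with `C ∈ S`), not central in it, is a unipotent subgroup of it. -/
theorem mem_unipotent_of_le (hS : IsRootSubgroupSet S) {A C D : Subgroup G} (hA : A ∈ S) (hC : C ∈ S)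
    (hCD : IsRankOnePair C D) (hle : A ≤ C ⊔ D) (hnc : ∃ a ∈ A, ∃ x ∈ C ⊔ D, a * x ≠ x * a) :
    A ∈ unipotentSubgroups C D := by
  obtain ⟨a, ha, x, hx, hax⟩ := hnc
  have hex : ∃ E ∈ unipotentSubgroups C D, conjBy E a ≠ E := by
    by_contra hcon
    push Not at hcon
    exact hax (RankOne.central_of_normalizes_all hCD hcon x hx)
  obtain ⟨E, hE, hEa⟩ := hex
  have hE' := RankOne.conj_mem_unipotent hE (hle ha)
  have hp := RankOne.pair_of_mem hCD hE' hE hEa
  have hAE := rankOne_of_moves hS hA (mem_of_unipotent hS hC hE) ha hp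
  have ha1 : a ≠ 1 := by
    rintro rfl
    exact hEa (conjBy_one E)
  obtain ⟨e, he, _, hae⟩ := RankOne.cond_left' hAE ha ha1
  have : A = conjBy (conjBy E a) e⁻¹ := by rw [← hae, conjBy_inv_conjBy]
  rw [this]
  exact RankOne.conj_mem_unipotent hE' (Subgroup.inv_mem _ (RankOne.le_sup_of_mem hE he))

theorem exists_partner {A : Subgroup G} (hA : ¬ IsIsolatedIn (FAdj S) S A) (hAS : A ∈ S) :
    ∃ C ∈ S, IsRankOnePair A C := by
  unfold IsIsolatedIn at hA
  push Not at hA
  obtain ⟨B, hB⟩ := hA hAS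
  by_cases h1 : FAdj S A B
  · exact ⟨B, h1.2.1, h1.2.2⟩
  · have h2 := hB h1
    exact ⟨B, h2.1, RankOne.symm h2.2.2⟩

/-- a member with a rank one partner meets every other member trivially. -/
theorem ti (hS : IsRootSubgroupSet S) {A C B : Subgroup G} (hC : C ∈ S) (hAC : IsRankOnePair A C)
    (hB : B ∈ S) : A ⊓ B = ⊥ ∨ A = B := by
  by_cases hbot : A ⊓ B = ⊥
  · left; exact hbot
  · right
    obtain ⟨x, hx, hx1⟩ := exists_ne_one_of_ne_bot hbot
    obtain ⟨hxA, hxB⟩ := Subgroup.mem_inf.mp hx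
    have hne : conjBy C x ≠ C := fun he => hx1 (RankOne.eq_one_of_normalizes hAC hxA he)
    have hCx : conjBy C x ∈ unipotentSubgroups A C :=
      RankOne.conj_mem_unipotent (RankOne.right_mem_unipotent hAC) (Subgroup.mem_sup_left hxA)
    have hp := RankOne.pair_of_mem hAC hCx (RankOne.right_mem_unipotent hAC) hne
    have hBC := rankOne_of_moves hS hB hC hxB hp
    obtain ⟨c', hc', _, h1⟩ := RankOne.cond_left' hBC hxB hx1
    obtain ⟨c, hc, _, h2⟩ := RankOne.cond_left' hAC hxA hx1
    have hBeq : B = conjBy A (c'⁻¹ * c) := by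
      rw [← conjBy_conjBy, h2, ← h1, conjBy_inv_conjBy]
    rcases RankOne.conj_left_by_right hAC (C.mul_mem (C.inv_mem hc') hc) with h3 | ⟨a₁, ha₁, h3⟩
    · rw [hBeq, h3]
    · exfalso
      rw [h3] at hBeq
      apply hbot
      rw [hBeq]
      exact RankOne.inf_eq_bot_of_mem hAC (RankOne.left_mem_unipotent A C)
        (RankOne.conj_mem_unipotent (RankOne.right_mem_unipotent hAC) (Subgroup.mem_sup_left ha₁))
        (RankOne.conj_right_ne_left hAC ha₁).symm

theorem le_centralizer_zpowers_iff {C : Subgroup G} {x : G} :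
    C ≤ Subgroup.centralizer ((Subgroup.zpowers x : Subgroup G) : Set G) ↔ ∀ c ∈ C, c * x = x * c := by
  constructor
  · intro h c hc
    exact (Subgroup.mem_centralizer_iff.mp (h hc) x (Subgroup.mem_zpowers x)).symm
  · intro h c hc
    rw [Subgroup.mem_centralizer_iff]
    rintro _ ⟨n, rfl⟩
    have : Commute c x := h c hc
    exact (this.zpow_right n).eq.symm

end RootSub

end Cfsg.Agent.Lib.Helper25
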