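import Mathlib
import Cfsg.Prelude.Def_RootSubgroups
import Cfsg.Agent.Lib.Helper25.RootSub

set_option autoImplicit false
open Cfsg

namespace Cfsg.Agent.Lib.Helper25

namespace Quad

variable {X : Type*} [Group X] {N : Type*} [AddCommGroup N] [DistribMulAction X N]

/-- `A` acts quadratically on `N`. -/
def QuadOn (N : Type*) [AddCommGroup N] [DistribMulAction X N] (A : Subgroup X) : Prop :=
  ∀ a ∈ A, ∀ a' ∈ A, ∀ n : N, a' • (a • n - n) = a • n - n

theorem QuadOn.conj {A : Subgroup X} (h : QuadOn N A) (g : X) : QuadOn N (conjBy A g) := by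
  intro a ha a' ha' n
  rw [mem_conjBy] at ha ha'
  have := h _ ha _ ha' (g⁻¹ • n)
  have h2 := congrArg (fun m => g • m) this
  simp only [smul_sub, ← mul_smul] at h2
  have e1 : g * (g⁻¹ * a' * g * (g⁻¹ * a * g * g⁻¹)) = a' * a := by group
  have e2 : g * (g⁻¹ * a' * g * g⁻¹) = a' := by group
  have e3 : g * (g⁻¹ * a * g * g⁻¹) = a := by group
  rw [e1, e2, e3, mul_inv_cancel, one_smul] at h2
  rw [smul_sub, ← mul_smul]
  exact h2

theorem fixed_sup {A B : Subgroup X} {t : N} (hA : ∀ a ∈ A, a • t = t) (hB : ∀ b ∈ B, b • t = t) :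
    ∀ x ∈ A ⊔ B, x • t = t := by
  have : A ⊔ B ≤ MulAction.stabilizer X t := sup_le (fun a ha => hA a ha) (fun b hb => hB b hb)
  exact fun x hx => this hx

theorem inv_smul_of_quad {B : Subgroup X} (hqB : QuadOn N B) {b : X} (hb : b ∈ B) (w : N) :
    b⁻¹ • w = w - (b • w - w) := by
  have h1 := hqB b hb b hb w
  have h2 := congrArg (fun m => b⁻¹ • m) h1
  simp only [inv_smul_smul, smul_sub] at h2
  -- h2 : b • w - w = w - b⁻¹ • w
  have : b⁻¹ • w = w - (w - b⁻¹ • w) := by abel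
  rw [this, ← h2]

theorem fact1 {A B : Subgroup X} (hqA : QuadOn N A) (hqB : QuadOn N B) {a b : X} (ha : a ∈ A) (hb : b ∈ B)
    (hab : conjBy A b⁻¹ = conjBy B a⁻¹) {a₁ : X} (ha₁ : a₁ ∈ A) (n : N) :
    ∀ x ∈ A ⊔ B, x • ((a₁ • n - n) - (a • (b • (a₁ • n - n) - (a₁ • n - n)) - (b • (a₁ • n - n) - (a₁ • n - n))))
      = ((a₁ • n - n) - (a • (b • (a₁ • n - n) - (a₁ • n - n)) - (b • (a₁ • n - n) - (a₁ • n - n)))) := by
  set w : N := a₁ • n - n with hw
  have hwA : ∀ a' ∈ A, a' • w = w := fun a' ha' => hqA a₁ ha₁ a' ha' n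
  have hconj : conjBy A (a * b⁻¹) = B := by
    rw [← conjBy_conjBy, hab, conjBy_conjBy_inv]
  have hu : ∀ b' ∈ B, b' • (a • (b⁻¹ • w)) = a • (b⁻¹ • w) := by
    intro b' hb'
    have hb₁ : (a * b⁻¹) * a₁ * (a * b⁻¹)⁻¹ ∈ B := by
      have := conj_mem_conjBy ha₁ (a * b⁻¹)
      rwa [hconj] at this
    have h1 := hqB _ hb₁ b' hb' ((a * b⁻¹) • n)
    have e : a • (b⁻¹ • w) = ((a * b⁻¹) * a₁ * (a * b⁻¹)⁻¹) • ((a * b⁻¹) • n) - (a * b⁻¹) • n := by
      rw [hw, ← mul_smul, ← mul_smul, smul_sub, ← mul_smul]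
      congr 2
      group
    rw [e]; exact h1
  have ht : w - (a • (b • w - w) - (b • w - w)) = a • (b⁻¹ • w) + (b • w - w) := by
    rw [inv_smul_of_quad hqB hb w, smul_sub a w, hwA a ha]
    abel
  apply fixed_sup
  · intro a' ha'
    rw [smul_sub, hwA a' ha', hqA a ha a' ha']
  · intro b' hb'
    rw [ht, smul_add, hu b' hb', hqB b hb b' hb']

/-- If some non-identity `a₀ ∈ A` has `[N, a₀]` fixed by `A ⊔ B`, then `[N, A ⊔ B]` is fixed by `A ⊔ B`. -/
theorem fact2 {A B : Subgroup X} (h : IsRankOnePair A B) (hqA : QuadOn N A) {a₀ : X} (ha₀ : a₀ ∈ A) (h1 : a₀ ≠ 1)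
    (hfix : ∀ n : N, ∀ x ∈ A ⊔ B, x • (a₀ • n - n) = a₀ • n - n) :
    ∀ y ∈ A ⊔ B, ∀ n : N, ∀ x ∈ A ⊔ B, x • (y • n - n) = y • n - n := by
  obtain ⟨g, hg, hBg⟩ := RankOne.right_mem_unipotent h
  have hqB : QuadOn N B := by rw [hBg]; exact hqA.conj g
  obtain ⟨b₀, hb₀, _, hab⟩ := h.cond_left a₀ ha₀ h1
  have hA : ∀ a ∈ A, ∀ n : N, ∀ x ∈ A ⊔ B, x • (a • n - n) = a • n - n := by
    intro a ha n x hx
    have h2 := fact1 hqA hqB ha₀ hb₀ hab ha n x hx
    have h3 := hfix (b₀ • (a • n - n) - (a • n - n)) x hx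
    rw [smul_sub, h3] at h2
    exact sub_left_injective h2
  have hB : ∀ b ∈ B, ∀ n : N, ∀ x ∈ A ⊔ B, x • (b • n - n) = b • n - n := by
    intro b hb n x hx
    rw [hBg, mem_conjBy] at hb
    have e : b • n - n = g • ((g⁻¹ * b * g) • (g⁻¹ • n) - g⁻¹ • n) := by
      rw [smul_sub, ← mul_smul, ← mul_smul, ← mul_smul]
      congr 2 <;> group
      simp
    rw [e, hA _ hb _ g hg]
    exact hA _ hb _ x hx
  intro y hy
  rw [Subgroup.sup_eq_closure] at hy
  refine Subgroup.closure_induction (p := fun y _ => ∀ n : N, ∀ x ∈ A ⊔ B, x • (y • n - n) = y • n - n) ?_ ?_ ?_ ?_ hy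
  · rintro z (hz | hz)
    · exact hA z hz
    · exact hB z hz
  · intro n x _; simp
  · intro y z _ _ hy hz n x hx
    have e : (y * z) • n - n = (y • (z • n) - z • n) + (z • n - n) := by rw [mul_smul]; abel
    rw [e, smul_add, hy _ x hx, hz _ x hx]
  · intro y hyc hy n x hx
    have hyX : y ∈ A ⊔ B := by rw [Subgroup.sup_eq_closure]; exact hyc
    have e : y⁻¹ • n - n = -(y • (y⁻¹ • n) - y⁻¹ • n) := by rw [smul_inv_smul]; abel
    rw [e, smul_neg, hy _ x hx]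

theorem ring_identity {R : Type*} [Ring R] (α β : R) (hα : α * α = 0) (hβ : β * β = 0) :
    (1 + α) * (1 - β) * (1 + α) - (1 - β) * (1 + α) * (1 - β) = (α - α * β * α) + (β - β * α * β) := by
  have : (1 + α) * (1 - β) * (1 + α) - (1 - β) * (1 + α) * (1 - β)
      = (α - α * β * α) + (β - β * α * β) + α * α - β * β := by noncomm_ring
  rw [this, hα, hβ]; simp

end Quad

end Cfsg.Agent.Lib.Helper25
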