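import Mathlib
import Cfsg.Prelude.Def_RootSubgroups
import Cfsg.Agent.S0199

set_option autoImplicit false
open Cfsg

namespace Cfsg.Agent.Lib.Helper25

variable {G : Type*} [Group G]

namespace RootInv

theorem sq_of_order {z : G} (hz : orderOf z = 2) : z * z = 1 := by
  have := pow_orderOf_eq_one z
  rw [hz, pow_two] at this
  exact this

theorem inv_of_sq {z : G} (hz : z * z = 1) : z⁻¹ = z := inv_eq_of_mul_eq_one_left hz

theorem ne_one_of_order {z : G} (hz : orderOf z = 2) : z ≠ 1 := by
  rintro rfl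
  simp at hz

theorem orderOf_conj (g x : G) : orderOf (g * x * g⁻¹) = orderOf x := by
  have : g * x * g⁻¹ = (MulAut.conj g).toMonoidHom x := rfl
  rw [this, orderOf_injective (MulAut.conj g).toMonoidHom (MulAut.conj g).injective]

theorem orderOf_mul_comm' (x y : G) : orderOf (x * y) = orderOf (y * x) := by
  have : y * x = x⁻¹ * (x * y) * x⁻¹⁻¹ := by group
  rw [this, orderOf_conj]

theorem eq_one_of_odd_of_sq {x : G} (h : Odd (orderOf x)) (h2 : x * x = 1) : x = 1 := by
  have h3 : orderOf x ∣ 2 := orderOf_dvd_of_pow_eq_one (by rw [pow_two]; exact h2)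
  rcases (Nat.dvd_prime Nat.prime_two).mp h3 with h4 | h4
  · exact orderOf_eq_one_iff.mp h4
  · rw [h4] at h; exact absurd h (by decide)

theorem odd_orderOf_pow {x : G} (h : Odd (orderOf x)) (n : ℕ) : Odd (orderOf (x ^ n)) :=
  Odd.of_dvd_nat h (orderOf_pow_dvd n)

/-- an element of odd order cannot invert a non-identity element of odd order. -/
theorem eq_inv_of_odd_inverts {g u : G} (hg : Odd (orderOf g)) (h : g * u * g⁻¹ = u⁻¹) : u = u⁻¹ := by
  have key : ∀ n : ℕ, g ^ n * u * (g ^ n)⁻¹ = if Even n then u else u⁻¹ := by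
    intro n
    induction n with
    | zero => simp
    | succ n ih =>
      have e : g ^ (n + 1) * u * (g ^ (n + 1))⁻¹ = g * (g ^ n * u * (g ^ n)⁻¹) * g⁻¹ := by
        rw [pow_succ']; group
      rw [e, ih]
      by_cases hn : Even n
      · have : ¬ Even (n + 1) := by rw [Nat.even_add_one]; simpa using hn
        rw [if_pos hn, if_neg this, h]
      · have : Even (n + 1) := by rw [Nat.even_add_one]; exact hn
        rw [if_neg hn, if_pos this]
        have e2 : g * u⁻¹ * g⁻¹ = (g * u * g⁻¹)⁻¹ := by group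
        rw [e2, h, inv_inv]
  have := key (orderOf g)
  rw [pow_orderOf_eq_one, if_neg (Nat.not_even_iff_odd.mpr hg)] at this
  simpa using this

theorem inverts_mul_left {x y : G} (hx : x * x = 1) (hy : y * y = 1) : x * (x * y) * x⁻¹ = (x * y)⁻¹ := by
  rw [mul_inv_rev, inv_of_sq hx, inv_of_sq hy]
  calc x * (x * y) * x = (x * x) * y * x := by group
    _ = y * x := by rw [hx, one_mul]

theorem inverts_mul_right {x y : G} (hx : x * x = 1) (hy : y * y = 1) : y * (x * y) * y⁻¹ = (x * y)⁻¹ := by
  rw [mul_inv_rev, inv_of_sq hx, inv_of_sq hy]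
  calc y * (x * y) * y = y * x * (y * y) := by group
    _ = y * x := by rw [hy, mul_one]

variable {D : Set G}

theorem sq (hD : IsRootInvolutionSet D) {d : G} (hd : d ∈ D) : d * d = 1 := sq_of_order (hD.orderOf_eq d hd)

theorem inv (hD : IsRootInvolutionSet D) {d : G} (hd : d ∈ D) : d⁻¹ = d := inv_of_sq (sq hD hd)

theorem ne_one (hD : IsRootInvolutionSet D) {d : G} (hd : d ∈ D) : d ≠ 1 := ne_one_of_order (hD.orderOf_eq d hd)

theorem conj_mem' (hD : IsRootInvolutionSet D) {d x : G} (hd : d ∈ D) (hx : x ∈ D) : x * d * x ∈ D := by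
  have := hD.conj_mem d hd x
  rwa [inv hD hx] at this

/-- the order of a product of two members is `1`, `2`, `4` or odd. -/
theorem order_cases (hD : IsRootInvolutionSet D) {a b : G} (ha : a ∈ D) (hb : b ∈ D) :
    orderOf (a * b) ∣ 4 ∨ Odd (orderOf (a * b)) := by
  rcases hD.pair a ha b hb with h | h | h
  · left
    apply orderOf_dvd_of_pow_eq_one
    have : (a * b) ^ 2 = 1 := by
      rw [pow_two]
      calc a * b * (a * b) = a * (b * a) * b := by group
        _ = a * (a * b) * b := by rw [h]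
        _ = (a * a) * (b * b) := by group
        _ = 1 := by rw [sq hD ha, sq hD hb, one_mul]
    calc (a * b) ^ 4 = ((a * b) ^ 2) ^ 2 := by rw [← pow_mul]
      _ = 1 := by rw [this, one_pow]
  · right; exact h
  · left; rw [h.1]

/-- if an involution `z` commutes with an element `t ≠ 1` of odd order, `z * t` has neither odd order nor order dividing 4. -/
theorem bad_order {z t : G} (hz : orderOf z = 2) (ht : Odd (orderOf t)) (ht1 : t ≠ 1) (hc : Commute z t) :
    ¬ (orderOf (z * t) ∣ 4 ∨ Odd (orderOf (z * t))) := by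
  have hcop : Nat.Coprime (orderOf z) (orderOf t) := by
    rw [hz]; exact (Nat.coprime_two_left).mpr ht
  have ho := hc.orderOf_mul_eq_mul_orderOf_of_coprime hcop
  rw [hz] at ho
  rw [ho]
  rintro (h | h)
  · have h2 : orderOf t ∣ 4 := Dvd.dvd.trans (Dvd.intro_left 2 rfl) h
    have h3 : Nat.Coprime (orderOf t) 4 := by
      have : Nat.Coprime (orderOf t) (2 ^ 2) := Nat.Coprime.pow_right 2 ((Nat.coprime_two_right).mpr ht)
      simpa using this
    have h4 : orderOf t = 1 := Nat.Coprime.eq_one_of_dvd h3 h2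
    exact ht1 (orderOf_eq_one_iff.mp h4)
  · exact absurd h (by simp)

/-- Key lemma: `a, e, a e ∈ D` commuting, `c ∈ D` with `a c` of odd order `> 1` and `e c` of order `4`: then
`(a e) c` has odd order. -/
theorem odd_of_four (hD : IsRootInvolutionSet D) {a e c : G} (ha : a ∈ D) (he : e ∈ D) (hae : a * e = e * a)
    (hf : a * e ∈ D) (hc : c ∈ D) (hac : Odd (orderOf (a * c))) (hne : a ≠ c) (hec : orderOf (e * c) = 4) :
    Odd (orderOf (a * e * c)) ∧ a * e ≠ c := by
  have ha2 := sq hD ha
  have he2 := sq hD he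
  have hc2 := sq hD hc
  have hf2 := sq hD hf
  have hce : orderOf (c * e) = 4 := by rw [orderOf_mul_comm']; exact hec
  have hca : Odd (orderOf (c * a)) := by rw [orderOf_mul_comm']; exact hac
  have hce4 : (c * e) ^ 4 = 1 := by rw [← hce]; exact pow_orderOf_eq_one _
  have hce2 : (c * e) ^ 2 ≠ 1 := by
    intro h
    have := orderOf_dvd_of_pow_eq_one h
    rw [hce] at this
    exact absurd this (by decide)
  have hu1 : (c * a) ^ 2 ≠ 1 := by
    intro h
    rw [pow_two] at h
    have h2 := eq_one_of_odd_of_sq hca h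
    apply hne
    have : a = c⁻¹ := eq_inv_of_mul_eq_one_right h2
    rw [this, inv hD hc]
  have huodd : Odd (orderOf ((c * a) ^ 2)) := odd_orderOf_pow hca 2
  refine ⟨?_, ?_⟩
  swap
  · intro h
    rw [← h, ← mul_assoc, ha2, one_mul, hD.orderOf_eq e he] at hac
    exact absurd hac (by decide)
  obtain ⟨f, hfdef⟩ : ∃ f, f = a * e := ⟨_, rfl⟩
  rw [← hfdef] at hf hf2 ⊢
  have haf : a = e * f := by rw [hfdef, hae, ← mul_assoc, he2, one_mul]
  have haf' : a = f * e := by rw [hfdef, mul_assoc, he2, mul_one]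
  -- `a c a = f (e c e) f`
  have e1 : a * c * a = f * (e * c * e) * f := by
    conv_lhs => rw [haf']
    conv_lhs => rw [show f * e * c * (f * e) = f * e * c * a by rw [← haf']]
    rw [haf]; group
  rcases hD.pair f hf c hc with h | h | h
  · exfalso
    -- `f c f = c`
    have h3 : e * c * e = a * c * a := by
      have h4 : f * c * f = c := by rw [h, mul_assoc, hf2, mul_one]
      have h5 : f * (a * c * a) * f = e * c * e := by
        rw [e1]
        calc f * (f * (e * c * e) * f) * f = (f * f) * (e * c * e) * (f * f) := by group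
          _ = e * c * e := by rw [hf2, one_mul, mul_one]
      -- `f` commutes with `a` and `c`
      have hfa : f * a = a * f := by
        rw [hfdef, mul_assoc, ← hae, ← mul_assoc]
      rw [← h5]
      calc f * (a * c * a) * f = (f * a) * c * a * f := by group
        _ = a * f * c * a * f := by rw [hfa]
        _ = a * (f * c) * a * f := by group
        _ = a * (c * f) * a * f := by rw [h]
        _ = a * c * (f * a) * f := by group
        _ = a * c * (a * f) * f := by rw [hfa]
        _ = a * c * a * (f * f) := by group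
        _ = a * c * a := by rw [hf2, mul_one]
    have h6 : (c * a) ^ 2 = (c * e) ^ 2 := by
      rw [pow_two, pow_two]
      calc c * a * (c * a) = c * (a * c * a) := by group
        _ = c * (e * c * e) := by rw [h3]
        _ = c * e * (c * e) := by group
    apply hu1
    apply eq_one_of_odd_of_sq huodd
    rw [h6, ← pow_two, ← pow_mul]
    exact hce4
  · exact h
  · exfalso
    have hcf : orderOf (c * f) = 4 := by rw [orderOf_mul_comm']; exact h.1
    have hcf4 : (c * f) ^ 4 = 1 := by rw [← hcf]; exact pow_orderOf_eq_one _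
    set zf := (c * f) ^ 2 with hzf
    set w := f * (c * e) ^ 2 * f with hw
    have hzf2 : zf * zf = 1 := by rw [hzf, ← pow_two, ← pow_mul]; exact hcf4
    have hw2 : w * w = 1 := by
      rw [hw]
      calc f * (c * e) ^ 2 * f * (f * (c * e) ^ 2 * f) = f * (c * e) ^ 2 * (f * f) * (c * e) ^ 2 * f := by group
        _ = f * ((c * e) ^ 2 * (c * e) ^ 2) * f := by rw [hf2]; group
        _ = f * (c * e) ^ 4 * f := by rw [← pow_add]
        _ = 1 := by rw [hce4, mul_one, hf2]
    have hg : f * c * f = c * zf := by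
      rw [hzf, pow_two]
      calc f * c * f = (c * c) * f * c * f := by rw [hc2, one_mul]
        _ = c * (c * f * (c * f)) := by group
    have hu : (c * a) ^ 2 = zf * w := by
      rw [pow_two]
      calc c * a * (c * a) = c * (a * c * a) := by group
        _ = c * (f * (e * c * e) * f) := by rw [e1]
        _ = c * (f * ((c * c) * e * c * e) * f) := by rw [hc2, one_mul]
        _ = c * (f * c * (f * f) * (c * e * (c * e)) * f) := by rw [hf2]; group
        _ = c * ((f * c * f) * (f * (c * e) ^ 2 * f)) := by rw [pow_two]; group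
        _ = c * (c * zf * w) := by rw [hg]
        _ = (c * c) * zf * w := by group
        _ = zf * w := by rw [hc2, one_mul]
    set u := (c * a) ^ 2 with hudef
    have i1 : zf * u * zf⁻¹ = u⁻¹ := by rw [hu]; exact inverts_mul_left hzf2 hw2
    have i2 : c * u * c⁻¹ = u⁻¹ := by
      rw [hudef, ← conj_pow, inverts_mul_left hc2 ha2, inv_pow]
    have i3 : a * u * a⁻¹ = u⁻¹ := by
      rw [hudef, ← conj_pow, inverts_mul_right hc2 ha2, inv_pow]
    have i4 : (f * c * f) * u * (f * c * f)⁻¹ = u := by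
      rw [hg]
      calc c * zf * u * (c * zf)⁻¹ = c * (zf * u * zf⁻¹) * c⁻¹ := by group
        _ = (c * u * c⁻¹)⁻¹ := by rw [i1]; group
        _ = u := by rw [i2, inv_inv]
    have i5 : ((f * c * f) * a) * u * ((f * c * f) * a)⁻¹ = u⁻¹ := by
      calc ((f * c * f) * a) * u * ((f * c * f) * a)⁻¹ = (f * c * f) * (a * u * a⁻¹) * (f * c * f)⁻¹ := by group
        _ = ((f * c * f) * u * (f * c * f)⁻¹)⁻¹ := by rw [i3]; group
        _ = u⁻¹ := by rw [i4]
    have hfa : f * a = a * f := by
      rw [hfdef, mul_assoc, ← hae, ← mul_assoc]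
    have hodd : Odd (orderOf ((f * c * f) * a)) := by
      have e5 : (f * c * f) * a = f * (c * a) * f⁻¹ := by
        rw [inv_of_sq hf2]
        calc f * c * f * a = f * c * (f * a) := by group
          _ = f * c * (a * f) := by rw [hfa]
          _ = f * (c * a) * f := by group
      rw [e5, orderOf_conj]; exact hca
    have h7 := eq_inv_of_odd_inverts hodd i5
    apply hu1
    apply eq_one_of_odd_of_sq huodd
    calc u * u = u * u⁻¹ := by rw [← h7]
      _ = 1 := mul_inv_cancel u

theorem pCore_normal (p : ℕ) : (pCore p G).Normal := Subgroup.sSup_normal _ fun _ hN => hN.1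

theorem pCore_isPGroup (p : ℕ) : IsPGroup p (pCore p G) :=
  Sylow.sSup_of_normal _ (fun _ hH => hH.2) (fun _ hH => hH.1)

theorem le_pCore {p : ℕ} {N : Subgroup G} (hn : N.Normal) (hp : IsPGroup p N) : N ≤ pCore p G := le_sSup ⟨hn, hp⟩

theorem isPGroup_zpowers {z : G} {k : ℕ} (hz : z ^ (2 ^ k) = 1) : IsPGroup 2 (Subgroup.zpowers z) := by
  rintro ⟨g, hg⟩
  obtain ⟨n, rfl⟩ := Subgroup.mem_zpowers_iff.mp hg
  refine ⟨k, Subtype.ext ?_⟩
  change (z ^ n) ^ (2 ^ k) = 1
  rw [← zpow_natCast, ← zpow_mul, mul_comm, zpow_mul, zpow_natCast, hz, one_zpow]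

/-- two involutions whose product has order dividing `4` generate a `2`-group. -/
theorem isPGroup_sup_zpowers {x y : G} (hx : x * x = 1) (hy : y * y = 1) (hxy : (x * y) ^ 4 = 1) :
    IsPGroup 2 ↥(Subgroup.zpowers x ⊔ Subgroup.zpowers y) := by
  have h1 : IsPGroup 2 (Subgroup.zpowers x) := isPGroup_zpowers (k := 1) (by rw [pow_one, pow_two]; exact hx)
  have h2 : IsPGroup 2 (Subgroup.zpowers (x * y)) := isPGroup_zpowers (k := 2) (by norm_num; exact hxy)
  have h3 : Subgroup.zpowers x ≤ Subgroup.normalizer ((Subgroup.zpowers (x * y) : Subgroup G) : Set G) := by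
    rw [Subgroup.zpowers_le, Subgroup.mem_normalizer_iff_map_conj_eq, MonoidHom.map_zpowers]
    have : Subgroup.zpowers ((MulAut.conj x : G →* G) (x * y)) = Subgroup.zpowers (x * y)⁻¹ :=
      congrArg Subgroup.zpowers (inverts_mul_left hx hy)
    rw [this, Subgroup.zpowers_inv]
  have h4 := IsPGroup.to_sup_of_normal_right' h1 h2 h3
  apply h4.to_le
  rw [sup_le_iff]
  refine ⟨le_sup_left, ?_⟩
  rw [Subgroup.zpowers_le]
  have h5 : y = x * (x * y) := by rw [← mul_assoc, hx, one_mul]
  have h6 : x * (x * y) ∈ Subgroup.zpowers x ⊔ Subgroup.zpowers (x * y) :=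
    Subgroup.mul_mem _ (Subgroup.mem_sup_left (Subgroup.mem_zpowers x))
      (Subgroup.mem_sup_right (Subgroup.mem_zpowers _))
  rwa [← h5] at h6

/-- Baer–Suzuki for involutions. -/
theorem mem_pCore_of_forall [Finite G] {w : G} (hw : w * w = 1) (h : ∀ g : G, (w * (g * w * g⁻¹)) ^ 4 = 1) :
    w ∈ pCore 2 G := by
  have : Fact (Nat.Prime 2) := ⟨Nat.prime_two⟩
  obtain ⟨N, hN, hN2, hle⟩ := Cfsg.Agent.S0199.result (p := 2) (Subgroup.zpowers w)
    (isPGroup_zpowers (k := 1) (by rw [pow_one, pow_two]; exact hw)) (by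
      intro g
      rw [MonoidHom.map_zpowers]
      apply isPGroup_sup_zpowers hw _ (h g)
      calc g * w * g⁻¹ * (g * w * g⁻¹) = g * (w * w) * g⁻¹ := by group
        _ = 1 := by rw [hw]; group)
  exact le_pCore hN hN2 (hle (Subgroup.mem_zpowers w))

theorem oddAdj_symm {a b : G} (h : OddAdj D a b) : OddAdj D b a :=
  ⟨h.2.1, h.1, h.2.2.1.symm, by rw [orderOf_mul_comm']; exact h.2.2.2⟩

theorem reach_symm {a b : G} (h : Relation.ReflTransGen (OddAdj D) a b) : Relation.ReflTransGen (OddAdj D) b a := by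
  induction h with
  | refl => exact .refl
  | tail _ hbc ih => exact (Relation.ReflTransGen.single (oddAdj_symm hbc)).trans ih

theorem component_eq_of_reach {a b : G} (h : Relation.ReflTransGen (OddAdj D) a b) :
    elemComponentOf (OddAdj D) D a = elemComponentOf (OddAdj D) D b := by
  ext x
  constructor
  · rintro ⟨hx, h1⟩
    exact ⟨hx, (reach_symm h).trans h1⟩
  · rintro ⟨hx, h1⟩
    exact ⟨hx, h.trans h1⟩

theorem isolated_iff {w : G} : IsIsolatedElem (OddAdj D) D w ↔ w ∈ D ∧ ∀ b ∈ D, b ≠ w → ¬ Odd (orderOf (w * b)) := by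
  constructor
  · rintro ⟨hw, h⟩
    exact ⟨hw, fun b hb hne ho => (h b).1 ⟨hw, hb, hne.symm, ho⟩⟩
  · rintro ⟨hw, h⟩
    refine ⟨hw, fun b => ⟨fun hb => h b hb.2.1 hb.2.2.1.symm hb.2.2.2, fun hb => ?_⟩⟩
    exact h b hb.1 hb.2.2.1 (by rw [orderOf_mul_comm']; exact hb.2.2.2)

theorem isolated_mem_pCore [Finite G] (hD : IsRootInvolutionSet D) {w : G} (hw : IsIsolatedElem (OddAdj D) D w) :
    w ∈ pCore 2 G := by
  rw [isolated_iff] at hw
  apply mem_pCore_of_forall (sq hD hw.1)
  intro g
  have hg := hD.conj_mem w hw.1 g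
  by_cases he : g * w * g⁻¹ = w
  · rw [he, sq hD hw.1, one_pow]
  · rcases order_cases hD hw.1 hg with h | h
    · exact orderOf_dvd_iff_pow_eq_one.mp h
    · exact absurd h (hw.2 _ hg he)

theorem isolated_of_mem_pCore (hD : IsRootInvolutionSet D) {d : G} (hd : d ∈ D) (hdQ : d ∈ pCore 2 G) :
    IsIsolatedElem (OddAdj D) D d := by
  rw [isolated_iff]
  refine ⟨hd, ?_⟩
  intro b hb hne ho
  -- `(d b)² = d · d^b ∈ Q`
  have h1 : (d * b) ^ 2 ∈ pCore 2 G := by
    have : (d * b) ^ 2 = d * (b * d * b⁻¹) := by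
      rw [pow_two, inv hD hb]; group
    rw [this]
    exact Subgroup.mul_mem _ hdQ ((pCore_normal 2).conj_mem d hdQ b)
  obtain ⟨k, hk⟩ := (pCore_isPGroup (G := G) 2) ⟨_, h1⟩
  have hk' : ((d * b) ^ 2) ^ (2 ^ k) = 1 := congrArg Subtype.val hk
  rw [← pow_mul, ← pow_succ'] at hk'
  have h2 : orderOf (d * b) ∣ 2 ^ (k + 1) := orderOf_dvd_of_pow_eq_one hk'
  have h3 : Nat.Coprime (orderOf (d * b)) (2 ^ (k + 1)) := Nat.Coprime.pow_right _ ((Nat.coprime_two_right).mpr ho)
  have h4 : orderOf (d * b) = 1 := Nat.Coprime.eq_one_of_dvd h3 h2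
  apply hne
  have h5 : d * b = 1 := orderOf_eq_one_iff.mp h4
  have : b = d⁻¹ := eq_inv_of_mul_eq_one_right h5
  rw [this, inv hD hd]

end RootInv

end Cfsg.Agent.Lib.Helper25
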