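import Cfsg.Agent.Lib.Helper25.RootInv
import Cfsg.Prelude.Def_QuasithinSetup

set_option autoImplicit false
open Cfsg
open scoped commutatorElement

namespace Cfsg.Agent.Lib.Helper25
namespace RootInv

variable {G : Type*} [Group G] {D : Set G}

/-- two involutions whose product has odd order are conjugate. -/
theorem conj_of_odd {a b : G} (ha : a * a = 1) (hb : b * b = 1) (ho : Odd (orderOf (a * b))) :
    ∃ g : G, b = g * a * g⁻¹ := by
  obtain ⟨k, hk⟩ := ho
  have h2 : a * (a * b)⁻¹ = (a * b) * a := by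
    rw [mul_inv_rev, inv_of_sq ha, inv_of_sq hb, mul_assoc]
  have h3 : (a * b) ^ (2 * k) * (a * b) = 1 := by
    rw [← pow_succ, ← hk]; exact pow_orderOf_eq_one _
  have h5 : (a * b)⁻¹ * a = b := by
    rw [mul_inv_rev, inv_of_sq ha, inv_of_sq hb, mul_assoc, ha, mul_one]
  obtain ⟨u, hu⟩ : ∃ u, u = a * b := ⟨_, rfl⟩
  rw [← hu] at h2 h3 h5
  have key : ∀ j : ℕ, u ^ j * a * (u ^ j)⁻¹ = u ^ (2 * j) * a := by
    intro j
    induction j with
    | zero => simp
    | succ j ih =>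
      have h1 : u ^ (j + 1) * a * (u ^ (j + 1))⁻¹ = u * (u ^ j * a * (u ^ j)⁻¹) * u⁻¹ := by
        rw [pow_succ']; group
      rw [h1, ih]
      calc u * (u ^ (2 * j) * a) * u⁻¹
          = u * u ^ (2 * j) * (a * u⁻¹) := by group
        _ = u * u ^ (2 * j) * (u * a) := by rw [h2]
        _ = u ^ (2 * (j + 1)) * a := by
          rw [show 2 * (j + 1) = 1 + 2 * j + 1 from by ring, pow_succ, pow_add, pow_one]; group
  refine ⟨u ^ k, ?_⟩
  rw [key k]
  have h4 : u ^ (2 * k) = u⁻¹ := eq_inv_of_mul_eq_one_left h3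
  rw [h4, h5]

theorem conj_of_reach (hD : IsRootInvolutionSet D) {a b : G} (h : Relation.ReflTransGen (OddAdj D) a b) :
    ∃ g : G, b = g * a * g⁻¹ := by
  induction h with
  | refl => exact ⟨1, by simp⟩
  | tail _ hbc ih =>
    obtain ⟨g, rfl⟩ := ih
    obtain ⟨h, hh⟩ := conj_of_odd (sq hD hbc.1) (sq hD hbc.2.1) hbc.2.2.2
    exact ⟨h * g, by rw [hh]; group⟩

theorem conj_of_connected (hD : IsRootInvolutionSet D) (hc : IsConnectedSet (OddAdj D) D) {a b : G}
    (ha : a ∈ D) (hb : b ∈ D) : ∃ g : G, b = g * a * g⁻¹ := conj_of_reach hD (hc a ha b hb)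

/-- a normal subgroup meeting a connected set of root involutions is everything. -/
theorem eq_top_of_mem (hD : IsRootInvolutionSet D) (hc : IsConnectedSet (OddAdj D) D) {N : Subgroup G}
    (hN : N.Normal) {d : G} (hd : d ∈ D) (hdN : d ∈ N) : N = ⊤ := by
  rw [eq_top_iff, ← hD.generates, Subgroup.closure_le]
  intro e he
  obtain ⟨g, rfl⟩ := conj_of_connected hD hc hd he
  exact hN.conj_mem d hdN g

theorem exists_productPartner (hD : IsRootInvolutionSet D) (hc : IsConnectedSet (OddAdj D) D)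
    (hDD : (D ∩ commutingProducts D).Nonempty) {d : G} (hd : d ∈ D) :
    ∃ b ∈ D, b ≠ d ∧ b * d = d * b ∧ b * d ∈ D := by
  obtain ⟨x, hx, a, ha, b, hb, hab, hne, rfl⟩ := hDD
  obtain ⟨g, rfl⟩ := conj_of_connected hD hc ha hd
  refine ⟨g * b * g⁻¹, hD.conj_mem b hb g, ?_, ?_, ?_⟩
  · intro h
    have h1 : b = a := by
      have := congrArg (fun y => g⁻¹ * y * g) h
      simpa [mul_assoc] using this
    apply hne
    rw [h1]; exact sq hD ha
  · calc g * b * g⁻¹ * (g * a * g⁻¹) = g * (b * a) * g⁻¹ := by group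
      _ = g * (a * b) * g⁻¹ := by rw [hab]
      _ = g * a * g⁻¹ * (g * b * g⁻¹) := by group
  · have : g * b * g⁻¹ * (g * a * g⁻¹) = g * (a * b) * g⁻¹ := by rw [hab]; group
    rw [this]
    exact hD.conj_mem _ hx g

/-- an element of odd order lies in any subgroup containing its square. -/
theorem mem_of_sq_mem {N : Subgroup G} {x : G} (ho : Odd (orderOf x)) (h : x ^ 2 ∈ N) : x ∈ N := by
  obtain ⟨k, hk⟩ := ho
  have h1 : x = (x ^ 2) ^ (k + 1) := by
    rw [← pow_mul, show 2 * (k + 1) = (2 * k + 1) + 1 from by ring, ← hk, pow_succ, pow_orderOf_eq_one, one_mul]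
  rw [h1]
  exact N.pow_mem h _

/-- Claim 2a. -/
theorem commute_conj_of_disjoint (hD : IsRootInvolutionSet D) (hc : IsConnectedSet (OddAdj D) D)
    (hDD : (D ∩ commutingProducts D).Nonempty) {N : Subgroup G} (hN : N.Normal) (hdis : ∀ d ∈ D, d ∉ N)
    {d n : G} (hd : d ∈ D) (hn : n ∈ N) : Commute d (n * d * n⁻¹) := by
  have hd' : n * d * n⁻¹ ∈ D := hD.conj_mem d hd n
  have hπ : ∀ x y : G, (x * (n * d * n⁻¹)) ^ 2 ∈ N ↔ (x * d) ^ 2 ∈ N := by
    intro x _
    rw [← QuotientGroup.eq_one_iff, ← QuotientGroup.eq_one_iff]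
    have h1 : ((n : G) : G ⧸ N) = 1 := (QuotientGroup.eq_one_iff n).mpr hn
    simp only [QuotientGroup.mk_pow, QuotientGroup.mk_mul, QuotientGroup.mk_inv, h1, one_mul, inv_one, mul_one]
  have htN : d * (n * d * n⁻¹) ∈ N := by
    have : d * (n * d * n⁻¹) = (d * n * d⁻¹) * n⁻¹ := by rw [inv hD hd]; group
    rw [this]
    exact N.mul_mem (hN.conj_mem n hn d) (N.inv_mem hn)
  rcases hD.pair d hd _ hd' with h | h | h
  · exact h
  · by_cases hne : d = n * d * n⁻¹
    · rw [← hne]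
    exfalso
    obtain ⟨b, hb, hbd, hcomm, hbdD⟩ := exists_productPartner hD hc hDD hd
    have ht1 : d * (n * d * n⁻¹) ≠ 1 := by
      intro h1
      apply hne
      exact (eq_inv_of_mul_eq_one_left h1).trans (inv hD hd')
    have hsqN : (b * (n * d * n⁻¹)) ^ 2 ∈ N := by
      rw [hπ b 1, pow_two]
      have : b * d * (b * d) = 1 := sq hD hbdD
      rw [this]; exact N.one_mem
    rcases hD.pair b hb _ hd' with h2 | h2 | h2
    · have h3 : Commute b (d * (n * d * n⁻¹)) := Commute.mul_right hcomm h2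
      have h4 := bad_order (hD.orderOf_eq b hb) h ht1 h3
      apply h4
      have := order_cases hD hbdD hd'
      rwa [mul_assoc] at this
    · have h3 := mem_of_sq_mem h2 hsqN
      apply hdis _ hbdD
      have : b * d = b * (n * d * n⁻¹) * (d * (n * d * n⁻¹))⁻¹ := by
        rw [mul_inv_rev, inv hD hd', inv hD hd]
        have h5 := sq hD hd'
        calc b * d = b * (n * d * n⁻¹ * (n * d * n⁻¹)) * d := by rw [h5, mul_one]
          _ = _ := by group
      rw [this]
      exact N.mul_mem h3 (N.inv_mem htN)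
    · exact hdis _ h2.2 hsqN
  · exact absurd (N.pow_mem htN 2) (hdis _ h.2)

theorem commute_conj_conj (hD : IsRootInvolutionSet D) (hc : IsConnectedSet (OddAdj D) D)
    (hDD : (D ∩ commutingProducts D).Nonempty) {N : Subgroup G} (hN : N.Normal) (hdis : ∀ d ∈ D, d ∉ N)
    {d m n : G} (hd : d ∈ D) (hm : m ∈ N) (hn : n ∈ N) : Commute (m * d * m⁻¹) (n * d * n⁻¹) := by
  have := commute_conj_of_disjoint hD hc hDD hN hdis (hD.conj_mem d hd m) (N.mul_mem hn (N.inv_mem hm))
  have h2 : n * m⁻¹ * (m * d * m⁻¹) * (n * m⁻¹)⁻¹ = n * d * n⁻¹ := by group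
  rwa [h2] at this

/-- Claim 2b. -/
theorem mul_conj_mem_pCore [Finite G] (hD : IsRootInvolutionSet D) (hc : IsConnectedSet (OddAdj D) D)
    (hDD : (D ∩ commutingProducts D).Nonempty) {N : Subgroup G} (hN : N.Normal) (hdis : ∀ d ∈ D, d ∉ N)
    {d n : G} (hd : d ∈ D) (hn : n ∈ N) : d * (n * d * n⁻¹) ∈ pCore 2 G := by
  have hd' : n * d * n⁻¹ ∈ D := hD.conj_mem d hd n
  have hcc := fun {m n : G} (hm : m ∈ N) (hn : n ∈ N) => commute_conj_conj hD hc hDD hN hdis hd hm hn
  have hc1 : Commute d (n * d * n⁻¹) := commute_conj_of_disjoint hD hc hDD hN hdis hd hn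
  have htN : d * (n * d * n⁻¹) ∈ N := by
    have : d * (n * d * n⁻¹) = (d * n * d⁻¹) * n⁻¹ := by rw [inv hD hd]; group
    rw [this]
    exact N.mul_mem (hN.conj_mem n hn d) (N.inv_mem hn)
  have ht2 : d * (n * d * n⁻¹) * (d * (n * d * n⁻¹)) = 1 := by
    rw [hc1.symm.mul_mul_mul_comm, sq hD hd, sq hD hd', one_mul]
  apply mem_pCore_of_forall ht2
  intro g
  obtain ⟨t, ht⟩ : ∃ t, t = d * (n * d * n⁻¹) := ⟨_, rfl⟩
  rw [← ht] at ht2 htN ⊢
  obtain ⟨s, hs⟩ : ∃ s, s = g * t * g⁻¹ := ⟨_, rfl⟩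
  rw [← hs]
  have hsN : s ∈ N := by rw [hs]; exact hN.conj_mem t htN g
  have hs2 : s * s = 1 := by
    rw [hs]
    calc g * t * g⁻¹ * (g * t * g⁻¹) = g * (t * t) * g⁻¹ := by group
      _ = 1 := by rw [ht2]; group
  have h1 : (t * s) ^ 2 = t * (s * t * s⁻¹) := by
    rw [inv_of_sq hs2, pow_two]; group
  have h2 : s * t * s⁻¹ = (s * d * s⁻¹) * ((s * n) * d * (s * n)⁻¹) := by
    rw [ht]; group
  have h3 : Commute t (s * t * s⁻¹) := by
    rw [h2, ht]
    have e1 : d = 1 * d * 1⁻¹ := by simp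
    apply Commute.mul_left
    · apply Commute.mul_right
      · have := hcc N.one_mem hsN
        rwa [← e1] at this
      · have := hcc N.one_mem (N.mul_mem hsN hn)
        rwa [← e1] at this
    · apply Commute.mul_right
      · exact hcc hn hsN
      · exact hcc hn (N.mul_mem hsN hn)
  have h4 : s * t * s⁻¹ * (s * t * s⁻¹) = 1 := by
    calc s * t * s⁻¹ * (s * t * s⁻¹) = s * (t * t) * s⁻¹ := by group
      _ = 1 := by rw [ht2]; group
  rw [show 4 = 2 * 2 from rfl, pow_mul, h1, pow_two, h3.symm.mul_mul_mul_comm, ht2, h4, one_mul]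

/-- Claim 2c. -/
theorem le_twoZCore_of_disjoint [Finite G] (hD : IsRootInvolutionSet D) (hc : IsConnectedSet (OddAdj D) D)
    (hDD : (D ∩ commutingProducts D).Nonempty) {N : Subgroup G} (hN : N.Normal) (hdis : ∀ d ∈ D, d ∉ N) :
    N ≤ twoZCore G := by
  intro n hn
  change (QuotientGroup.mk' (pCore 2 G)) n ∈ Subgroup.center _
  rw [Subgroup.mem_center_iff]
  intro x
  obtain ⟨x, rfl⟩ := QuotientGroup.mk'_surjective _ x
  have hx : x ∈ Subgroup.closure D := by rw [hD.generates]; trivial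
  have hle : Subgroup.closure D ≤
      (Subgroup.centralizer {(QuotientGroup.mk' (pCore 2 G)) n}).comap (QuotientGroup.mk' (pCore 2 G)) := by
    rw [Subgroup.closure_le]
    intro d hd
    change (QuotientGroup.mk' (pCore 2 G)) d ∈ Subgroup.centralizer _
    rw [Subgroup.mem_centralizer_singleton_iff]
    have h1 := mul_conj_mem_pCore hD hc hDD hN hdis hd hn
    have h2 : (QuotientGroup.mk' (pCore 2 G)) (d * (n * d * n⁻¹)) = 1 := (QuotientGroup.eq_one_iff _).mpr h1
    have h3 : (QuotientGroup.mk' (pCore 2 G)) d * (QuotientGroup.mk' (pCore 2 G)) d = 1 := by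
      rw [← map_mul, sq hD hd, map_one]
    rw [map_mul, map_mul, map_mul, map_inv] at h2
    generalize (QuotientGroup.mk' (pCore 2 G)) d = δ at *
    generalize (QuotientGroup.mk' (pCore 2 G)) n = ν at *
    have h4 : ν * δ * ν⁻¹ = δ := by
      calc ν * δ * ν⁻¹ = (δ * δ) * (ν * δ * ν⁻¹) := by rw [h3, one_mul]
        _ = δ * (δ * (ν * δ * ν⁻¹)) := by group
        _ = δ := by rw [h2, mul_one]
    calc δ * ν = (ν * δ * ν⁻¹) * ν := by rw [h4]
      _ = ν * δ := by group
  have := hle hx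
  change (QuotientGroup.mk' (pCore 2 G)) x ∈ Subgroup.centralizer _ at this
  rw [Subgroup.mem_centralizer_singleton_iff] at this
  exact this

theorem dichotomy [Finite G] (hD : IsRootInvolutionSet D) (hc : IsConnectedSet (OddAdj D) D)
    (hDD : (D ∩ commutingProducts D).Nonempty) {N : Subgroup G} (hN : N.Normal) :
    N ≤ twoZCore G ∨ N = ⊤ := by
  by_cases h : ∀ d ∈ D, d ∉ N
  · exact Or.inl (le_twoZCore_of_disjoint hD hc hDD hN h)
  · push Not at h
    obtain ⟨d, hd, hdN⟩ := h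
    exact Or.inr (eq_top_of_mem hD hc hN hd hdN)

theorem commutator_eq_top (hD : IsRootInvolutionSet D) (hc : IsConnectedSet (OddAdj D) D)
    (hDD : (D ∩ commutingProducts D).Nonempty) : commutator G = ⊤ := by
  obtain ⟨x, hx, a, ha, b, hb, hab, hne, rfl⟩ := hDD
  apply eq_top_of_mem hD hc inferInstance hx
  obtain ⟨g, rfl⟩ := conj_of_connected hD hc ha hb
  have : a * (g * a * g⁻¹) = ⁅a, g⁆ := by
    rw [commutatorElement_def, inv hD ha]; group
  rw [this]
  exact Subgroup.commutator_mem_commutator (Subgroup.mem_top _) (Subgroup.mem_top _)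

end RootInv
end Cfsg.Agent.Lib.Helper25
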