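import Mathlib
import Cfsg.Prelude.Def_RootSubgroups
import Cfsg.Agent.Lib.Helper25.RootSub

set_option autoImplicit false
open Cfsg
open scoped commutatorElement

namespace Cfsg.Agent.Lib.Helper25

variable {G : Type*} [Group G]

theorem conjBy_commutator_of_mem_sup (A B : Subgroup G) {x : G} (hx : x ∈ A ⊔ B) : conjBy ⁅A, B⁆ x = ⁅A, B⁆ := by
  have h : A ⊔ B ≤ Subgroup.normalizer ((⁅A, B⁆ : Subgroup G) : Set G) :=
    sup_le (Subgroup.normalizer_commutator_ge_left A B) (Subgroup.normalizer_commutator_ge_right A B)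
  exact mem_normalizer_iff_conjBy.mp (h hx)

theorem conjBy_commutator (A B : Subgroup G) (g : G) : conjBy ⁅A, B⁆ g = ⁅conjBy A g, conjBy B g⁆ :=
  Subgroup.map_commutator A B _

/-- elements of the join of two elementwise commuting subgroups. -/
theorem mem_sup_of_commute {A C : Subgroup G} (h : ∀ a ∈ A, ∀ c ∈ C, a * c = c * a) {x : G} :
    x ∈ A ⊔ C ↔ ∃ a ∈ A, ∃ c ∈ C, a * c = x := by
  constructor
  · intro hx
    rw [Subgroup.sup_eq_closure] at hx
    refine Subgroup.closure_induction (p := fun x _ => ∃ a ∈ A, ∃ c ∈ C, a * c = x) ?_ ?_ ?_ ?_ hx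
    · rintro y (hy | hy)
      · exact ⟨y, hy, 1, C.one_mem, mul_one y⟩
      · exact ⟨1, A.one_mem, y, hy, one_mul y⟩
    · exact ⟨1, A.one_mem, 1, C.one_mem, mul_one 1⟩
    · rintro _ _ _ _ ⟨a, ha, c, hc, rfl⟩ ⟨a', ha', c', hc', rfl⟩
      refine ⟨a * a', A.mul_mem ha ha', c * c', C.mul_mem hc hc', ?_⟩
      calc a * a' * (c * c') = a * (a' * c) * c' := by group
        _ = a * (c * a') * c' := by rw [h a' ha' c hc]
        _ = a * c * (a' * c') := by group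
    · rintro _ _ ⟨a, ha, c, hc, rfl⟩
      refine ⟨a⁻¹, A.inv_mem ha, c⁻¹, C.inv_mem hc, ?_⟩
      rw [mul_inv_rev, h a⁻¹ (A.inv_mem ha) c⁻¹ (C.inv_mem hc)]
  · rintro ⟨a, ha, c, hc, rfl⟩
    exact Subgroup.mul_mem_sup ha hc

namespace RootSub

variable {S : Set (Subgroup G)}

/-- if `⁅A, B⁆ ∈ S` then `(A, B)` is in the commutator case. -/
theorem commCase_of_mem (hS : IsRootSubgroupSet S) {A B : Subgroup G} (hA : A ∈ S) (hB : B ∈ S)
    (hC : ⁅A, B⁆ ∈ S) : RootCommutatorCase S A B := by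
  rcases hS.pair A hA B hB with h1 | h1 | h1
  · exact absurd h1 (hS.ne_bot _ hC)
  · exfalso
    obtain ⟨a, ha, ha1⟩ := RankOne.exists_ne_one_left h1
    obtain ⟨b, hb, hb1⟩ := RankOne.exists_ne_one_right h1
    have hnc : ∃ n ∈ ⁅A, B⁆, ∃ x ∈ A ⊔ B, n * x ≠ x * n := by
      refine ⟨⁅a, b⁆, Subgroup.commutator_mem_commutator ha hb, a, Subgroup.mem_sup_left ha, ?_⟩
      intro hcomm
      -- then `a` commutes with `b a⁻¹ b⁻¹`
      have hA' : conjBy A b ∈ unipotentSubgroups A B :=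
        RankOne.conj_mem_unipotent (RankOne.left_mem_unipotent A B) (Subgroup.mem_sup_right hb)
      have hne : A ≠ conjBy A b := fun he => hb1 (RankOne.eq_one_of_normalizes (RankOne.symm h1) hb he.symm)
      have hp := RankOne.pair_of_mem h1 (RankOne.left_mem_unipotent A B) hA' hne
      have hmem : b * a⁻¹ * b⁻¹ ∈ conjBy A b := conj_mem_conjBy (A.inv_mem ha) b
      have hne1 : b * a⁻¹ * b⁻¹ ≠ 1 := by
        intro h0
        apply ha1
        have : a⁻¹ = b⁻¹ * (b * a⁻¹ * b⁻¹) * b := by group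
        rw [h0] at this
        simpa using this
      apply RankOne.not_commute hp ha ha1 hmem hne1
      rw [commutatorElement_def] at hcomm
      have e1 : a * (b * a⁻¹ * b⁻¹) = a * b * a⁻¹ * b⁻¹ := by group
      have e2 : b * a⁻¹ * b⁻¹ * a = a⁻¹ * (a * b * a⁻¹ * b⁻¹ * a) := by group
      rw [e1, e2, hcomm]; group
    have hm := mem_unipotent_of_le hS hC hA h1 (Subgroup.commutator_le_sup A B) hnc
    obtain ⟨x, hx, hNx⟩ := hm
    obtain ⟨y, hy, hBy⟩ := RankOne.right_mem_unipotent h1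
    have hAN : A = ⁅A, B⁆ := by
      have := conjBy_commutator_of_mem_sup A B (Subgroup.inv_mem _ hx)
      rw [← this]
      conv_rhs => rw [hNx]
      rw [conjBy_inv_conjBy]
    have hBN : B = ⁅A, B⁆ := by
      have := conjBy_commutator_of_mem_sup A B hy
      rw [← this, ← hAN]; exact hBy
    exact h1.ne (hAN.trans hBN.symm)
  · exact h1

theorem commCase_symm {A B : Subgroup G} (h : RootCommutatorCase S A B) : RootCommutatorCase S B A := by
  obtain ⟨h1, h2, h3, h4⟩ := h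
  have hc : ⁅B, A⁆ = ⁅A, B⁆ := Subgroup.commutator_comm B A
  have key : ∀ (T : Set G), Subgroup.closure ((fun x => x⁻¹) '' T) = Subgroup.closure T := by
    intro T
    have : (fun x : G => x⁻¹) '' T = T⁻¹ := by ext x; simp
    rw [this, Subgroup.closure_inv]
  refine ⟨hc ▸ h1, ?_, ?_, ?_⟩
  · intro c hc' x hx
    rw [hc] at hc'
    rw [sup_comm] at hx
    exact h2 c hc' x hx
  · intro b hb hb1
    rw [hc, ← h4 b hb hb1, ← key, Set.image_image]
    congr 1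
    apply Set.image_congr
    intro a _
    group
  · intro a ha ha1
    rw [hc, ← h3 a ha ha1, ← key, Set.image_image]
    congr 1
    apply Set.image_congr
    intro b _
    group

theorem surj_right {A B : Subgroup G} (h : RootCommutatorCase S A B) {a : G} (ha : a ∈ A) (ha1 : a ≠ 1) :
    ∀ f ∈ ⁅A, B⁆, ∃ b ∈ B, a * b * a⁻¹ * b⁻¹ = f := by
  intro f hf
  have hcen : ∀ c ∈ ⁅A, B⁆, ∀ x ∈ A ⊔ B, c * x = x * c := h.2.1
  have hmem : ∀ b ∈ B, a * b * a⁻¹ * b⁻¹ ∈ ⁅A, B⁆ := fun b hb => Subgroup.commutator_mem_commutator ha hb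
  rw [← h.2.2.1 a ha ha1] at hf
  refine Subgroup.closure_induction (p := fun f _ => ∃ b ∈ B, a * b * a⁻¹ * b⁻¹ = f) ?_ ?_ ?_ ?_ hf
  · rintro _ ⟨b, hb, rfl⟩
    exact ⟨b, hb, rfl⟩
  · exact ⟨1, B.one_mem, by group⟩
  · rintro _ _ _ _ ⟨b, hb, rfl⟩ ⟨b', hb', rfl⟩
    refine ⟨b * b', B.mul_mem hb hb', ?_⟩
    have h1 := hcen _ (hmem b' hb') b (Subgroup.mem_sup_right hb)
    calc a * (b * b') * a⁻¹ * (b * b')⁻¹ = a * b * a⁻¹ * ((a * b' * a⁻¹ * b'⁻¹) * b⁻¹) := by group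
      _ = a * b * a⁻¹ * (b⁻¹ * (a * b' * a⁻¹ * b'⁻¹)) := by
          rw [hcen _ (hmem b' hb') b⁻¹ (Subgroup.mem_sup_right (B.inv_mem hb))]
      _ = a * b * a⁻¹ * b⁻¹ * (a * b' * a⁻¹ * b'⁻¹) := by group
  · rintro _ _ ⟨b, hb, rfl⟩
    refine ⟨b⁻¹, B.inv_mem hb, ?_⟩
    have h1 := hcen _ (hmem b hb) b (Subgroup.mem_sup_right hb)
    calc a * b⁻¹ * a⁻¹ * b⁻¹⁻¹ = b⁻¹ * (b * (a * b⁻¹ * a⁻¹ * b⁻¹⁻¹)) := by group
      _ = b⁻¹ * ((a * b * a⁻¹ * b⁻¹)⁻¹ * b) := by group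
      _ = b⁻¹ * (b * (a * b * a⁻¹ * b⁻¹)⁻¹) := by
          rw [hcen _ (Subgroup.inv_mem _ (hmem b hb)) b (Subgroup.mem_sup_right hb)]
      _ = (a * b * a⁻¹ * b⁻¹)⁻¹ := by group

theorem surj_left {A B : Subgroup G} (h : RootCommutatorCase S A B) {b : G} (hb : b ∈ B) (hb1 : b ≠ 1) :
    ∀ f ∈ ⁅A, B⁆, ∃ a ∈ A, a * b * a⁻¹ * b⁻¹ = f := by
  intro f hf
  have hf' : f⁻¹ ∈ ⁅B, A⁆ := by rw [Subgroup.commutator_comm]; exact Subgroup.inv_mem _ hf
  obtain ⟨a, ha, hab⟩ := surj_right (commCase_symm h) hb hb1 f⁻¹ hf'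
  refine ⟨a, ha, ?_⟩
  rw [← inv_inj, ← hab]; group

theorem ne_commutator (hS : IsRootSubgroupSet S) {A B : Subgroup G} (h : RootCommutatorCase S A B) : A ≠ ⁅A, B⁆ := by
  intro he
  apply hS.ne_bot _ h.1
  apply commutator_eq_bot_of_commute
  intro a ha b hb
  rw [he] at ha
  exact h.2.1 a ha b (Subgroup.mem_sup_right hb)

/-- In the commutator case, if `A` has a rank one partner then `C_B(a) = 1` for `a ∈ A#`. -/
theorem centralizer_trivial (hS : IsRootSubgroupSet S) {A B D : Subgroup G} (hA : A ∈ S) (hD : D ∈ S)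
    (hAD : IsRankOnePair A D) (h : RootCommutatorCase S A B) {a b : G} (ha : a ∈ A) (ha1 : a ≠ 1) (hb : b ∈ B)
    (hab : a * b = b * a) : b = 1 := by
  by_contra hb1
  have hmem : a ∈ A ⊓ conjBy A b := by
    refine Subgroup.mem_inf.mpr ⟨ha, ?_⟩
    rw [mem_conjBy]
    have : b⁻¹ * a * b = a := by rw [mul_assoc, hab]; group
    rwa [this]
  rcases ti hS hD hAD (hS.conj_mem A hA b) with h1 | h1
  · rw [h1, Subgroup.mem_bot] at hmem
    exact ha1 hmem
  · -- b normalizes A, so ⁅A,B⁆ ≤ A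
    have hle : ⁅A, B⁆ ≤ A := by
      rw [← h.2.2.2 b hb hb1, Subgroup.closure_le]
      rintro _ ⟨a', ha', rfl⟩
      have h2 : b * a'⁻¹ * b⁻¹ ∈ A := by
        have := conj_mem_conjBy (A.inv_mem ha') b
        rwa [← h1] at this
      have := A.mul_mem ha' h2
      simpa [mul_assoc] using this
    rcases ti hS hD hAD h.1 with h2 | h2
    · rw [inf_eq_right.mpr hle] at h2
      exact hS.ne_bot _ h.1 h2
    · exact ne_commutator hS h h2

end RootSub

end Cfsg.Agent.Lib.Helper25
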