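import Mathlib
import Cfsg.Prelude.Def_RootSubgroups
import Cfsg.Agent.Lib.Helper25.RootSub2

set_option autoImplicit false
open Cfsg
open scoped commutatorElement

namespace Cfsg.Agent.Lib.Helper25

variable {G : Type*} [Group G]

namespace RootSub

variable {S : Set (Subgroup G)}

theorem FAdj_symm {A B : Subgroup G} (h : FAdj S A B) : FAdj S B A := ⟨h.2.1, h.1, RankOne.symm h.2.2⟩

theorem reach_symm {A B : Subgroup G} (h : Relation.ReflTransGen (FAdj S) A B) :
    Relation.ReflTransGen (FAdj S) B A := by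
  induction h with
  | refl => exact .refl
  | tail _ hbc ih => exact (Relation.ReflTransGen.single (FAdj_symm hbc)).trans ih

theorem component_eq_of_reach {A B : Subgroup G} (h : Relation.ReflTransGen (FAdj S) A B) :
    componentOf (FAdj S) S A = componentOf (FAdj S) S B := by
  ext X
  constructor
  · rintro ⟨hX, h1⟩
    exact ⟨hX, (reach_symm h).trans h1⟩
  · rintro ⟨hX, h1⟩
    exact ⟨hX, h.trans h1⟩

theorem exists_partner_of_component {A : Subgroup G} (h : ∃ A' ∈ componentOf (FAdj S) S A, A' ≠ A) :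
    ∃ C ∈ S, IsRankOnePair A C := by
  obtain ⟨A', ⟨_, h1⟩, hne⟩ := h
  rcases Relation.ReflTransGen.cases_head h1 with h2 | ⟨C, hC, _⟩
  · exact absurd h2.symm hne
  · exact ⟨C, hC.2.1, hC.2.2⟩

/-- Key lemma: if `(A, C)` is a rank one pair, `B` commutes with `A`, `(C, B)` is in the commutator case and
`a * b ∈ E ∈ S` with `1 ≠ a ∈ A`, `b ∈ B`, then `(E, C)` is a rank one pair. -/
theorem rankOne_of_line (hS : IsRootSubgroupSet S) {A B C E : Subgroup G} (hC : C ∈ S) (hE : E ∈ S)
    (hAC : IsRankOnePair A C) (hAB : ∀ a ∈ A, ∀ b ∈ B, a * b = b * a) (hγ : RootCommutatorCase S C B)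
    {a b : G} (ha : a ∈ A) (ha1 : a ≠ 1) (hb : b ∈ B) (hab : a * b ∈ E) : IsRankOnePair E C := by
  apply rankOne_of_moves hS hE hC hab
  obtain ⟨c', hc', _, h1⟩ := RankOne.cond_left' hAC ha ha1
  have hf : ⁅b, c'⁆ ∈ ⁅C, B⁆ := by
    rw [Subgroup.commutator_comm]; exact Subgroup.commutator_mem_commutator hb hc'
  have hfC : conjBy C ⁅b, c'⁆ = C :=
    conjBy_of_centralizes (fun c hc => hγ.2.1 _ hf c (Subgroup.mem_sup_left hc))
  have hAb : conjBy A b = A := conjBy_of_centralizes (fun a' ha' => (hAB a' ha' b hb).symm)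
  have e1 : conjBy C (a * b) = conjBy (conjBy C a) ⁅b, c'⁆ := by
    rw [hAB a ha b hb, ← conjBy_conjBy, ← h1, conjBy_conjBy, conjBy_conjBy]
    have e2 : b * c' = ⁅b, c'⁆ * c' * b := by rw [commutatorElement_def]; group
    rw [e2, ← conjBy_conjBy, hAb]
  have hne : conjBy C a ≠ C := fun he => ha1 (RankOne.eq_one_of_normalizes hAC ha he)
  have hp := RankOne.pair_of_mem hAC
    (RankOne.conj_mem_unipotent (RankOne.right_mem_unipotent hAC) (Subgroup.mem_sup_left ha))
    (RankOne.right_mem_unipotent hAC) hne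
  have := RankOne.conj hp ⁅b, c'⁆
  rw [hfC] at this
  rw [e1]; exact this

theorem mem_centralizer_sup {A C : Subgroup G} {z : G} (hA : ∀ a ∈ A, z * a = a * z) (hC : ∀ c ∈ C, z * c = c * z) :
    z ∈ Subgroup.centralizer ((A ⊔ C : Subgroup G) : Set G) := by
  have hle2 : A ⊔ C ≤ Subgroup.centralizer {z} := by
    rw [sup_le_iff]
    constructor
    · intro a' ha'
      rw [Subgroup.mem_centralizer_iff]
      intro y hy
      rw [Set.mem_singleton_iff.mp hy]
      exact hA a' ha'
    · intro d' hd'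
      rw [Subgroup.mem_centralizer_iff]
      intro y hy
      rw [Set.mem_singleton_iff.mp hy]
      exact hC d' hd'
  rw [Subgroup.mem_centralizer_iff]
  intro x hx
  exact (Subgroup.mem_centralizer_iff.mp (hle2 hx) z rfl).symm

theorem linePartners_symm {A B : Subgroup G} (hA : A ∈ S) (h : B ∈ linePartners S A) : A ∈ linePartners S B := by
  obtain ⟨⟨_, hne, hc⟩, hp⟩ := h
  refine ⟨⟨hA, hne.symm, by rw [Subgroup.commutator_comm]; exact hc⟩, ?_⟩
  rw [sup_comm]; exact hp

end RootSub

end Cfsg.Agent.Lib.Helper25
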