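import Mathlib
import Cfsg.Prelude.Def_RootSubgroups
import Cfsg.Agent.Lib.Helper25.RootSub3
import Cfsg.Agent.S5029

set_option autoImplicit false
open Cfsg
open scoped commutatorElement

namespace Cfsg.Agent.Lib.Helper25

variable {G : Type*} [Group G]

namespace RootSub

variable {S : Set (Subgroup G)}

/-- A property of subgroups stable under conjugation by elements of the members of `S` is stable under all
conjugations. -/
theorem conj_induction_generates (hgen : (⨆ A ∈ S, A) = ⊤) (P : Subgroup G → Prop)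
    (h : ∀ C, P C → ∀ E ∈ S, ∀ e ∈ E, P (conjBy C e)) : ∀ C, P C → ∀ g : G, P (conjBy C g) := by
  let K : Subgroup G :=
    { carrier := {g | ∀ C, P C → P (conjBy C g) ∧ P (conjBy C g⁻¹)}
      one_mem' := by
        intro C hC
        simp only [inv_one, conjBy_one]
        exact ⟨hC, hC⟩
      mul_mem' := by
        intro x y hx hy C hC
        constructor
        · rw [← conjBy_conjBy]
          exact (hx _ (hy C hC).1).1
        · rw [mul_inv_rev, ← conjBy_conjBy]
          exact (hy _ (hx C hC).2).2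
      inv_mem' := by
        intro x hx C hC
        rw [inv_inv]
        exact ⟨(hx C hC).2, (hx C hC).1⟩ }
  have hK : (⨆ A ∈ S, A) ≤ K := by
    apply iSup₂_le
    intro E hE e he C hC
    exact ⟨h C hC E hE e he, h C hC E hE e⁻¹ (E.inv_mem he)⟩
  intro C hC g
  have hg : g ∈ K := hK (by rw [hgen]; trivial)
  exact (hg C hC).1

theorem sup_conj_eq {C E : Subgroup G} (h : RootCommutatorCase S C E) {e : G} (he : e ∈ E) (he1 : e ≠ 1) :
    C ⊔ conjBy C e = C ⊔ ⁅C, E⁆ := by
  apply le_antisymm
  · exact sup_le le_sup_left (Cfsg.Agent.S5029.conj_le he)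
  · apply sup_le le_sup_left
    rw [← h.2.2.2 e he he1, Subgroup.closure_le]
    rintro _ ⟨c, hc, rfl⟩
    have e1 : c * e * c⁻¹ * e⁻¹ = c * (e * c⁻¹ * e⁻¹) := by group
    change c * e * c⁻¹ * e⁻¹ ∈ C ⊔ conjBy C e
    rw [e1]
    exact Subgroup.mul_mem _ (Subgroup.mem_sup_left hc)
      (Subgroup.mem_sup_right (conj_mem_conjBy (C.inv_mem hc) e))

theorem conj_mem_linePartners (hS : IsRootSubgroupSet S) {C D E : Subgroup G} (hC : C ∈ S) (hD : D ∈ S)
    (hCD : IsRankOnePair C D) (h : RootCommutatorCase S C E) {e : G} (he : e ∈ E) (hne : conjBy C e ≠ C) :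
    conjBy C e ∈ linePartners S C := by
  have he1 : e ≠ 1 := by
    rintro rfl
    exact hne (conjBy_one C)
  refine ⟨⟨hS.conj_mem C hC e, hne, ?_⟩, ?_⟩
  · apply commutator_eq_bot_of_commute
    intro a ha b hb
    have hb' := Cfsg.Agent.S5029.conj_le (A := C) (B := E) he hb
    obtain ⟨c, hc, f, hf, rfl⟩ := (mem_sup_of_commute (Cfsg.Agent.S5029.comm_left h)).mp hb'
    have h1 : a * c = c * a := comm_of_isMulCommutative (hS.commutative C hC) ha hc
    have h2 : a * f = f * a := Cfsg.Agent.S5029.comm_left h a ha f hf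
    rw [← mul_assoc, h1, mul_assoc, h2, mul_assoc]
  · rw [sup_conj_eq h he he1]
    exact Cfsg.Agent.S5029.partition hS hC hD hCD h

end RootSub

end Cfsg.Agent.Lib.Helper25
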