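import Mathlib
import Cfsg.Prelude.Def_RootSubgroups
import Cfsg.Agent.Lib.Helper25.RootSub4
import Cfsg.Agent.S5025

set_option autoImplicit false
open Cfsg
open scoped commutatorElement

namespace Cfsg.Agent.Lib.Helper25

variable {G : Type*} [Group G]

namespace RootSub

variable {S : Set (Subgroup G)}

/-- non-identity elements of a partitioned subgroup are root elements. -/
theorem mem_rootElements_of_partition {M : Subgroup G} (hM : IsSubgroupPartition M (membersIn S M)) {x : G}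
    (hx : x ∈ M) (hx1 : x ≠ 1) : x ∈ rootElements S := by
  obtain ⟨E, hE, hxE⟩ := hM.2.1 x hx hx1
  exact ⟨hx1, E, hE.1, hxE⟩

theorem mul_ne_one_of_inf_eq_bot {A E : Subgroup G} (h : A ⊓ E = ⊥) {a e : G} (ha : a ∈ A) (he : e ∈ E)
    (ha1 : a ≠ 1) : e * a ≠ 1 := by
  intro h1
  have h2 : a = e⁻¹ := eq_inv_of_mul_eq_one_right h1
  have h3 : a ∈ A ⊓ E := ⟨ha, by rw [h2]; exact E.inv_mem he⟩
  rw [h, Subgroup.mem_bot] at h3
  exact ha1 h3

/-- L1: a point of a line through `A` different from `A` does not commute with a rank one partner of `A`. -/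
theorem not_commute_of_line (hS : IsRootSubgroupSet S) {M A B E : Subgroup G}
    (hM : IsSubgroupPartition M (membersIn S M)) (hMc : ∀ x ∈ M, ∀ y ∈ M, x * y = y * x)
    (hA : A ∈ membersIn S M) (hB : B ∈ S) (hAB : IsRankOnePair A B) (hE : E ∈ membersIn S M) (hne : E ≠ A) :
    ⁅E, B⁆ ≠ ⊥ := by
  intro hc
  obtain ⟨e, he, he1⟩ := exists_ne_one_of_ne_bot (hS.ne_bot E hE.1)
  obtain ⟨a, ha, ha1⟩ := exists_ne_one_of_ne_bot (hS.ne_bot A hA.1)
  have hz : e ∈ Subgroup.centralizer ((A ⊔ B : Subgroup G) : Set G) :=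
    mem_centralizer_sup (fun a' ha' => hMc e (hE.2 he) a' (hA.2 ha'))
      (fun b hb => commute_of_commutator_eq_bot hc he hb)
  apply Cfsg.Agent.S5025.result hS hA.1 ⟨hB, hAB⟩ hz he1 a ha ha1
  apply mem_rootElements_of_partition hM (M.mul_mem (hE.2 he) (hA.2 ha))
  exact mul_ne_one_of_inf_eq_bot (hM.2.2 A hA E hE hne.symm) ha he ha1

/-- L2: on a line through `A` there is a point in the commutator case with a given rank one partner of `A`. -/
theorem exists_point (hS : IsRootSubgroupSet S) {M A B C : Subgroup G}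
    (hM : IsSubgroupPartition M (membersIn S M)) (hMc : ∀ x ∈ M, ∀ y ∈ M, x * y = y * x)
    (hA : A ∈ membersIn S M) (hB : B ∈ S) (hAB : IsRankOnePair A B) (hC : C ∈ membersIn S M) (hne : C ≠ A) :
    ∃ E ∈ membersIn S M, RootCommutatorCase S B E := by
  by_contra hcon
  push Not at hcon
  have hr : ∀ E ∈ membersIn S M, IsRankOnePair E B := by
    intro E hE
    by_cases hEA : E = A
    · rw [hEA]; exact hAB
    rcases hS.pair E hE.1 B hB with h1 | h1 | h1
    · exact absurd h1 (not_commute_of_line hS hM hMc hA hB hAB hE hEA)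
    · exact h1
    · exact absurd (commCase_symm h1) (hcon E hE)
  obtain ⟨b, hb, hb1⟩ := RankOne.exists_ne_one_right hAB
  obtain ⟨a, ha, ha1, hab⟩ := RankOne.cond_right' hAB hb hb1
  obtain ⟨c, hc, hc1, hcb⟩ := RankOne.cond_right' (hr C hC) hb hb1
  have hinf : A ⊓ C = ⊥ := hM.2.2 A hA C hC hne.symm
  have he1 : a⁻¹ * c ≠ 1 := by
    intro h
    have h2 : c = a := by
      have := eq_inv_of_mul_eq_one_right h
      simpa using this
    have h3 : a ∈ A ⊓ C := ⟨ha, h2 ▸ hc⟩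
    rw [hinf, Subgroup.mem_bot] at h3
    exact ha1 h3
  have heM : a⁻¹ * c ∈ M := M.mul_mem (M.inv_mem (hA.2 ha)) (hC.2 hc)
  obtain ⟨E, hE, heE⟩ := hM.2.1 _ heM he1
  have hEB := hr E hE
  have hne2 : conjBy B (a⁻¹ * c) ≠ B := fun h => he1 (RankOne.eq_one_of_normalizes hEB heE h)
  have hp : IsRankOnePair (conjBy B (a⁻¹ * c)) B :=
    RankOne.pair_of_mem hEB
      (RankOne.conj_mem_unipotent (RankOne.right_mem_unipotent hEB) (Subgroup.mem_sup_left heE))
      (RankOne.right_mem_unipotent hEB) hne2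
  -- but they commute
  have hcomm : ∀ x ∈ conjBy B c, ∀ y ∈ conjBy B a, x * y = y * x := by
    rw [hab, hcb]
    intro x hx y hy
    rw [mem_conjBy] at hx hy
    have := hMc _ (hC.2 hx) _ (hA.2 hy)
    have e1 : x * y = b * ((b⁻¹ * x * b) * (b⁻¹ * y * b)) * b⁻¹ := by group
    have e2 : y * x = b * ((b⁻¹ * y * b) * (b⁻¹ * x * b)) * b⁻¹ := by group
    rw [e1, e2, this]
  have h4 : (a⁻¹ * c) * b * (a⁻¹ * c)⁻¹ ∈ conjBy B (a⁻¹ * c) := conj_mem_conjBy hb _
  have h5 : (a⁻¹ * c) * b * (a⁻¹ * c)⁻¹ ≠ 1 := by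
    intro h
    apply hb1
    have : b = (a⁻¹ * c)⁻¹ * ((a⁻¹ * c) * b * (a⁻¹ * c)⁻¹) * (a⁻¹ * c) := by group
    rw [this, h]; group
  apply RankOne.not_commute hp h4 h5 hb hb1
  have h6 := hcomm (c * b * c⁻¹) (conj_mem_conjBy hb c) (a * b * a⁻¹) (conj_mem_conjBy hb a)
  have e1 : (a⁻¹ * c) * b * (a⁻¹ * c)⁻¹ * b = a⁻¹ * ((c * b * c⁻¹) * (a * b * a⁻¹)) * a := by group
  have e2 : b * ((a⁻¹ * c) * b * (a⁻¹ * c)⁻¹) = a⁻¹ * ((a * b * a⁻¹) * (c * b * c⁻¹)) * a := by group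
  rw [e1, e2, h6]

/-- the rank one case and the commutator case exclude one another. -/
theorem not_commCase_of_rankOne {A B : Subgroup G} (h1 : IsRankOnePair A B) : ¬ RootCommutatorCase S A B := by
  intro hγ
  obtain ⟨a, ha, ha1⟩ := RankOne.exists_ne_one_left h1
  obtain ⟨b, hb, hb1⟩ := RankOne.exists_ne_one_right h1
  have hcomm := hγ.2.1 ⁅a, b⁆ (Subgroup.commutator_mem_commutator ha hb) a (Subgroup.mem_sup_left ha)
  have hA' : conjBy A b ∈ unipotentSubgroups A B :=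
    RankOne.conj_mem_unipotent (RankOne.left_mem_unipotent A B) (Subgroup.mem_sup_right hb)
  have hne : A ≠ conjBy A b := fun he => hb1 (RankOne.eq_one_of_normalizes (RankOne.symm h1) hb he.symm)
  have hp := RankOne.pair_of_mem h1 (RankOne.left_mem_unipotent A B) hA' hne
  have hmem : b * a⁻¹ * b⁻¹ ∈ conjBy A b := conj_mem_conjBy (A.inv_mem ha) b
  have hne1 : b * a⁻¹ * b⁻¹ ≠ 1 := by
    intro h0
    apply ha1
    have : a⁻¹ = b⁻¹ * (b * a⁻¹ * b⁻¹) * b := by group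
    rw [h0] at this
    simpa using this
  apply RankOne.not_commute hp ha ha1 hmem hne1
  rw [commutatorElement_def] at hcomm
  have e1 : a * (b * a⁻¹ * b⁻¹) = a * b * a⁻¹ * b⁻¹ := by group
  have e2 : b * a⁻¹ * b⁻¹ * a = a⁻¹ * (a * b * a⁻¹ * b⁻¹ * a) := by group
  rw [e1, e2, hcomm]; group

/-- auxiliary computation: with `conjBy B a = conjBy A b` and `e` commuting with `A`, the element
`a⁻¹ * (b * e * b⁻¹) * a` commutes with `B`. -/
theorem aux_commute {A B : Subgroup G} {a b e : G} (hab : conjBy B a = conjBy A b)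
    (he : ∀ a' ∈ A, e * a' = a' * e) : ∀ b' ∈ B, Commute (a⁻¹ * (b * e * b⁻¹) * a) b' := by
  intro b' hb'
  have h1 : a * b' * a⁻¹ ∈ conjBy A b := hab ▸ conj_mem_conjBy hb' a
  rw [mem_conjBy] at h1
  have h2 := he _ h1
  change a⁻¹ * (b * e * b⁻¹) * a * b' = b' * (a⁻¹ * (b * e * b⁻¹) * a)
  have e1 : a⁻¹ * (b * e * b⁻¹) * a * b' = a⁻¹ * b * (e * (b⁻¹ * (a * b' * a⁻¹) * b)) * b⁻¹ * a := by group
  have e2 : b' * (a⁻¹ * (b * e * b⁻¹) * a) = a⁻¹ * b * ((b⁻¹ * (a * b' * a⁻¹) * b) * e) * b⁻¹ * a := by group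
  rw [e1, e2, h2]

/-- L★ : if `(A, B)` is a rank one pair, `E` a point of a line through `A` with `(B, E)` in the commutator case,
then `(A, ⁅B, E⁆)` is in the commutator case and `⁅A, ⁅B, E⁆⁆ = E`. -/
theorem comm_of_line (hS : IsRootSubgroupSet S) {M A B E : Subgroup G}
    (hM : IsSubgroupPartition M (membersIn S M)) (hMc : ∀ x ∈ M, ∀ y ∈ M, x * y = y * x)
    (hA : A ∈ membersIn S M) (hB : B ∈ S) (hAB : IsRankOnePair A B) (hE : E ∈ membersIn S M)
    (hγ : RootCommutatorCase S B E) :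
    RootCommutatorCase S A ⁅B, E⁆ ∧ ⁅A, ⁅B, E⁆⁆ = E := by
  have hEA : E ≠ A := by
    rintro rfl
    exact not_commCase_of_rankOne hAB (commCase_symm hγ)
  have hinf : A ⊓ E = ⊥ := hM.2.2 A hA E hE hEA.symm
  have hF : ⁅B, E⁆ ∈ S := hγ.1
  have hFB : ∀ f ∈ ⁅B, E⁆, ∀ b ∈ B, f * b = b * f := fun f hf b hb => hγ.2.1 f hf b (Subgroup.mem_sup_left hb)
  have hFE : ∀ f ∈ ⁅B, E⁆, ∀ e ∈ E, f * e = e * f := fun f hf e he => hγ.2.1 f hf e (Subgroup.mem_sup_right he)
  have hEAc : ∀ e ∈ E, ∀ a ∈ A, e * a = a * e := fun e he a ha => hMc e (hE.2 he) a (hA.2 ha)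
  obtain ⟨b, hb, hb1⟩ := RankOne.exists_ne_one_right hAB
  obtain ⟨a, ha, ha1, hab⟩ := RankOne.cond_right' hAB hb hb1
  obtain ⟨e₀, he₀, he₀1⟩ := exists_ne_one_of_ne_bot (hS.ne_bot E hE.1)
  have hγ' : RootCommutatorCase S A ⁅B, E⁆ := by
    rcases hS.pair A hA.1 _ hF with h1 | h1 | h1
    · exfalso
      apply he₀1
      have hf : ⁅b, e₀⁆ ∈ ⁅B, E⁆ := Subgroup.commutator_mem_commutator hb he₀
      have h2 := aux_commute hab (hEAc e₀ he₀) b hb
      have e1 : a⁻¹ * (b * e₀ * b⁻¹) * a = ⁅b, e₀⁆ * e₀ := by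
        have e2 : b * e₀ * b⁻¹ = ⁅b, e₀⁆ * e₀ := by rw [commutatorElement_def]; group
        rw [e2]
        have c1 : a * ⁅b, e₀⁆ = ⁅b, e₀⁆ * a := commute_of_commutator_eq_bot h1 ha hf
        have c2 : e₀ * a = a * e₀ := hEAc e₀ he₀ a ha
        rw [mul_assoc, mul_assoc, c2, ← mul_assoc ⁅b, e₀⁆, ← c1]; group
      rw [e1] at h2
      have h3 : Commute ⁅b, e₀⁆ b := hFB _ hf b hb
      have h4 : Commute e₀ b := by
        have := Commute.mul_left h3.inv_left h2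
        rwa [inv_mul_cancel_left] at this
      exact centralizer_trivial hS hB hA.1 (RankOne.symm hAB) hγ hb hb1 he₀ h4.symm.eq
    · exfalso
      have hz : e₀ ∈ Subgroup.centralizer ((A ⊔ ⁅B, E⁆ : Subgroup G) : Set G) :=
        mem_centralizer_sup (hEAc e₀ he₀) (fun f hf => (hFE f hf e₀ he₀).symm)
      apply Cfsg.Agent.S5025.result hS hA.1 ⟨hF, h1⟩ hz he₀1 a ha ha1
      apply mem_rootElements_of_partition hM (M.mul_mem (hE.2 he₀) (hA.2 ha))
      exact mul_ne_one_of_inf_eq_bot hinf ha he₀ ha1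
    · exact h1
  refine ⟨hγ', ?_⟩
  symm
  apply Cfsg.Agent.S5029.eq_of_le_commutator hS hA.1 hB hAB hγ' hE.1
  intro e he
  by_cases he1 : e = 1
  · rw [he1]; exact Subgroup.one_mem _
  have hf : ⁅b, e⁆ ∈ ⁅B, E⁆ := Subgroup.commutator_mem_commutator hb he
  have he₁ : ⁅a⁻¹, ⁅b, e⁆⁆ ∈ ⁅A, ⁅B, E⁆⁆ := Subgroup.commutator_mem_commutator (A.inv_mem ha) hf
  set f := ⁅b, e⁆ with hfdef
  set e₁ := ⁅a⁻¹, f⁆ with he₁def
  have hc1 : e₁ * f = f * e₁ := hγ'.2.1 e₁ he₁ f (Subgroup.mem_sup_right hf)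
  have hzB : ∀ b' ∈ B, Commute (e₁ * e) b' := by
    intro b' hb'
    have h2 := aux_commute hab (hEAc e he) b' hb'
    have e1 : a⁻¹ * (b * e * b⁻¹) * a = f * (e₁ * e) := by
      have e2 : b * e * b⁻¹ = f * e := by rw [hfdef, commutatorElement_def]; group
      have c2 : e * a = a * e := hEAc e he a ha
      rw [e2, ← mul_assoc f, ← hc1, mul_assoc, mul_assoc, c2, he₁def, commutatorElement_def]; group
    rw [e1] at h2
    have h3 : Commute f b' := hFB _ hf b' hb'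
    have := Commute.mul_left h3.inv_left h2
    rwa [inv_mul_cancel_left] at this
  have hzA : ∀ a' ∈ A, (e₁ * e) * a' = a' * (e₁ * e) := by
    intro a' ha'
    have c1 : e₁ * a' = a' * e₁ := hγ'.2.1 e₁ he₁ a' (Subgroup.mem_sup_left ha')
    rw [mul_assoc, hEAc e he a' ha', ← mul_assoc, c1, mul_assoc]
  by_cases hz1 : e₁ * e = 1
  · have : e = e₁⁻¹ := eq_inv_of_mul_eq_one_right hz1
    rw [this]; exact Subgroup.inv_mem _ he₁
  exfalso
  have hz : e₁ * e ∈ Subgroup.centralizer ((A ⊔ B : Subgroup G) : Set G) :=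
    mem_centralizer_sup hzA (fun b' hb' => (hzB b' hb').eq)
  apply Cfsg.Agent.S5025.result hS hA.1 ⟨hB, hAB⟩ hz hz1 a ha ha1
  -- the point `E₂` through `e * a`
  have hea1 : e * a ≠ 1 := mul_ne_one_of_inf_eq_bot hinf ha he ha1
  obtain ⟨E₂, hE₂, heaE₂⟩ := hM.2.1 (e * a) (M.mul_mem (hE.2 he) (hA.2 ha)) hea1
  have hE₂B : IsRankOnePair E₂ B :=
    rankOne_of_line hS hB hE₂.1 hAB (fun a' ha' e' he' => (hEAc e' he' a' ha').symm) hγ ha ha1 he
      (by rw [← hEAc e he a ha]; exact heaE₂)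
  have hγ₂ : RootCommutatorCase S E₂ ⁅B, E⁆ := by
    rcases hS.pair E₂ hE₂.1 _ hF with h1 | h1 | h1
    · exfalso
      obtain ⟨f', hf', hf'1⟩ := exists_ne_one_of_ne_bot (hS.ne_bot _ hF)
      apply hf'1
      have c1 : Commute (e * a) f' := commute_of_commutator_eq_bot h1 heaE₂ hf'
      have c2 : Commute e f' := (hFE f' hf' e he).symm
      have c3 : Commute a f' := by
        have := Commute.mul_left c2.inv_left c1
        simpa using this
      exact centralizer_trivial hS hA.1 hB hAB hγ' ha ha1 hf' c3.eq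
    · exfalso
      have hz' : e ∈ Subgroup.centralizer ((E₂ ⊔ ⁅B, E⁆ : Subgroup G) : Set G) :=
        mem_centralizer_sup (fun x hx => hMc e (hE.2 he) x (hE₂.2 hx)) (fun f' hf' => (hFE f' hf' e he).symm)
      apply Cfsg.Agent.S5025.result hS hE₂.1 ⟨hF, h1⟩ hz' he1 (e * a) heaE₂ hea1
      apply mem_rootElements_of_partition hM (M.mul_mem (hE.2 he) (M.mul_mem (hE.2 he) (hA.2 ha)))
      rw [← mul_assoc]
      exact mul_ne_one_of_inf_eq_bot hinf ha (E.mul_mem he he) ha1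
    · exact h1
  have hle : ⁅E₂, ⁅B, E⁆⁆ ≤ ⁅A, ⁅B, E⁆⁆ := by
    rw [← hγ₂.2.2.1 (e * a) heaE₂ hea1, Subgroup.closure_le]
    rintro _ ⟨f', hf', rfl⟩
    have c2 : f' * e = e * f' := hFE f' hf' e he
    have e1 : e * a * f' * (e * a)⁻¹ * f'⁻¹ = ⁅a, f'⁆ := by
      have c3 : e * a = a * e := hEAc e he a ha
      rw [commutatorElement_def, c3, mul_inv_rev, mul_assoc a e f', ← c2]; group
    change e * a * f' * (e * a)⁻¹ * f'⁻¹ ∈ ⁅A, ⁅B, E⁆⁆
    rw [e1]
    exact Subgroup.commutator_mem_commutator ha hf'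
  have heq : ⁅E₂, ⁅B, E⁆⁆ = ⁅A, ⁅B, E⁆⁆ :=
    Cfsg.Agent.S5029.eq_of_le_commutator hS hA.1 hB hAB hγ' hγ₂.1 hle
  have hpart := Cfsg.Agent.S5029.partition hS hE₂.1 hB hE₂B hγ₂
  apply mem_rootElements_of_partition hpart
  · rw [mul_assoc]
    exact Subgroup.mul_mem _ (Subgroup.mem_sup_right (heq ▸ he₁)) (Subgroup.mem_sup_left heaE₂)
  · intro h
    apply ha1
    have h2 : a = (e₁ * e)⁻¹ := eq_inv_of_mul_eq_one_right h
    apply RankOne.eq_one_of_normalizes hAB ha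
    apply conjBy_of_centralizes
    intro b' hb'
    rw [h2]
    exact ((hzB b' hb').inv_left).eq

theorem sup_comm_of_commute (hS : IsRootSubgroupSet S) {A C : Subgroup G} (hA : A ∈ S) (hC : C ∈ S)
    (hAC : ⁅A, C⁆ = ⊥) : ∀ x ∈ A ⊔ C, ∀ y ∈ A ⊔ C, x * y = y * x := by
  have hc : ∀ a ∈ A, ∀ c ∈ C, a * c = c * a := fun a ha c hc => commute_of_commutator_eq_bot hAC ha hc
  intro x hx y hy
  obtain ⟨a, ha, c, hc', rfl⟩ := (mem_sup_of_commute hc).mp hx
  obtain ⟨a', ha', c', hc'', rfl⟩ := (mem_sup_of_commute hc).mp hy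
  have h1 : Commute a a' := comm_of_isMulCommutative (hS.commutative A hA) ha ha'
  have h2 : Commute c c' := comm_of_isMulCommutative (hS.commutative C hC) hc' hc''
  have h3 : Commute a c' := hc a ha c' hc''
  have h4 : Commute c a' := (hc a' ha' c hc').symm
  exact ((h1.mul_right h3).mul_left (h4.mul_right h2)).eq

/-- L4: the structure of a line through `A` relative to a rank one partner `B` of `A`. -/
theorem line_structure (hS : IsRootSubgroupSet S) {A B C : Subgroup G} (hA : A ∈ S) (hB : B ∈ S)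
    (hAB : IsRankOnePair A B) (hC : C ∈ linePartners S A) :
    ∃ E ∈ S, RootCommutatorCase S B E ∧ RootCommutatorCase S A ⁅B, E⁆ ∧ ⁅A, ⁅B, E⁆⁆ = E ∧ A ⊔ E = A ⊔ C := by
  obtain ⟨⟨hCS, hCA, hcomm⟩, hM⟩ := hC
  have hMc := sup_comm_of_commute hS hA hCS hcomm
  have hAM : A ∈ membersIn S (A ⊔ C) := ⟨hA, le_sup_left⟩
  have hCM : C ∈ membersIn S (A ⊔ C) := ⟨hCS, le_sup_right⟩
  obtain ⟨E, hE, hγ⟩ := exists_point hS hM hMc hAM hB hAB hCM hCA
  obtain ⟨hγ', heq⟩ := comm_of_line hS hM hMc hAM hB hAB hE hγ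
  refine ⟨E, hE.1, hγ, hγ', heq, ?_⟩
  apply le_antisymm (sup_le le_sup_left hE.2)
  apply sup_le le_sup_left
  have hEA : E ≠ A := by
    rintro rfl
    exact not_commCase_of_rankOne hAB (commCase_symm hγ)
  have hinf : A ⊓ E = ⊥ := hM.2.2 A hAM E hE hEA.symm
  obtain ⟨e, he, he1⟩ := exists_ne_one_of_ne_bot (hS.ne_bot E hE.1)
  obtain ⟨a, ha, c, hc, hac⟩ :=
    (mem_sup_of_commute (fun a ha c hc => commute_of_commutator_eq_bot hcomm ha hc)).mp (hE.2 he)
  have hc1 : c ≠ 1 := by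
    rintro rfl
    rw [mul_one] at hac
    have h3 : e ∈ A ⊓ E := ⟨hac ▸ ha, he⟩
    rw [hinf, Subgroup.mem_bot] at h3
    exact he1 h3
  have hcm : c ∈ A ⊔ E := by
    have : c = a⁻¹ * e := by rw [← hac]; group
    rw [this]
    exact Subgroup.mul_mem _ (Subgroup.mem_sup_left (A.inv_mem ha)) (Subgroup.mem_sup_right he)
  have hpart := Cfsg.Agent.S5029.partition hS hA hB hAB hγ'
  rw [heq] at hpart
  obtain ⟨E', hE', hcE'⟩ := hpart.2.1 c hcm hc1
  have hE'M : E' ∈ membersIn S (A ⊔ C) := ⟨hE'.1, hE'.2.trans (sup_le le_sup_left hE.2)⟩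
  have : C = E' := by
    by_contra hne
    have h3 : c ∈ C ⊓ E' := ⟨hc, hcE'⟩
    rw [hM.2.2 C hCM E' hE'M hne, Subgroup.mem_bot] at h3
    exact hc1 h3
  rw [this]; exact hE'.2

theorem linePartner_of_mem (hS : IsRootSubgroupSet S) {A B C E' : Subgroup G} (hA : A ∈ S) (hB : B ∈ S)
    (hAB : IsRankOnePair A B) (hC : C ∈ linePartners S A) (hE' : E' ∈ membersIn S (A ⊔ C)) (hne : E' ≠ A) :
    E' ∈ linePartners S A ∧ A ⊔ E' = A ⊔ C := by
  obtain ⟨E, hE, hγ, hγ', heq, hsup⟩ := line_structure hS hA hB hAB hC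
  have hMc := sup_comm_of_commute hS hA hC.1.1 hC.1.2.2
  have h2 : A ⊔ E' = A ⊔ C := by
    have hm := Cfsg.Agent.S5029.members hS hA hB hAB hγ'
    rw [heq, hsup] at hm
    rw [hm] at hE'
    rcases hE' with ⟨f, hf, rfl⟩ | h
    · have hf1 : f ≠ 1 := by
        rintro rfl
        exact hne (conjBy_one A)
      change A ⊔ conjBy A f = A ⊔ C
      rw [sup_conj_eq hγ' hf hf1, heq, hsup]
    · rw [Set.mem_singleton_iff.mp h, hsup]
  refine ⟨⟨⟨hE'.1, hne, ?_⟩, ?_⟩, h2⟩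
  · apply commutator_eq_bot_of_commute
    intro a ha e he
    exact hMc a (Subgroup.mem_sup_left ha) e (hE'.2 he)
  · rw [h2]; exact hC.2

theorem membersIn_conj (hS : IsRootSubgroupSet S) (M : Subgroup G) (g : G) {E : Subgroup G} :
    E ∈ membersIn S (conjBy M g) ↔ conjBy E g⁻¹ ∈ membersIn S M := by
  constructor
  · rintro ⟨h1, h2⟩
    refine ⟨hS.conj_mem E h1 _, ?_⟩
    have := conjBy_mono h2 g⁻¹
    rwa [conjBy_inv_conjBy] at this
  · rintro ⟨h1, h2⟩
    constructor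
    · have := hS.conj_mem _ h1 g
      rwa [conjBy_conjBy_inv] at this
    · have := conjBy_mono h2 g
      rwa [conjBy_conjBy_inv] at this

theorem partition_conj (hS : IsRootSubgroupSet S) {M : Subgroup G} (hM : IsSubgroupPartition M (membersIn S M))
    (g : G) : IsSubgroupPartition (conjBy M g) (membersIn S (conjBy M g)) := by
  refine ⟨fun C hC => hC.2, ?_, ?_⟩
  · intro x hx hx1
    rw [mem_conjBy] at hx
    have hx1' : g⁻¹ * x * g ≠ 1 := by
      intro h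
      apply hx1
      have : x = g * (g⁻¹ * x * g) * g⁻¹ := by group
      rw [this, h]; group
    obtain ⟨E, hE, hxE⟩ := hM.2.1 _ hx hx1'
    refine ⟨conjBy E g, (membersIn_conj hS M g).mpr (by rw [conjBy_inv_conjBy]; exact hE), ?_⟩
    rw [mem_conjBy]; exact hxE
  · intro C hC D hD hCD
    have h1 := (membersIn_conj hS M g).mp hC
    have h2 := (membersIn_conj hS M g).mp hD
    have h3 := hM.2.2 _ h1 _ h2 (fun h => hCD (conjBy_inj.mp h))
    rw [← conjBy_inf, conjBy_eq_bot_iff] at h3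
    exact h3

theorem linePartners_conj (hS : IsRootSubgroupSet S) {A C : Subgroup G} (hC : C ∈ linePartners S A) (g : G) :
    conjBy C g ∈ linePartners S (conjBy A g) := by
  obtain ⟨⟨h1, h2, h3⟩, h4⟩ := hC
  refine ⟨⟨hS.conj_mem C h1 g, fun h => h2 (conjBy_inj.mp h), ?_⟩, ?_⟩
  · rw [← conjBy_commutator, h3, conjBy_bot]
  · rw [← conjBy_sup]; exact partition_conj hS h4 g

theorem commCase_conj (hS : IsRootSubgroupSet S) {A B : Subgroup G} (hA : A ∈ S) (hB : B ∈ S)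
    (h : RootCommutatorCase S A B) (g : G) : RootCommutatorCase S (conjBy A g) (conjBy B g) := by
  apply commCase_of_mem hS (hS.conj_mem A hA g) (hS.conj_mem B hB g)
  rw [← conjBy_commutator]
  exact hS.conj_mem _ h.1 g

/-- in a class containing a rank one pair every member has a rank one partner. -/
theorem partner_of_class (hS : IsRootSubgroupClass S) (h : ∃ A ∈ S, ∃ B ∈ S, IsRankOnePair A B) :
    ∀ C ∈ S, ∃ D ∈ S, IsRankOnePair C D := by
  obtain ⟨A, hA, B, hB, hAB⟩ := h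
  intro C hC
  obtain ⟨g, rfl⟩ := hS.2.2 A hA C hC
  exact ⟨conjBy B g, hS.1.conj_mem B hB g, RankOne.conj hAB g⟩

theorem not_isolated_of_partner {A D : Subgroup G} (hA : A ∈ S) (hD : D ∈ S) (hAD : IsRankOnePair A D) :
    ¬ IsIsolatedIn (FAdj S) S A := fun h => (h.2 D).1 ⟨hA, hD, hAD⟩

/-- in the commutator case (with a rank one partner for `A`) `A` and `⁅A, B⁆` are line partners. -/
theorem commutator_mem_linePartners (hS : IsRootSubgroupSet S) {A B D : Subgroup G} (hA : A ∈ S) (hD : D ∈ S)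
    (hAD : IsRankOnePair A D) (h : RootCommutatorCase S A B) : ⁅A, B⁆ ∈ linePartners S A := by
  refine ⟨⟨h.1, (ne_commutator hS h).symm, ?_⟩, Cfsg.Agent.S5029.partition hS hA hD hAD h⟩
  apply commutator_eq_bot_of_commute
  intro a ha c hc
  exact Cfsg.Agent.S5029.comm_left h a ha c hc

/-- in a non-degenerate class every member has a line partner. -/
theorem exists_linePartner (hS : IsRootSubgroupClass S) (hnd : IsNondegenerateRootSet S) {A : Subgroup G}
    (hA : A ∈ S) : ∃ C, C ∈ linePartners S A := by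
  obtain ⟨P, hP, Q, hQ, hγ⟩ := hnd.2.2
  obtain ⟨D, hD, hPD⟩ := partner_of_class hS hnd.2.1 P hP
  obtain ⟨g, rfl⟩ := hS.2.2 P hP A hA
  exact ⟨_, linePartners_conj hS.1 (commutator_mem_linePartners hS.1 hP hD hPD hγ) g⟩

end RootSub

end Cfsg.Agent.Lib.Helper25
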