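import Mathlib
import Cfsg.Prelude.Def_RootSubgroups
import Cfsg.Agent.Lib.Helper25.RootSub5

set_option autoImplicit false
open Cfsg
open scoped commutatorElement

namespace Cfsg.Agent.Lib.Helper25

variable {G : Type*} [Group G]

theorem conjBy_eq_of_le {M : Subgroup G} {f : G} (h1 : conjBy M f ≤ M) (h2 : conjBy M f⁻¹ ≤ M) : conjBy M f = M := by
  apply le_antisymm h1
  have := conjBy_mono h2 f
  rwa [conjBy_conjBy_inv] at this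

namespace RootSub

variable {S : Set (Subgroup G)}

theorem normalizes_line {Q F : Subgroup G} {f : G} (hf : f ∈ F) : conjBy (Q ⊔ ⁅Q, F⁆) f = Q ⊔ ⁅Q, F⁆ := by
  have aux : ∀ f ∈ F, conjBy (Q ⊔ ⁅Q, F⁆) f ≤ Q ⊔ ⁅Q, F⁆ := by
    intro f hf
    rw [conjBy_sup, conjBy_commutator_of_mem_sup Q F (Subgroup.mem_sup_right hf)]
    exact sup_le (Cfsg.Agent.S5029.conj_le hf) le_sup_right
  exact conjBy_eq_of_le (aux f hf) (aux _ (F.inv_mem hf))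

theorem trans_of_commCase (hS : IsRootSubgroupSet S) {Q F D X Y : Subgroup G} (hQ : Q ∈ S) (hD : D ∈ S)
    (hQD : IsRankOnePair Q D) (hγ : RootCommutatorCase S Q F) (hX : X ∈ membersIn S (Q ⊔ ⁅Q, F⁆))
    (hXne : X ≠ ⁅Q, F⁆) (hY : Y ∈ membersIn S (Q ⊔ ⁅Q, F⁆)) (hYne : Y ≠ ⁅Q, F⁆) : ∃ f ∈ F, conjBy X f = Y := by
  rw [Cfsg.Agent.S5029.members hS hQ hD hQD hγ] at hX hY
  rcases hX with ⟨f₁, hf₁, rfl⟩ | h
  · rcases hY with ⟨f₂, hf₂, rfl⟩ | h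
    · refine ⟨f₂ * f₁⁻¹, F.mul_mem hf₂ (F.inv_mem hf₁), ?_⟩
      change conjBy (conjBy Q f₁) (f₂ * f₁⁻¹) = conjBy Q f₂
      rw [conjBy_conjBy]; simp
    · exact absurd h hYne
  · exact absurd h hXne

/-- any two different points of a line generate it and are line partners. -/
theorem line_of_two_points (hS : IsRootSubgroupSet S) (hpart : ∀ C ∈ S, ∃ D ∈ S, IsRankOnePair C D)
    {A B P Q : Subgroup G} (hA : A ∈ S) (hB : B ∈ linePartners S A) (hP : P ∈ membersIn S (A ⊔ B))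
    (hQ : Q ∈ membersIn S (A ⊔ B)) (hne : P ≠ Q) : P ∈ linePartners S Q ∧ Q ⊔ P = A ⊔ B := by
  obtain ⟨D, hD, hAD⟩ := hpart A hA
  by_cases hQA : Q = A
  · subst hQA
    exact linePartner_of_mem hS hA hD hAD hB hP hne
  · obtain ⟨h1, h2⟩ := linePartner_of_mem hS hA hD hAD hB hQ hQA
    have h3 : A ∈ linePartners S Q := linePartners_symm hA h1
    obtain ⟨D', hD', hQD'⟩ := hpart Q hQ.1
    have h4 : Q ⊔ A = A ⊔ B := by rw [sup_comm]; exact h2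
    have := linePartner_of_mem hS hQ.1 hD' hQD' h3 (h4 ▸ hP) hne
    exact ⟨this.1, this.2.trans h4⟩

/-- for every point `Q` of a line there are another point `E` and `F ∈ S` with `⁅Q, F⁆ = E`. -/
theorem exists_transitive_aux (hS : IsRootSubgroupSet S) (hpart : ∀ C ∈ S, ∃ D ∈ S, IsRankOnePair C D)
    {Q P : Subgroup G} (hQ : Q ∈ S) (hP : P ∈ linePartners S Q) :
    ∃ F ∈ S, RootCommutatorCase S Q F ∧ Q ⊔ ⁅Q, F⁆ = Q ⊔ P := by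
  obtain ⟨D, hD, hQD⟩ := hpart Q hQ
  obtain ⟨E, hE, hγ, hγ', heq, hsup⟩ := line_structure hS hQ hD hQD hP
  exact ⟨⁅D, E⁆, hγ.1, hγ', by rw [heq, hsup]⟩

/-- for every point `P` of a line there are another point `Q` and `F ∈ S` with `⁅Q, F⁆ = P`. -/
theorem exists_transitive (hS : IsRootSubgroupSet S) (hpart : ∀ C ∈ S, ∃ D ∈ S, IsRankOnePair C D)
    {A B P : Subgroup G} (hA : A ∈ S) (hB : B ∈ linePartners S A) (hP : P ∈ membersIn S (A ⊔ B)) :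
    ∃ Q ∈ S, ∃ F ∈ S, RootCommutatorCase S Q F ∧ ⁅Q, F⁆ = P ∧ Q ⊔ P = A ⊔ B := by
  obtain ⟨F₀, hF₀, hγ₀, hsup₀⟩ := exists_transitive_aux hS hpart hA hB
  by_cases hP0 : P = ⁅A, F₀⁆
  · exact ⟨A, hA, F₀, hF₀, hγ₀, hP0.symm, by rw [hP0, hsup₀]⟩
  obtain ⟨D, hD, hAD⟩ := hpart A hA
  have hE₀ : ⁅A, F₀⁆ ∈ S := hγ₀.1
  have hA0 : A ∈ linePartners S ⁅A, F₀⁆ := linePartners_symm hA (commutator_mem_linePartners hS hA hD hAD hγ₀)
  obtain ⟨F₁, hF₁, hγ₁, hsup₁⟩ := exists_transitive_aux hS hpart hE₀ hA0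
  have hs : ⁅A, F₀⁆ ⊔ A = A ⊔ ⁅A, F₀⁆ := sup_comm _ _
  have hE₁ : ⁅⁅A, F₀⁆, F₁⁆ ∈ membersIn S (A ⊔ ⁅A, F₀⁆) := ⟨hγ₁.1, by rw [← hs, ← hsup₁]; exact le_sup_right⟩
  obtain ⟨f, hf, hfP⟩ := trans_of_commCase hS hA hD hAD hγ₀ hE₁ (ne_commutator hS hγ₁).symm
    (hsup₀ ▸ hP) hP0
  have hfix : conjBy ⁅A, F₀⁆ f = ⁅A, F₀⁆ := conjBy_commutator_of_mem_sup A F₀ (Subgroup.mem_sup_right hf)
  have hγ₂ := commCase_conj hS hE₀ hF₁ hγ₁ f
  rw [hfix] at hγ₂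
  have hc : ⁅⁅A, F₀⁆, conjBy F₁ f⁆ = P := by
    rw [← hfP, conjBy_commutator, hfix]
  refine ⟨⁅A, F₀⁆, hE₀, conjBy F₁ f, hS.conj_mem F₁ hF₁ f, hγ₂, hc, ?_⟩
  have h5 := congrArg (fun K => conjBy K f) hsup₁
  simp only [conjBy_sup, hfix, hfP] at h5
  rw [h5, ← hfix, ← conjBy_sup, hs, normalizes_line hf, hsup₀]

/-- a line has a third point. -/
theorem exists_third_point (hS : IsRootSubgroupSet S) {P Q : Subgroup G} (hQ : Q ∈ S) (hP : P ∈ linePartners S Q) :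
    ∃ T ∈ membersIn S (Q ⊔ P), T ≠ P ∧ T ≠ Q := by
  obtain ⟨⟨hPS, hPQ, hcomm⟩, hM⟩ := hP
  have hQM : Q ∈ membersIn S (Q ⊔ P) := ⟨hQ, le_sup_left⟩
  have hPM : P ∈ membersIn S (Q ⊔ P) := ⟨hPS, le_sup_right⟩
  have hinf : Q ⊓ P = ⊥ := hM.2.2 Q hQM P hPM hPQ.symm
  obtain ⟨q, hq, hq1⟩ := exists_ne_one_of_ne_bot (hS.ne_bot Q hQ)
  obtain ⟨p, hp, hp1⟩ := exists_ne_one_of_ne_bot (hS.ne_bot P hPS)
  have h1 : p * q ≠ 1 := mul_ne_one_of_inf_eq_bot hinf hq hp hq1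
  obtain ⟨T, hT, hpq⟩ := hM.2.1 (p * q) (Subgroup.mul_mem _ (Subgroup.mem_sup_right hp) (Subgroup.mem_sup_left hq)) h1
  refine ⟨T, hT, ?_, ?_⟩
  · rintro rfl
    have : q ∈ Q ⊓ T := ⟨hq, by
      have h2 := T.mul_mem (T.inv_mem hp) hpq
      rwa [inv_mul_cancel_left] at h2⟩
    rw [hinf, Subgroup.mem_bot] at this
    exact hq1 this
  · rintro rfl
    have : p ∈ T ⊓ P := ⟨by
      have h2 := T.mul_mem hpq (T.inv_mem hq)
      rwa [mul_inv_cancel_right] at h2, hp⟩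
    rw [hinf, Subgroup.mem_bot] at this
    exact hp1 this

end RootSub

end Cfsg.Agent.Lib.Helper25
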