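import Mathlib
import Cfsg.Prelude.Def_RootSubgroups
import Cfsg.Agent.Lib.Helper25.RootSub

set_option autoImplicit false
open Cfsg

namespace Cfsg.Agent.Lib.Helper25

variable {G : Type*} [Group G]

namespace Special

variable {A B : Subgroup G} {a b : G}

/-- the relation `b = b(a)`. -/
def Rel (A B : Subgroup G) (a b : G) : Prop :=
  a ∈ A ∧ a ≠ 1 ∧ b ∈ B ∧ b ≠ 1 ∧ conjBy A b⁻¹ = conjBy B a⁻¹

theorem Rel.symm (h : Rel A B a b) : Rel B A b a := ⟨h.2.2.1, h.2.2.2.1, h.1, h.2.1, h.2.2.2.2.symm⟩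

theorem exists_right (h : IsRankOnePair A B) (ha : a ∈ A) (ha1 : a ≠ 1) : ∃ b, Rel A B a b := by
  obtain ⟨b, hb, hb1, hab⟩ := h.cond_left a ha ha1
  exact ⟨b, ha, ha1, hb, hb1, hab⟩

theorem exists_left (h : IsRankOnePair A B) (hb : b ∈ B) (hb1 : b ≠ 1) : ∃ a, Rel A B a b := by
  obtain ⟨a, h1⟩ := exists_right (RankOne.symm h) hb hb1
  exact ⟨a, h1.symm⟩

theorem Rel.unique_right (h : IsRankOnePair A B) {b' : G} (h1 : Rel A B a b) (h2 : Rel A B a b') : b = b' := by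
  have := RankOne.conj_left_injOn h (B.inv_mem h1.2.2.1) (B.inv_mem h2.2.2.1)
    (h1.2.2.2.2.trans h2.2.2.2.2.symm)
  exact inv_injective this

theorem Rel.unique_left (h : IsRankOnePair A B) {a' : G} (h1 : Rel A B a b) (h2 : Rel A B a' b) : a = a' :=
  Rel.unique_right (RankOne.symm h) h1.symm h2.symm

theorem special_symm (hs : IsSpecialRankOnePair A B) : IsSpecialRankOnePair B A := by
  refine ⟨RankOne.symm hs.1, ?_⟩
  intro b hb hb1 a ha ha1 hab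
  have := hs.2 a ha ha1 b hb hb1 hab.symm
  have h2 := congrArg (fun x => x⁻¹) this
  simp only [mul_inv_rev, inv_inv] at h2
  rw [← mul_assoc, ← mul_assoc] at h2
  exact h2.symm

theorem Rel.eq (hs : IsSpecialRankOnePair A B) (h : Rel A B a b) : b⁻¹ * a * b = a⁻¹ * b⁻¹ * a :=
  hs.2 a h.1 h.2.1 b h.2.2.1 h.2.2.2.1 h.2.2.2.2

theorem braid_of_eq (h : b⁻¹ * a * b = a⁻¹ * b⁻¹ * a) : a * b⁻¹ * a = b⁻¹ * a * b⁻¹ := by
  have e : a * b⁻¹ * a = a * (b⁻¹ * a * b) * b⁻¹ := by group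
  rw [e, h]; group

theorem conj_a_of_eq (h : b⁻¹ * a * b = a⁻¹ * b⁻¹ * a) : (a * b⁻¹ * a) * a * (a * b⁻¹ * a)⁻¹ = b⁻¹ := by
  have e : (a * b⁻¹ * a) * a * (a * b⁻¹ * a)⁻¹ = a * (b⁻¹ * a * b) * a⁻¹ := by group
  rw [e, h]; group

theorem conj_a_of_eq' (h : b⁻¹ * a * b = a⁻¹ * b⁻¹ * a) : (a * b⁻¹ * a)⁻¹ * a * (a * b⁻¹ * a) = b⁻¹ := by
  have h2 := braid_of_eq h
  have e : (a * b⁻¹ * a)⁻¹ * a * (a * b⁻¹ * a) = a⁻¹ * b * (a * b⁻¹ * a) := by group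
  rw [e, h2]; group

theorem conj_aux {n x y : G} (h : n⁻¹ * x * n = y⁻¹) : n * y * n⁻¹ = x⁻¹ := by
  have : y = n⁻¹ * x⁻¹ * n := by rw [← inv_inv y, ← h]; group
  rw [this]; group

theorem conj_b_of_eq (h : b⁻¹ * a * b = a⁻¹ * b⁻¹ * a) : (a * b⁻¹ * a) * b * (a * b⁻¹ * a)⁻¹ = a⁻¹ :=
  conj_aux (conj_a_of_eq' h)

theorem conj_b_of_eq' (h : b⁻¹ * a * b = a⁻¹ * b⁻¹ * a) : (a * b⁻¹ * a)⁻¹ * b * (a * b⁻¹ * a) = a⁻¹ := by
  have h2 := conj_a_of_eq h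
  have := conj_aux (n := (a * b⁻¹ * a)⁻¹) (x := a) (y := b) (by rw [inv_inv]; exact h2)
  rwa [inv_inv] at this

/-- `n = a b⁻¹ a` maps `A` to `B` (conjugation `n A n⁻¹`). -/
theorem Rel.conjBy_A_n (hs : IsSpecialRankOnePair A B) (h : Rel A B a b) : conjBy A (a * b⁻¹ * a) = B := by
  have heq := h.eq hs
  have hn : a * b⁻¹ * a ∈ A ⊔ B :=
    Subgroup.mul_mem _ (Subgroup.mul_mem _ (Subgroup.mem_sup_left h.1) (Subgroup.mem_sup_right (B.inv_mem h.2.2.1)))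
      (Subgroup.mem_sup_left h.1)
  by_contra hne
  have h1 := RankOne.inf_eq_bot_of_mem hs.1
    (RankOne.conj_mem_unipotent (RankOne.left_mem_unipotent A B) hn) (RankOne.right_mem_unipotent hs.1) hne
  have h3 : (a * b⁻¹ * a) * a * (a * b⁻¹ * a)⁻¹ ∈ conjBy A (a * b⁻¹ * a) := conj_mem_conjBy h.1 _
  rw [conj_a_of_eq heq] at h3
  have h2 : b⁻¹ ∈ conjBy A (a * b⁻¹ * a) ⊓ B := ⟨h3, B.inv_mem h.2.2.1⟩
  rw [h1, Subgroup.mem_bot] at h2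
  exact h.2.2.2.1 (by simpa using h2)

theorem Rel.conjBy_A_n_inv (hs : IsSpecialRankOnePair A B) (h : Rel A B a b) : conjBy A (a * b⁻¹ * a)⁻¹ = B := by
  have heq := h.eq hs
  have hn : (a * b⁻¹ * a)⁻¹ ∈ A ⊔ B := Subgroup.inv_mem _
    (Subgroup.mul_mem _ (Subgroup.mul_mem _ (Subgroup.mem_sup_left h.1) (Subgroup.mem_sup_right (B.inv_mem h.2.2.1)))
      (Subgroup.mem_sup_left h.1))
  by_contra hne
  have h1 := RankOne.inf_eq_bot_of_mem hs.1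
    (RankOne.conj_mem_unipotent (RankOne.left_mem_unipotent A B) hn) (RankOne.right_mem_unipotent hs.1) hne
  have h3 : (a * b⁻¹ * a)⁻¹ * a * (a * b⁻¹ * a)⁻¹⁻¹ ∈ conjBy A (a * b⁻¹ * a)⁻¹ := conj_mem_conjBy h.1 _
  rw [inv_inv, conj_a_of_eq' heq] at h3
  have h2 : b⁻¹ ∈ conjBy A (a * b⁻¹ * a)⁻¹ ⊓ B := ⟨h3, B.inv_mem h.2.2.1⟩
  rw [h1, Subgroup.mem_bot] at h2
  exact h.2.2.2.1 (by simpa using h2)

theorem Rel.conjBy_B_n (hs : IsSpecialRankOnePair A B) (h : Rel A B a b) : conjBy B (a * b⁻¹ * a) = A := by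
  rw [← h.conjBy_A_n_inv hs, conjBy_conjBy_inv]

theorem Rel.conjBy_B_n_inv (hs : IsSpecialRankOnePair A B) (h : Rel A B a b) : conjBy B (a * b⁻¹ * a)⁻¹ = A := by
  rw [← h.conjBy_A_n hs, conjBy_inv_conjBy]

/-- `b(a⁻¹) = b(a)⁻¹`. -/
theorem Rel.inv (hs : IsSpecialRankOnePair A B) (h : Rel A B a b) : Rel A B a⁻¹ b⁻¹ := by
  refine ⟨A.inv_mem h.1, by simpa using h.2.1, B.inv_mem h.2.2.1, by simpa using h.2.2.2.1, ?_⟩
  rw [inv_inv, inv_inv]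
  have h1 := h.conjBy_A_n_inv hs
  have e : (a * b⁻¹ * a)⁻¹ = a⁻¹ * (b * a⁻¹) := by group
  rw [e, ← conjBy_conjBy, ← conjBy_conjBy, conjBy_of_mem (A.inv_mem h.1), conjBy_eq_iff, inv_inv] at h1
  exact h1

theorem Rel.conj_eq (hs : IsSpecialRankOnePair A B) (h : Rel A B a b) : conjBy A b = conjBy B a := by
  have := (h.inv hs).2.2.2.2
  rwa [inv_inv, inv_inv] at this

theorem Rel.n_mem (h : Rel A B a b) : a * b⁻¹ * a ∈ A ⊔ B :=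
  Subgroup.mul_mem _ (Subgroup.mul_mem _ (Subgroup.mem_sup_left h.1) (Subgroup.mem_sup_right (B.inv_mem h.2.2.1)))
    (Subgroup.mem_sup_left h.1)

theorem Rel.pow_eq_one_iff (hs : IsSpecialRankOnePair A B) (h : Rel A B a b) (k : ℕ) : b ^ k = 1 ↔ a ^ k = 1 := by
  have h1 := conj_a_of_eq (h.eq hs)
  have h2 : (a * b⁻¹ * a) * a ^ k * (a * b⁻¹ * a)⁻¹ = (b ^ k)⁻¹ := by
    rw [← conj_pow, h1, inv_pow]
  constructor
  · intro hb
    rw [hb, inv_one] at h2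
    have : a ^ k = (a * b⁻¹ * a)⁻¹ * ((a * b⁻¹ * a) * a ^ k * (a * b⁻¹ * a)⁻¹) * (a * b⁻¹ * a) := by group
    rw [this, h2]; group
  · intro ha
    rw [ha] at h2
    have h3 : (b ^ k)⁻¹ = 1 := by rw [← h2]; group
    simpa using h3

end Special

end Cfsg.Agent.Lib.Helper25
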