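import Mathlib
import Cfsg.Prelude.Def_RootSubgroups
import Cfsg.Agent.Lib.Helper25.Special

set_option autoImplicit false
open Cfsg
open scoped commutatorElement

namespace Cfsg.Agent.Lib.Helper25

variable {G : Type*} [Group G]

namespace Special

variable {A B : Subgroup G}

theorem isNilpotent_of_isMulCommutative {K : Subgroup G} (h : IsMulCommutative K) : Group.IsNilpotent K := by
  let _ : CommGroup K := { (inferInstance : Group K) with mul_comm := h.is_comm.comm }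
  exact CommGroup.isNilpotent

theorem inv_conj {m u b : G} (h : m * u * m⁻¹ = b⁻¹) : b = m * u⁻¹ * m⁻¹ := by
  rw [← inv_inv b, ← h]; group

/-- coordinates: an element `n` interchanging `A` and `B` maps the point `u` to a point in `u⁻¹ A₁`. -/
theorem coord (hs : IsSpecialRankOnePair A B) (hab : IsMulCommutative A) {A₁ : Subgroup G}
    (hH : ∀ x ∈ A, ∀ h ∈ A ⊔ B, conjBy A h = A → conjBy B h = B → h * x * h⁻¹ * x⁻¹ ∈ A₁)
    {n : G} (hn : n ∈ A ⊔ B) (hnA : conjBy A n = B) (hnB : conjBy B n = A) {u : G} (hu : u ∈ A) (hu1 : u ≠ 1) :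
    ∃ u' ∈ A, u * u' ∈ A₁ ∧ conjBy B (n * u) = conjBy B u' := by
  obtain ⟨b, hb⟩ := exists_right hs.1 hu hu1
  have h1 : (u * b⁻¹ * u) * u * (u * b⁻¹ * u)⁻¹ = b⁻¹ := conj_a_of_eq (hb.eq hs)
  have hb' : b = (u * b⁻¹ * u) * u⁻¹ * (u * b⁻¹ * u)⁻¹ := inv_conj h1
  set m := u * b⁻¹ * u with hm
  have hmX : m ∈ A ⊔ B := hb.n_mem
  have hmA : conjBy A m = B := hb.conjBy_A_n hs
  have hmB : conjBy B m = A := hb.conjBy_B_n hs
  have hu' : n * b * n⁻¹ ∈ A := by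
    have := conj_mem_conjBy hb.2.2.1 n
    rwa [hnB] at this
  refine ⟨n * b * n⁻¹, hu', ?_, ?_⟩
  · have h2 := hH u⁻¹ (A.inv_mem hu) (n * m) (Subgroup.mul_mem _ hn hmX)
      (by rw [← conjBy_conjBy, hmA, hnB]) (by rw [← conjBy_conjBy, hmB, hnA])
    have e : n * b * n⁻¹ = (n * m) * u⁻¹ * (n * m)⁻¹ := by
      conv_lhs => rw [hb']
      group
    rw [comm_of_isMulCommutative hab hu hu', e]
    simpa using h2
  · rw [← conjBy_conjBy, ← hb.conj_eq hs, conjBy_conjBy]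
    have e : conjBy A (n * b) = conjBy (conjBy A n) (n * b * n⁻¹) := by
      rw [conjBy_conjBy]; congr 1; group
    rw [e, hnA]

/-- the block lemma. -/
theorem block (hs : IsSpecialRankOnePair A B) (hab : IsMulCommutative A) {A₁ : Subgroup G} (hA₁ : A₁ ≤ A)
    (hH : ∀ x ∈ A, ∀ h ∈ A ⊔ B, conjBy A h = A → conjBy B h = B → h * x * h⁻¹ * x⁻¹ ∈ A₁)
    {s b : G} (hsb : Rel A B s b) {t : G} (ht : t ∈ A) (ht1 : t ∉ A₁) (hst : s * t ∉ A₁) {a : G} (ha : a ∈ A₁) :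
    ∃ a' ∈ A₁, conjBy (conjBy B (t * a)) (s⁻¹ * b) = conjBy B (t * a') := by
  have hc : ∀ x ∈ A, ∀ y ∈ A, x * y = y * x := fun x hx y hy => comm_of_isMulCommutative hab hx hy
  set n := s * b⁻¹ * s with hn
  have hnX : n ∈ A ⊔ B := hsb.n_mem
  have hb' : b = n * s⁻¹ * n⁻¹ := inv_conj (conj_a_of_eq (hsb.eq hs))
  have hta : t * a ∈ A := A.mul_mem ht (hA₁ ha)
  have hta1 : t * a ≠ 1 := by
    intro h
    apply ht1
    have : t = a⁻¹ := eq_inv_of_mul_eq_one_left h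
    rw [this]; exact A₁.inv_mem ha
  obtain ⟨u₁, hu₁, hu₁', e₁⟩ := coord hs hab hH (Subgroup.inv_mem _ hnX) (hsb.conjBy_A_n_inv hs)
    (hsb.conjBy_B_n_inv hs) hta hta1
  have hu₂ : s⁻¹ * u₁ ∈ A := A.mul_mem (A.inv_mem hsb.1) hu₁
  have hu₂1 : s⁻¹ * u₁ ≠ 1 := by
    intro h
    apply hst
    have h2 : u₁ = s := by
      have := eq_inv_of_mul_eq_one_right h
      simpa using this
    rw [h2] at hu₁'
    have h3 := A₁.mul_mem hu₁' (A₁.inv_mem ha)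
    have e : t * a * s * a⁻¹ = s * t := by
      rw [hc _ hta s hsb.1, mul_assoc, mul_assoc, mul_inv_cancel, mul_one]
    rwa [e] at h3
  obtain ⟨u₃, hu₃, hu₃', e₃⟩ := coord hs hab hH hnX (hsb.conjBy_A_n hs) (hsb.conjBy_B_n hs) hu₂ hu₂1
  refine ⟨t⁻¹ * (s⁻¹ * u₃), ?_, ?_⟩
  · -- `t⁻¹ s⁻¹ u₃ = (s⁻¹ u₁ u₃) (t a u₁)⁻¹ a`
    have h4 := A₁.mul_mem (A₁.mul_mem hu₃' (A₁.inv_mem hu₁')) ha
    have e : s⁻¹ * u₁ * u₃ * (t * a * u₁)⁻¹ * a = t⁻¹ * (s⁻¹ * u₃) := by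
      have c1 : u₁ * u₃ = u₃ * u₁ := hc _ hu₁ _ hu₃
      have c2 : a⁻¹ * t⁻¹ = t⁻¹ * a⁻¹ := hc _ (A.inv_mem (hA₁ ha)) _ (A.inv_mem ht)
      have c3 : s⁻¹ * u₃ * t⁻¹ = t⁻¹ * (s⁻¹ * u₃) := hc _ (A.mul_mem (A.inv_mem hsb.1) hu₃) _ (A.inv_mem ht)
      calc s⁻¹ * u₁ * u₃ * (t * a * u₁)⁻¹ * a = s⁻¹ * (u₁ * u₃) * u₁⁻¹ * (a⁻¹ * t⁻¹) * a := by group
        _ = s⁻¹ * (u₃ * u₁) * u₁⁻¹ * (t⁻¹ * a⁻¹) * a := by rw [c1, c2]
        _ = s⁻¹ * u₃ * t⁻¹ := by group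
        _ = t⁻¹ * (s⁻¹ * u₃) := c3
    rwa [e] at h4
  · rw [conjBy_conjBy]
    have e : s⁻¹ * b * (t * a) = s⁻¹ * (n * (s⁻¹ * (n⁻¹ * (t * a)))) := by
      conv_lhs => rw [hb']
      group
    rw [e, ← conjBy_conjBy B _ s⁻¹, ← conjBy_conjBy B _ n, ← conjBy_conjBy B _ s⁻¹, e₁, conjBy_conjBy B u₁ s⁻¹,
      conjBy_conjBy B _ n, e₃, conjBy_conjBy]
    congr 1
    group

theorem map_A (hs : IsSpecialRankOnePair A B) {s b : G} (hsb : Rel A B s b) : conjBy A (s⁻¹ * b) = B := by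
  rw [← conjBy_conjBy, hsb.conj_eq hs, conjBy_inv_conjBy]

/-- K1': if the diagonal subgroup centralizes `A`, then `A` has at most three elements: there are no two different
elements of `A` outside `{1, s⁻¹}`. -/
theorem small_of_diag_centralizes (hs : IsSpecialRankOnePair A B) (hab : IsMulCommutative A)
    (hH : ∀ x ∈ A, ∀ h ∈ A ⊔ B, conjBy A h = A → conjBy B h = B → h * x * h⁻¹ * x⁻¹ = 1)
    {s t t' : G} (hs' : s ∈ A) (hs1 : s ≠ 1) (ht : t ∈ A) (ht1 : t ≠ 1) (hst : s * t ≠ 1)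
    (ht' : t' ∈ A) (ht'1 : t' ≠ 1) (hst' : s * t' ≠ 1) (hne : t ≠ t') : False := by
  obtain ⟨b, hsb⟩ := exists_right hs.1 hs' hs1
  have hH' : ∀ x ∈ A, ∀ h ∈ A ⊔ B, conjBy A h = A → conjBy B h = B → h * x * h⁻¹ * x⁻¹ ∈ (⊥ : Subgroup G) :=
    fun x hx h hh h1 h2 => Subgroup.mem_bot.mpr (hH x hx h hh h1 h2)
  have fix : ∀ t ∈ A, t ≠ 1 → s * t ≠ 1 → conjBy (conjBy B t) (s⁻¹ * b) = conjBy B t := by
    intro t ht ht1 hst
    obtain ⟨a', ha', h1⟩ := block hs hab bot_le hH' hsb ht (fun h => ht1 (Subgroup.mem_bot.mp h))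
      (fun h => hst (Subgroup.mem_bot.mp h)) (Subgroup.one_mem _)
    rw [Subgroup.mem_bot.mp ha', mul_one] at h1
    exact h1
  have hvX : s⁻¹ * b ∈ A ⊔ B :=
    Subgroup.mul_mem _ (Subgroup.mem_sup_left (A.inv_mem hs')) (Subgroup.mem_sup_right hsb.2.2.1)
  have hP : conjBy B t ∈ unipotentSubgroups A B :=
    RankOne.conj_mem_unipotent (RankOne.right_mem_unipotent hs.1) (Subgroup.mem_sup_left ht)
  have hP' : conjBy B t' ∈ unipotentSubgroups A B :=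
    RankOne.conj_mem_unipotent (RankOne.right_mem_unipotent hs.1) (Subgroup.mem_sup_left ht')
  have hPP' : conjBy B t ≠ conjBy B t' := fun h => hne (RankOne.conj_right_injOn hs.1 ht ht' h)
  obtain ⟨g, hg, hgA, hgB⟩ := RankOne.exists_conj_pair hs.1 hP hP' hPP'
  set v := s⁻¹ * b with hv
  have hhX : g⁻¹ * v * g ∈ A ⊔ B := Subgroup.mul_mem _ (Subgroup.mul_mem _ (Subgroup.inv_mem _ hg) hvX) hg
  have hhA : conjBy A (g⁻¹ * v * g) = A := by
    rw [← conjBy_conjBy, ← conjBy_conjBy, ← hgA, fix t ht ht1 hst, hgA, conjBy_inv_conjBy]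
  have hhB : conjBy B (g⁻¹ * v * g) = B := by
    rw [← conjBy_conjBy, ← conjBy_conjBy, ← hgB, fix t' ht' ht'1 hst', hgB, conjBy_inv_conjBy]
  -- the diagonal subgroup centralizes `A` and `B`
  have cA : ∀ h ∈ A ⊔ B, conjBy A h = A → conjBy B h = B → ∀ x ∈ A, h * x = x * h := by
    intro h hh h1 h2 x hx
    have := hH x hx h hh h1 h2
    have e : h * x = (h * x * h⁻¹ * x⁻¹) * (x * h) := by group
    rw [e, this, one_mul]
  have cB : ∀ h ∈ A ⊔ B, conjBy A h = A → conjBy B h = B → ∀ y ∈ B, h * y = y * h := by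
    intro h hh h1 h2 y hy
    set n := s * b⁻¹ * s with hn
    have hnX : n ∈ A ⊔ B := hsb.n_mem
    have hnA : conjBy A n = B := hsb.conjBy_A_n hs
    have hnB : conjBy B n = A := hsb.conjBy_B_n hs
    have hnA' : conjBy A n⁻¹ = B := hsb.conjBy_A_n_inv hs
    have hnB' : conjBy B n⁻¹ = A := hsb.conjBy_B_n_inv hs
    have hy' : n⁻¹ * y * n ∈ A := by
      have := conj_mem_conjBy hy n⁻¹
      rwa [hnB', inv_inv] at this
    have h3 := cA (n⁻¹ * h * n) (Subgroup.mul_mem _ (Subgroup.mul_mem _ (Subgroup.inv_mem _ hnX) hh) hnX)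
      (by rw [← conjBy_conjBy, ← conjBy_conjBy, hnA, h2, hnB'])
      (by rw [← conjBy_conjBy, ← conjBy_conjBy, hnB, h1, hnA']) _ hy'
    have e1 : h * y = n * ((n⁻¹ * h * n) * (n⁻¹ * y * n)) * n⁻¹ := by group
    have e2 : y * h = n * ((n⁻¹ * y * n) * (n⁻¹ * h * n)) * n⁻¹ := by group
    rw [e1, e2, h3]
  have hcen : ∀ x ∈ A ⊔ B, (g⁻¹ * v * g) * x = x * (g⁻¹ * v * g) := by
    have hle : A ⊔ B ≤ Subgroup.centralizer {g⁻¹ * v * g} := by
      rw [sup_le_iff]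
      constructor
      · intro x hx
        rw [Subgroup.mem_centralizer_iff]
        intro y hy
        rw [Set.mem_singleton_iff.mp hy]
        exact cA _ hhX hhA hhB x hx
      · intro x hx
        rw [Subgroup.mem_centralizer_iff]
        intro y hy
        rw [Set.mem_singleton_iff.mp hy]
        exact cB _ hhX hhA hhB x hx
    intro x hx
    exact Subgroup.mem_centralizer_iff.mp (hle hx) _ rfl
  have hvv : g⁻¹ * v * g = v := by
    have := hcen g⁻¹ (Subgroup.inv_mem _ hg)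
    have e : v = g * (g⁻¹ * v * g * g⁻¹) := by group
    conv_rhs => rw [e, this]
    group
  rw [hvv] at hhA
  rw [map_A hs hsb] at hhA
  exact hs.1.ne hhA.symm

theorem cond_sub (hs : IsSpecialRankOnePair A B) {Y : Subgroup G} (hY : ∀ x ∈ A ⊔ B, conjBy Y x = Y) :
    RankOneCondition (A ⊓ Y) (B ⊓ Y) := by
  intro a ha ha1
  obtain ⟨b, hb⟩ := exists_right hs.1 ha.1 ha1
  have hbY : b ∈ Y := by
    have h1 : (a * b⁻¹ * a) * a * (a * b⁻¹ * a)⁻¹ = b⁻¹ := conj_a_of_eq (hb.eq hs)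
    have h2 := conj_mem_conjBy ha.2 (a * b⁻¹ * a)
    rw [hY _ hb.n_mem, h1] at h2
    simpa using h2
  refine ⟨b, ⟨hb.2.2.1, hbY⟩, hb.2.2.2.1, ?_⟩
  rw [conjBy_inf, conjBy_inf, hb.2.2.2.2, hY _ (Subgroup.mem_sup_right (B.inv_mem hb.2.2.1)),
    hY _ (Subgroup.mem_sup_left (A.inv_mem hb.1))]

theorem isMulCommutative_of_le {K L : Subgroup G} (h : IsMulCommutative L) (hle : K ≤ L) : IsMulCommutative K := by
  refine ⟨⟨?_⟩⟩
  rintro ⟨x, hx⟩ ⟨y, hy⟩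
  exact Subtype.ext (comm_of_isMulCommutative h (hle hx) (hle hy))

theorem pair_sub (hs : IsSpecialRankOnePair A B) (hab : HasAbelianUnipotents A B) {Y : Subgroup G}
    (hY : ∀ x ∈ A ⊔ B, conjBy Y x = Y) (hne : A ⊓ Y ≠ ⊥) : IsRankOnePair (A ⊓ Y) (B ⊓ Y) := by
  refine ⟨?_, isNilpotent_of_isMulCommutative (isMulCommutative_of_le hab.1 inf_le_left),
    isNilpotent_of_isMulCommutative (isMulCommutative_of_le hab.2 inf_le_left), cond_sub hs hY,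
    cond_sub (special_symm hs) (by rw [sup_comm]; exact hY)⟩
  intro h
  apply hne
  rw [eq_bot_iff, ← RankOne.inf_eq_bot hs.1]
  exact le_inf inf_le_left (h ▸ inf_le_left)

/-- K6: if `Y` is normalized by `A ⊔ B`, contains the commutators of `A` with the diagonal subgroup and meets `A`
non-trivially, then it contains `A`. -/
theorem le_of_inf_ne_bot (hs : IsSpecialRankOnePair A B) (hab : HasAbelianUnipotents A B) {Y : Subgroup G}
    (hY : ∀ x ∈ A ⊔ B, conjBy Y x = Y)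
    (hH : ∀ x ∈ A, ∀ h ∈ A ⊔ B, conjBy A h = A → conjBy B h = B → h * x * h⁻¹ * x⁻¹ ∈ Y)
    (hne : A ⊓ Y ≠ ⊥) : A ≤ Y := by
  by_contra hcon
  obtain ⟨t, ht, htY⟩ := SetLike.not_le_iff_exists.mp hcon
  have hc : ∀ x ∈ A, ∀ y ∈ A, x * y = y * x := fun x hx y hy => comm_of_isMulCommutative hab.1 hx hy
  have hp := pair_sub hs hab hY hne
  obtain ⟨a₁, ha₁, ha₁1⟩ := RankOne.exists_ne_one_left hp
  obtain ⟨b₁, hb₁⟩ := exists_right hs.1 ha₁.1 ha₁1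
  have hH' : ∀ x ∈ A, ∀ h ∈ A ⊔ B, conjBy A h = A → conjBy B h = B → h * x * h⁻¹ * x⁻¹ ∈ A ⊓ Y := by
    intro x hx h hh h1 h2
    refine ⟨?_, hH x hx h hh h1 h2⟩
    have := conj_mem_conjBy hx h
    rw [h1] at this
    exact A.mul_mem this (A.inv_mem hx)
  have ht1 : t ∉ A ⊓ Y := fun h => htY h.2
  have hst : a₁ * t ∉ A ⊓ Y := by
    intro h
    apply ht1
    have := (A ⊓ Y).mul_mem ((A ⊓ Y).inv_mem ha₁) h
    rwa [inv_mul_cancel_left] at this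
  set v := a₁⁻¹ * b₁ with hv
  have hvX : v ∈ A ⊔ B :=
    Subgroup.mul_mem _ (Subgroup.mem_sup_left (A.inv_mem ha₁.1)) (Subgroup.mem_sup_right hb₁.2.2.1)
  have hblock : ∀ a ∈ A ⊓ Y, ∃ a' ∈ A ⊓ Y, conjBy (conjBy B (t * a)) v = conjBy B (t * a') :=
    fun a ha => block hs hab.1 inf_le_left hH' hb₁ ht ht1 hst ha
  -- the rank one pair `(A₁, t B₁ t⁻¹)`
  have hAt : conjBy (A ⊓ Y) t = A ⊓ Y := conjBy_of_centralizes (fun c hc' => hc t ht c hc'.1)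
  have hpt : IsRankOnePair (A ⊓ Y) (conjBy (B ⊓ Y) t) := by
    have := RankOne.conj hp t
    rwa [hAt] at this
  have hmemU : ∀ a ∈ A ⊓ Y, conjBy (B ⊓ Y) (t * a) ∈ unipotentSubgroups (A ⊓ Y) (conjBy (B ⊓ Y) t) := by
    intro a ha
    rw [hc t ht a ha.1, ← conjBy_conjBy]
    exact RankOne.conj_mem_unipotent (RankOne.right_mem_unipotent hpt) (Subgroup.mem_sup_left ha)
  have hinfY : ∀ g ∈ A ⊔ B, conjBy (B ⊓ Y) g = conjBy B g ⊓ Y := by
    intro g hg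
    rw [conjBy_inf, hY g hg]
  have hinj : ∀ a ∈ A ⊓ Y, ∀ a' ∈ A ⊓ Y, conjBy (B ⊓ Y) (t * a) = conjBy (B ⊓ Y) (t * a') → a = a' := by
    intro a ha a' ha' h
    rw [hc t ht a ha.1, hc t ht a' ha'.1, ← conjBy_conjBy, ← conjBy_conjBy] at h
    exact RankOne.conj_right_injOn hpt ha ha' h
  have htX : ∀ a ∈ A ⊓ Y, t * a ∈ A ⊔ B := fun a ha => Subgroup.mem_sup_left (A.mul_mem ht ha.1)
  obtain ⟨a₂, ha₂, e₂⟩ := hblock 1 (Subgroup.one_mem _)
  obtain ⟨a₃, ha₃, e₃⟩ := hblock a₁ ha₁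
  have e₂' : conjBy (conjBy (B ⊓ Y) (t * 1)) v = conjBy (B ⊓ Y) (t * a₂) := by
    rw [hinfY _ (htX 1 (Subgroup.one_mem _)), conjBy_inf, hY v hvX, e₂, hinfY _ (htX a₂ ha₂)]
  have e₃' : conjBy (conjBy (B ⊓ Y) (t * a₁)) v = conjBy (B ⊓ Y) (t * a₃) := by
    rw [hinfY _ (htX a₁ ha₁), conjBy_inf, hY v hvX, e₃, hinfY _ (htX a₃ ha₃)]
  have hne1 : conjBy (B ⊓ Y) (t * 1) ≠ conjBy (B ⊓ Y) (t * a₁) :=
    fun h => ha₁1 (hinj 1 (Subgroup.one_mem _) a₁ ha₁ h).symm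
  have hK1 := RankOne.sup_of_mem hpt (hmemU 1 (Subgroup.one_mem _)) (hmemU a₁ ha₁) hne1
  have hne2 : conjBy (B ⊓ Y) (t * a₂) ≠ conjBy (B ⊓ Y) (t * a₃) := by
    rw [← e₂', ← e₃']
    exact fun h => hne1 (conjBy_inj.mp h)
  have hK2 := RankOne.sup_of_mem hpt (hmemU a₂ ha₂) (hmemU a₃ ha₃) hne2
  have hKv : conjBy ((A ⊓ Y) ⊔ conjBy (B ⊓ Y) t) v = (A ⊓ Y) ⊔ conjBy (B ⊓ Y) t := by
    conv_lhs => rw [← hK1]
    rw [conjBy_sup, e₂', e₃', hK2]
  have hB₁K : B ⊓ Y ≤ (A ⊓ Y) ⊔ conjBy (B ⊓ Y) t := by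
    have h1 : conjBy (A ⊓ Y) v = B ⊓ Y := by rw [conjBy_inf, hY v hvX, map_A hs hb₁]
    calc B ⊓ Y = conjBy (A ⊓ Y) v := h1.symm
      _ ≤ conjBy ((A ⊓ Y) ⊔ conjBy (B ⊓ Y) t) v := conjBy_mono le_sup_left v
      _ = (A ⊓ Y) ⊔ conjBy (B ⊓ Y) t := hKv
  obtain ⟨b, hb, hb1⟩ := RankOne.exists_ne_one_right hp
  obtain ⟨a', ha', _, hab'⟩ := RankOne.cond_right' hp hb hb1
  have hU : conjBy (A ⊓ Y) b ∈ unipotentSubgroups (A ⊓ Y) (conjBy (B ⊓ Y) t) :=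
    RankOne.conj_mem_unipotent (RankOne.left_mem_unipotent _ _) (hB₁K hb)
  rcases (RankOne.mem_unipotent_iff hpt).mp hU with h1 | ⟨a, ha, h1⟩
  · exact hb1 (RankOne.eq_one_of_normalizes (RankOne.symm hp) hb h1)
  · rw [← hab', conjBy_conjBy] at h1
    -- `a' B₁ a'⁻¹ = (a t) B₁ (a t)⁻¹`
    have h2 : conjBy (B ⊓ Y) (a'⁻¹ * (a * t)) = B ⊓ Y := by
      rw [← conjBy_conjBy, ← h1, conjBy_inv_conjBy]
    have hgA : a'⁻¹ * (a * t) ∈ A := A.mul_mem (A.inv_mem ha'.1) (A.mul_mem ha.1 ht)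
    have h3 : conjBy B (a'⁻¹ * (a * t)) = B := by
      by_contra hne3
      have h4 := RankOne.inf_eq_bot_of_mem hs.1
        (RankOne.conj_mem_unipotent (RankOne.right_mem_unipotent hs.1) (Subgroup.mem_sup_left hgA))
        (RankOne.right_mem_unipotent hs.1) hne3
      have h5 : b ∈ conjBy B (a'⁻¹ * (a * t)) ⊓ B := by
        refine ⟨?_, hb.1⟩
        have : b ∈ conjBy (B ⊓ Y) (a'⁻¹ * (a * t)) := by rw [h2]; exact hb
        exact conjBy_mono inf_le_left _ this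
      rw [h4, Subgroup.mem_bot] at h5
      exact hb1 h5
    have h6 := RankOne.eq_one_of_normalizes hs.1 hgA h3
    apply ht1
    have h7 : t = a⁻¹ * a' := by
      have : a * t = a' := by
        have := eq_inv_of_mul_eq_one_right h6
        simpa using this
      rw [← this]; group
    rw [h7]
    exact (A ⊓ Y).mul_mem ((A ⊓ Y).inv_mem ha) ha'

theorem exists_not_mem_of_card {A : Subgroup G} (hcard : 3 < ENat.card A) (F : Finset G) (hF : F.card ≤ 3) :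
    ∃ x ∈ A, x ∉ F := by
  by_contra hcon
  push Not at hcon
  have h1 : (A : Set G) ⊆ (F : Set G) := fun x hx => hcon x hx
  have h2 := Set.encard_le_encard h1
  rw [Set.encard_coe_eq_coe_finsetCard] at h2
  have h3 : ENat.card A = (A : Set G).encard := rfl
  rw [h3] at hcard
  have h4 : ((F.card : ℕ) : ℕ∞) ≤ 3 := by exact_mod_cast hF
  exact absurd (lt_of_lt_of_le hcard (h2.trans h4)) (lt_irrefl _)

theorem conjBy_commutator_self {X : Subgroup G} {x : G} (hx : x ∈ X) : conjBy ⁅X, X⁆ x = ⁅X, X⁆ := by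
  have : conjBy ⁅X, X⁆ x = ⁅conjBy X x, conjBy X x⁆ := Subgroup.map_commutator X X _
  rw [this, conjBy_of_mem hx]

/-- a special rank one group with abelian unipotent subgroups of more than three elements is perfect. -/
theorem le_commutator_of_card (hs : IsSpecialRankOnePair A B) (hab : HasAbelianUnipotents A B)
    (hcard : 3 < ENat.card A) : A ≤ ⁅A ⊔ B, A ⊔ B⁆ := by
  have hY : ∀ x ∈ A ⊔ B, conjBy ⁅A ⊔ B, A ⊔ B⁆ x = ⁅A ⊔ B, A ⊔ B⁆ := fun x hx => conjBy_commutator_self hx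
  have hH : ∀ x ∈ A, ∀ h ∈ A ⊔ B, conjBy A h = A → conjBy B h = B → h * x * h⁻¹ * x⁻¹ ∈ ⁅A ⊔ B, A ⊔ B⁆ :=
    fun x hx h hh _ _ => Subgroup.commutator_mem_commutator hh (Subgroup.mem_sup_left hx)
  by_cases hne : A ⊓ ⁅A ⊔ B, A ⊔ B⁆ = ⊥
  · exfalso
    have hH1 : ∀ x ∈ A, ∀ h ∈ A ⊔ B, conjBy A h = A → conjBy B h = B → h * x * h⁻¹ * x⁻¹ = 1 := by
      intro x hx h hh h1 h2
      have h3 : h * x * h⁻¹ * x⁻¹ ∈ A ⊓ ⁅A ⊔ B, A ⊔ B⁆ := by
        refine ⟨?_, hH x hx h hh h1 h2⟩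
        have := conj_mem_conjBy hx h
        rw [h1] at this
        exact A.mul_mem this (A.inv_mem hx)
      rwa [hne, Subgroup.mem_bot] at h3
    obtain ⟨s, hs', hs1⟩ := RankOne.exists_ne_one_left hs.1
    classical
    obtain ⟨t, ht, htF⟩ := exists_not_mem_of_card hcard {1, s⁻¹} (by
      exact (Finset.card_insert_le _ _).trans (by simp))
    obtain ⟨t', ht', htF'⟩ := exists_not_mem_of_card hcard {1, s⁻¹, t} (by
      refine (Finset.card_insert_le _ _).trans ?_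
      have := Finset.card_insert_le s⁻¹ ({t} : Finset G)
      simp only [Finset.card_singleton] at this
      omega)
    simp only [Finset.mem_insert, Finset.mem_singleton, not_or] at htF htF'
    refine small_of_diag_centralizes hs hab.1 hH1 hs' hs1 ht htF.1 ?_ ht' htF'.1 ?_ (Ne.symm htF'.2.2)
    · intro h
      exact htF.2 (eq_inv_of_mul_eq_one_right h)
    · intro h
      exact htF'.2.1 (eq_inv_of_mul_eq_one_right h)
  · exact le_of_inf_ne_bot hs hab hY hH hne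

theorem sup_le_commutator_of_card (hs : IsSpecialRankOnePair A B) (hab : HasAbelianUnipotents A B)
    (hcard : 3 < ENat.card A) : A ⊔ B ≤ ⁅A ⊔ B, A ⊔ B⁆ := by
  have hA := le_commutator_of_card hs hab hcard
  apply sup_le hA
  obtain ⟨g, hg, hB⟩ := RankOne.right_mem_unipotent hs.1
  calc B = conjBy A g := hB
    _ ≤ conjBy ⁅A ⊔ B, A ⊔ B⁆ g := conjBy_mono hA g
    _ = ⁅A ⊔ B, A ⊔ B⁆ := conjBy_commutator_self hg

end Special

end Cfsg.Agent.Lib.Helper25
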