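import Mathlib
import Cfsg.Prelude.Def_RootSubgroups
import Cfsg.Agent.Lib.Helper25.RankOne
import Cfsg.Agent.S5019

set_option autoImplicit false
open Cfsg

namespace Cfsg.Agent.Lib.Helper25

variable {G : Type*} [Group G]

namespace Transfer

theorem conjBy_subgroupOf (A H : Subgroup G) (h : H) :
    conjBy (A.subgroupOf H) h = (conjBy A (h : G)).subgroupOf H := by
  ext x
  rw [mem_conjBy, Subgroup.mem_subgroupOf, Subgroup.mem_subgroupOf, mem_conjBy]
  simp

theorem subgroupOf_eq_iff {A B H : Subgroup G} (hA : A ≤ H) (hB : B ≤ H) :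
    A.subgroupOf H = B.subgroupOf H ↔ A = B := by
  rw [Subgroup.subgroupOf_inj, inf_eq_left.mpr hA, inf_eq_left.mpr hB]

theorem rankOneCondition_subgroupOf {A B H : Subgroup G} (hB : B ≤ H) (h : RankOneCondition A B) :
    RankOneCondition (A.subgroupOf H) (B.subgroupOf H) := by
  intro a ha ha1
  rw [Subgroup.mem_subgroupOf] at ha
  obtain ⟨b, hb, hb1, hab⟩ := h a ha (fun h => ha1 (Subtype.ext h))
  refine ⟨⟨b, hB hb⟩, Subgroup.mem_subgroupOf.mpr hb, fun h => hb1 (congrArg Subtype.val h), ?_⟩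
  rw [conjBy_subgroupOf, conjBy_subgroupOf]
  simp only [InvMemClass.coe_inv]
  rw [hab]

theorem rankOnePair_subgroupOf {A B H : Subgroup G} (hA : A ≤ H) (hB : B ≤ H) (h : IsRankOnePair A B) :
    IsRankOnePair (A.subgroupOf H) (B.subgroupOf H) :=
  ⟨fun he => h.ne ((subgroupOf_eq_iff hA hB).mp he),
    (Group.isNilpotent_congr (Subgroup.subgroupOfEquivOfLe hA)).mpr h.nilpotent_left,
    (Group.isNilpotent_congr (Subgroup.subgroupOfEquivOfLe hB)).mpr h.nilpotent_right,
    rankOneCondition_subgroupOf hB h.cond_left, rankOneCondition_subgroupOf hA h.cond_right⟩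

theorem rankOneGroup_subgroupOf {A B : Subgroup G} (h : IsRankOnePair A B) :
    IsRankOneGroup ↥(A ⊔ B) (A.subgroupOf (A ⊔ B)) (B.subgroupOf (A ⊔ B)) := by
  refine ⟨?_, rankOnePair_subgroupOf le_sup_left le_sup_right h⟩
  rw [← Subgroup.subgroupOf_sup le_sup_left le_sup_right, Subgroup.subgroupOf_self]

theorem isMulCommutative_subgroupOf {A : Subgroup G} (H : Subgroup G) (h : IsMulCommutative A) :
    IsMulCommutative (A.subgroupOf H) := by
  refine ⟨⟨?_⟩⟩
  rintro ⟨x, hx⟩ ⟨y, hy⟩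
  apply Subtype.ext
  apply Subtype.ext
  exact comm_of_isMulCommutative h hx hy

theorem special_of_subgroupOf {A B H : Subgroup G} (hA : A ≤ H) (hB : B ≤ H) (h : IsRankOnePair A B)
    (hs : IsSpecialRankOnePair (A.subgroupOf H) (B.subgroupOf H)) : IsSpecialRankOnePair A B := by
  refine ⟨h, ?_⟩
  intro a ha ha1 b hb hb1 hab
  have := hs.2 ⟨a, hA ha⟩ (Subgroup.mem_subgroupOf.mpr ha) (fun h => ha1 (congrArg Subtype.val h))
    ⟨b, hB hb⟩ (Subgroup.mem_subgroupOf.mpr hb) (fun h => hb1 (congrArg Subtype.val h)) (by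
      rw [conjBy_subgroupOf, conjBy_subgroupOf]
      simp only [InvMemClass.coe_inv]
      rw [hab])
  exact congrArg Subtype.val this

theorem special_subgroupOf {A B H : Subgroup G} (hA : A ≤ H) (hB : B ≤ H)
    (hs : IsSpecialRankOnePair A B) : IsSpecialRankOnePair (A.subgroupOf H) (B.subgroupOf H) := by
  refine ⟨rankOnePair_subgroupOf hA hB hs.1, ?_⟩
  intro a ha ha1 b hb hb1 hab
  apply Subtype.ext
  have hle1 : conjBy A ((b : G)⁻¹) ≤ H := conjBy_le_of_mem hA (H.inv_mem b.2)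
  have hle2 : conjBy B ((a : G)⁻¹) ≤ H := conjBy_le_of_mem hB (H.inv_mem a.2)
  have := hs.2 a ha (fun h => ha1 (Subtype.ext h)) b hb (fun h => hb1 (Subtype.ext h)) (by
    rw [conjBy_subgroupOf, conjBy_subgroupOf] at hab
    simp only [InvMemClass.coe_inv] at hab
    exact (subgroupOf_eq_iff hle1 hle2).mp hab)
  simpa using this

/-- conjugation action of a subgroup `X` on (the additive version of) a commutative subgroup `M` it normalizes. -/
@[reducible] def conjDistribMulAction (X M : Subgroup G) [CommGroup M] (hnorm : ∀ x ∈ X, ∀ m ∈ M, x * m * x⁻¹ ∈ M)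
    (hmul : ∀ m m' : M, ((m * m' : M) : G) = (m : G) * (m' : G)) (hone : ((1 : M) : G) = 1) :
    DistribMulAction X (Additive M) where
  smul x m := Additive.ofMul ⟨(x : G) * ((Additive.toMul m : M) : G) * (x : G)⁻¹, hnorm x x.2 _ (Additive.toMul m).2⟩
  one_smul m := by
    change Additive.ofMul (⟨((1 : X) : G) * ((Additive.toMul m : M) : G) * ((1 : X) : G)⁻¹, _⟩ : M) = m
    apply Additive.toMul.injective
    apply Subtype.ext
    simp
  mul_smul x y m := by
    apply Additive.toMul.injective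
    apply Subtype.ext
    change ((x * y : X) : G) * ((Additive.toMul m : M) : G) * ((x * y : X) : G)⁻¹ =
      (x : G) * ((y : G) * ((Additive.toMul m : M) : G) * (y : G)⁻¹) * (x : G)⁻¹
    simp [mul_assoc]
  smul_zero x := by
    apply Additive.toMul.injective
    apply Subtype.ext
    change (x : G) * (((1 : M)) : G) * (x : G)⁻¹ = ((1 : M) : G)
    rw [hone]; simp
  smul_add x m m' := by
    apply Additive.toMul.injective
    apply Subtype.ext
    change (x : G) * (((Additive.toMul m * Additive.toMul m' : M)) : G) * (x : G)⁻¹ =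
      (((⟨(x : G) * ((Additive.toMul m : M) : G) * (x : G)⁻¹, hnorm x x.2 _ (Additive.toMul m).2⟩ : M) *
        (⟨(x : G) * ((Additive.toMul m' : M) : G) * (x : G)⁻¹, hnorm x x.2 _ (Additive.toMul m').2⟩ : M) : M) : G)
    rw [hmul, hmul]; simp [mul_assoc]

theorem special_of_quadratic_action {A B M : Subgroup G} (hAB : IsRankOnePair A B) (hab : HasAbelianUnipotents A B)
    (hMc : ∀ x ∈ M, ∀ y ∈ M, x * y = y * x) (hnorm : ∀ x ∈ A ⊔ B, ∀ m ∈ M, x * m * x⁻¹ ∈ M)
    (hq : ∀ a ∈ A, ∀ a' ∈ A, ∀ m ∈ M, a' * (a * m * a⁻¹ * m⁻¹) * a'⁻¹ = a * m * a⁻¹ * m⁻¹)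
    (hX : ∃ x ∈ A ⊔ B, ∃ y ∈ A ⊔ B, ∃ m ∈ M, y * (x * m * x⁻¹ * m⁻¹) * y⁻¹ ≠ x * m * x⁻¹ * m⁻¹) :
    IsSpecialRankOnePair A B := by
  letI : CommGroup M := { (inferInstance : Group M) with mul_comm := fun x y => Subtype.ext (hMc x x.2 y y.2) }
  letI : DistribMulAction ↥(A ⊔ B) (Additive M) := conjDistribMulAction (A ⊔ B) M hnorm (fun _ _ => rfl) rfl
  have hsmul : ∀ (x : ↥(A ⊔ B)) (n : Additive M),
      ((Additive.toMul (x • n) : M) : G) = (x : G) * ((Additive.toMul n : M) : G) * (x : G)⁻¹ := fun _ _ => rfl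
  have hsub : ∀ (n n' : Additive M),
      ((Additive.toMul (n - n') : M) : G) = ((Additive.toMul n : M) : G) * ((Additive.toMul n' : M) : G)⁻¹ := by
    intro n n'
    rw [toMul_sub]
    simp [div_eq_mul_inv]
  apply special_of_subgroupOf le_sup_left le_sup_right hAB
  apply Cfsg.Agent.S5019.result (rankOneGroup_subgroupOf hAB)
    ⟨isMulCommutative_subgroupOf _ hab.1, isMulCommutative_subgroupOf _ hab.2⟩ (N := Additive M)
  · intro a ha a' ha' n
    apply Additive.toMul.injective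
    apply Subtype.ext
    rw [hsmul, hsub, hsmul]
    exact hq a ha a' ha' _ (Additive.toMul n).2
  · obtain ⟨x, hx, y, hy, m, hm, hne⟩ := hX
    refine ⟨⟨x, hx⟩, ⟨y, hy⟩, Additive.ofMul ⟨m, hm⟩, ?_⟩
    intro h
    apply hne
    have := congrArg (fun n : Additive M => ((Additive.toMul n : M) : G)) h
    simp only [hsmul, hsub] at this
    exact this

end Transfer

end Cfsg.Agent.Lib.Helper25
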